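import Cfsg.Agent.Lib.MonsterLocal.Cent

/-!
The centraliser acting on a family of sets of fixed classes.
-/

set_option autoImplicit false

namespace CfsgLib.MonsterLocal

open Cfsg CfsgLib.Fischer2 CfsgLib.Leech
open CfsgLib.Golay (idx pt idx_pt pt_idx idx_lt IsTbl tblAt)
open CfsgLib.McLInv (ap8)

variable {n : ℕ}

/-- `g` moves the `i`-th set into the `ρ i`-th. -/
def Moves (B : List (List ℤ)) (objs : Fin n → List ℕ) (g : Co0) (ρ : Equiv.Perm (Fin n)) : Prop :=
  ∀ i, ∀ x ∈ objs i, ∃ y ∈ objs (ρ i), CongTwo (g • combV B x) (combV B y)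

theorem moves_one (B : List (List ℤ)) (objs : Fin n → List ℕ) : Moves B objs 1 1 :=
  fun _ x hx => ⟨x, hx, by rw [one_smul]; exact CongTwo.refl _⟩

theorem Moves.mul {B : List (List ℤ)} {objs : Fin n → List ℕ} {g h : Co0} {ρ κ : Equiv.Perm (Fin n)}
    (hg : Moves B objs g ρ) (hh : Moves B objs h κ) : Moves B objs (g * h) (ρ * κ) := by
  intro i x hx
  obtain ⟨y, hy, hxy⟩ := hh i x hx
  obtain ⟨w, hw, hyw⟩ := hg (κ i) y hy
  exact ⟨w, hw, by rw [mul_smul]; exact (hxy.smul g).trans hyw⟩

theorem Moves.pow {B : List (List ℤ)} {objs : Fin n → List ℕ} {g : Co0} {ρ : Equiv.Perm (Fin n)}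
    (hg : Moves B objs g ρ) : ∀ m : ℕ, Moves B objs (g ^ m) (ρ ^ m)
  | 0 => by rw [pow_zero, pow_zero]; exact moves_one B objs
  | m + 1 => by rw [pow_succ, pow_succ]; exact (hg.pow m).mul hg

/-- The sets, and the permutations of the matrices. -/
structure ActData (n : ℕ) where
  /-- The sets of classes. -/
  objs : Fin n → List ℕ
  /-- The permutation of each matrix. -/
  perms : List (Equiv.Perm (Fin n))

/-- The check of the action. -/
def actOk (c : Data) (A : ActData n) : Bool :=
  decide (A.perms.length = c.ops.length) &&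
  ((List.finRange n).all fun i => (A.objs i).all (fun x => decide (x < 2 ^ c.D.length)) &&
    (List.finRange n).all fun j => decide (i = j) || (A.objs i).any fun x => !(A.objs j).contains x) &&
  (List.range c.ops.length).all fun m => (List.finRange n).all fun i => (A.objs i).all fun x =>
    (A.objs (A.perms.getD m 1 i)).contains (xorImg (c.imgs.getD m []) x)

/-- The powers of the table return to the start. -/
def powOk (c : Data) : Bool :=
  (List.range 24).all fun i => (Nat.rec (motive := fun _ => ℕ) i (fun _ a => tblAt c.t a) c.p) == i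

theorem pow_eq_one {c : Data} (hc : c.Ok) (h : powOk c = true) : c.τ ^ c.p = 1 := by
  obtain ⟨-, hτ, -⟩ := Data.base_spec hc
  simp only [powOk, List.all_eq_true, List.mem_range, beq_iff_eq] at h
  have key : ∀ m p, idx (((c.τ ^ m : M24) : Equiv.Perm GolayPt) p) =
      Nat.rec (motive := fun _ => ℕ) (idx p) (fun _ a => tblAt c.t a) m := by
    intro m
    induction m with
    | zero => exact fun p => rfl
    | succ m ih =>
      intro p
      rw [pow_succ', Subgroup.coe_mul, Equiv.Perm.mul_apply, hτ, ih]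
  refine Subtype.ext (Equiv.ext fun p => Golay.idx_injective ?_)
  rw [key, h _ (idx_lt p)]
  rfl

/-- The property of the homomorphism. -/
structure CentHom (c : Data) (T : Type*) [Group T] : Prop where
  order : orderOf c.σ = c.p
  exists_hom : ∃ π : Subgroup.centralizer ({c.σ} : Set Co0) →* T, Function.Surjective π ∧
    (∀ g, π g = 1 ↔ ∃ i : ℕ, (g : Co0) = c.σ ^ i ∨ (g : Co0) = c.σ ^ i * negAut) ∧
    ∀ g : Subgroup.centralizer ({c.σ} : Set Co0),
      (∀ x < 2 ^ c.D.length, CongTwo ((g : Co0) • combV c.B x) (combV c.B x)) → π g = 1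

theorem centHom {c : Data} (hc : c.Ok)
    (hrest : ∀ h : Co0, h * c.σ = c.σ * h → ∀ x ∈ c.rest, ¬ CongTwo (h • vecA) (combV c.B x))
    (hp : c.p.Prime) (hpow : powOk c = true) (hne : CfsgLib.Golay.isIdTbl c.t = false)
    (A : ActData n) (hA : actOk c A = true) {T : Type*} [Group T] [Finite T] (f : T →* Equiv.Perm (Fin n))
    (hf : Function.Injective f) (hgen : Subgroup.closure {ρ | ρ ∈ A.perms} = f.range)
    (hcard : c.orb.length * 2 ^ c.fb.length * c.perms.length ≤ 2 * c.p * Nat.card T) :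
    CentHom c T := by
  classical
  have := finite_Co0
  obtain ⟨hodd, hτ, -, hd, -⟩ := Data.base_spec hc
  have hτp := pow_eq_one hc hpow
  have hτ1 : c.τ ≠ 1 := fun e => by
    have := (hτ.isIdTbl_iff).2 (by rw [e]; rfl)
    rw [hne] at this
    exact Bool.false_ne_true this
  have hσp : c.σ ^ c.p = 1 := by
    rw [Data.σ, ← permHom_apply, ← map_pow, hτp, map_one]
  have hσ1 : c.σ ≠ 1 := fun e => hτ1 (monomial_unique (d := 0) (d' := 0)
    (congrArg (fun g => signAut 0 * g) (e.trans (map_one permHom).symm))).2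
  have hord : orderOf c.σ = c.p := by
    have := Fact.mk hp
    exact orderOf_eq_prime hσp hσ1
  simp only [actOk, Bool.and_eq_true, decide_eq_true_eq, List.all_eq_true, List.mem_finRange,
    forall_const, List.mem_range, Bool.or_eq_true, List.any_eq_true, Bool.not_eq_true',
    List.contains_iff_mem] at hA
  obtain ⟨⟨hlen, hobj⟩, hmove⟩ := hA
  obtain ⟨hB, hD, -, -⟩ := dualOk_spec hd
  have hone : ∀ e : Equiv.Perm (Fin n), Moves c.B A.objs 1 e → e = 1 := by
    intro e he
    refine Equiv.ext fun i => ?_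
    rw [Equiv.Perm.one_apply]
    by_contra hi
    rcases (hobj i).2 (e i) with h | ⟨x, hx, hxn⟩
    · exact hi h.symm
    · obtain ⟨y, hy, hxy⟩ := he i x hx
      rw [one_smul] at hxy
      have := eq_of_congTwo_combV hd ((hobj i).1 x hx) ((hobj _).1 y hy) hxy
      have : x ∈ A.objs (e i) := this ▸ hy
      simp [this] at hxn
  have hex : ∀ g ∈ c.gen, ∃ ρ ∈ Subgroup.closure {ρ | ρ ∈ A.perms}, Moves c.B A.objs g ρ := by
    intro g hg
    induction hg using Subgroup.closure_induction with
    | mem g hg =>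
      obtain ⟨M, hM, rfl⟩ := hg
      obtain ⟨m, hm, rfl⟩ := List.getElem_of_mem hM
      have hmp : m < A.perms.length := by rw [hlen]; exact hm
      refine ⟨A.perms[m], Subgroup.subset_closure (List.getElem_mem hmp), fun i x hx => ?_⟩
      have h := hmove m hm i x hx
      rw [List.getD_eq_getElem _ _ hmp] at h
      exact ⟨_, h, Data.smul_op hc hm x⟩
    | one => exact ⟨1, Subgroup.one_mem _, moves_one _ _⟩
    | mul a b _ _ ha hb =>
      obtain ⟨ρ, hρ, h1⟩ := ha
      obtain ⟨κ, hκ, h2⟩ := hb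
      exact ⟨ρ * κ, Subgroup.mul_mem _ hρ hκ, h1.mul h2⟩
    | inv a _ ha =>
      obtain ⟨ρ, hρ, h1⟩ := ha
      have e : a⁻¹ = a ^ (orderOf a - 1) := by
        rw [inv_eq_iff_mul_eq_one, ← pow_succ', Nat.sub_add_cancel (orderOf_pos a), pow_orderOf_eq_one]
      exact ⟨ρ ^ (orderOf a - 1), Subgroup.pow_mem _ hρ _, e ▸ h1.pow _⟩
  have huniq : ∀ g ∈ c.gen, ∀ ρ ρ', Moves c.B A.objs g ρ → Moves c.B A.objs g ρ' → ρ = ρ' := by
    intro g hg ρ ρ' h1 h2
    obtain ⟨κ, -, hκ⟩ := hex g⁻¹ (Subgroup.inv_mem _ hg)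
    have e1 := hone _ (inv_mul_cancel g ▸ hκ.mul h1)
    have e2 := hone _ (inv_mul_cancel g ▸ hκ.mul h2)
    exact mul_left_cancel (e1.trans e2.symm)
  have hmem : ∀ g : Subgroup.centralizer ({c.σ} : Set Co0), (g : Co0) ∈ c.gen := fun g =>
    Data.mem_gen hc hrest (Subgroup.mem_centralizer_singleton_iff.1 g.2)
  choose r hr hrm using fun g : Subgroup.centralizer ({c.σ} : Set Co0) => hex g (hmem g)
  choose t ht using fun g => show ∃ t, f t = r g from (hgen ▸ hr g : r g ∈ f.range)
  let π : Subgroup.centralizer ({c.σ} : Set Co0) →* T := MonoidHom.mk' t fun g h => by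
    apply hf
    rw [map_mul, ht, ht, ht]
    exact huniq _ (hmem (g * h)) _ _ (hrm _) ((hrm g).mul (hrm h))
  have hπ : ∀ g ρ, Moves c.B A.objs ((g : Subgroup.centralizer ({c.σ} : Set Co0)) : Co0) ρ → f (π g) = ρ :=
    fun g ρ h => (ht g).trans (huniq _ (hmem g) _ _ (hrm g) h)
  have htriv : ∀ g : Subgroup.centralizer ({c.σ} : Set Co0),
      (∀ x < 2 ^ c.D.length, CongTwo ((g : Co0) • combV c.B x) (combV c.B x)) → π g = 1 := by
    intro g hg
    apply hf
    rw [map_one]
    exact hπ g 1 fun i x hx => ⟨x, hx, hg x ((hobj i).1 x hx)⟩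
  have hsurj : Function.Surjective π := by
    intro a
    have hin : f a ∈ Subgroup.closure {ρ | ρ ∈ A.perms} := hgen ▸ ⟨a, rfl⟩
    suffices Subgroup.closure {ρ | ρ ∈ A.perms} ≤ π.range.map f by
      obtain ⟨_, ⟨g, rfl⟩, he⟩ := this hin
      exact ⟨g, hf he⟩
    rw [Subgroup.closure_le]
    intro ρ hρ
    obtain ⟨m, hmp, rfl⟩ := List.getElem_of_mem hρ
    have hm : m < c.ops.length := hlen ▸ hmp
    have hMc : c.ops[m].el ∈ Subgroup.centralizer ({c.σ} : Set Co0) :=
      Subgroup.mem_centralizer_singleton_iff.2 ((Data.base_spec hc).2.2.2.2.2.2.2.2 _ (List.getElem_mem hm)).1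
    refine ⟨π ⟨_, hMc⟩, ⟨_, rfl⟩, hπ _ _ fun i x hx => ?_⟩
    have h := hmove m hm i x hx
    rw [List.getD_eq_getElem _ _ hmp] at h
    exact ⟨_, h, Data.smul_op hc hm x⟩
  refine ⟨hord, π, hsurj, fun g => ⟨fun hg => ?_, fun hg => htriv g fun x _ => ?_⟩, htriv⟩
  swap
  · have hpw : ∀ i : ℕ, CongTwo (c.σ ^ i • combV c.B x) (combV c.B x) := fun i => by
      induction i with
      | zero => rw [pow_zero, one_smul]; exact CongTwo.refl _
      | succ i ih => rw [pow_succ', mul_smul]; exact (ih.smul _).trans (Data.smul_comb_fixed hc x)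
    obtain ⟨i, e | e⟩ := hg <;> rw [e]
    · exact hpw i
    · rw [mul_smul, negAut_apply]
      exact ((congTwo_neg (combV c.B x)).smul _).trans (hpw i)
  -- the kernel is the group generated by `σ` and `-1`
  set u : Co0 := c.σ * negAut with hu
  have hcu : c.σ * negAut = negAut * c.σ := Subgroup.mem_center_iff.1 negAut_mem_center c.σ
  have hneg2 : negAut * negAut = (1 : Co0) := co0_ext fun v p => by
    rw [mul_smul, negAut_apply, negAut_apply, neg_neg, one_smul]
  have hneg1 : negAut ≠ (1 : Co0) := fun e => by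
    have := congrArg (fun g : Co0 => coordVec (g • axisVec none) none) e
    simp only [coordVec_negAut, one_smul, coordVec_axisVec, if_true] at this
    norm_num at this
  have hordu : orderOf u = c.p * 2 := by
    rw [hu, Commute.orderOf_mul_eq_mul_orderOf_of_coprime hcu, hord,
      orderOf_eq_prime (p := 2) (by rw [pow_two, hneg2]) hneg1]
    rw [hord, orderOf_eq_prime (p := 2) (by rw [pow_two, hneg2]) hneg1]
    exact (Nat.coprime_primes hp Nat.prime_two).2 (by omega)
  have huc : u ∈ Subgroup.centralizer ({c.σ} : Set Co0) :=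
    Subgroup.mem_centralizer_singleton_iff.2 (by rw [hu, mul_assoc, ← hcu])
  have huk : Subgroup.zpowers (⟨u, huc⟩ : Subgroup.centralizer ({c.σ} : Set Co0)) ≤ π.ker := by
    rw [Subgroup.zpowers_le, MonoidHom.mem_ker]
    refine htriv _ fun x _ => ?_
    show CongTwo (u • combV c.B x) (combV c.B x)
    rw [hu, mul_smul, negAut_apply]
    exact ((congTwo_neg (combV c.B x)).smul _).trans (Data.smul_comb_fixed hc x)
  have hcardC : Nat.card (Subgroup.centralizer ({c.σ} : Set Co0)) ≤ 2 * c.p * Nat.card T :=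
    le_trans (Subgroup.card_le_of_le (fun g hg => Data.mem_gen hc hrest
      (Subgroup.mem_centralizer_singleton_iff.1 hg))) ((Data.card_gen_le hc hrest).trans hcard)
  have hk : π.ker = Subgroup.zpowers (⟨u, huc⟩ : Subgroup.centralizer ({c.σ} : Set Co0)) := by
    refine (Subgroup.eq_of_le_of_card_ge huk ?_).symm
    have h1 := Subgroup.card_eq_card_quotient_mul_card_subgroup π.ker
    rw [Nat.card_congr (QuotientGroup.quotientKerEquivOfSurjective π hsurj).toEquiv] at h1
    rw [Nat.card_zpowers, Subgroup.orderOf_mk, hordu]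
    have hT : 0 < Nat.card T := Nat.card_pos
    nlinarith
  have hg' : g ∈ π.ker := MonoidHom.mem_ker.2 hg
  rw [hk, ← mem_powers_iff_mem_zpowers] at hg'
  obtain ⟨i, rfl⟩ := hg'
  refine ⟨i, ?_⟩
  show u ^ i = _ ∨ u ^ i = _
  rw [hu, (show Commute c.σ negAut from hcu).mul_pow]
  rcases Nat.even_or_odd i with ⟨j, rfl⟩ | ⟨j, rfl⟩
  · left
    rw [← two_mul, pow_mul negAut, pow_two, hneg2, one_pow, mul_one]
  · right
    rw [pow_succ negAut, pow_mul negAut, pow_two, hneg2, one_pow, one_mul]

end CfsgLib.MonsterLocal
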