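import Cfsg.Agent.Lib.MonsterLocal.SevenHom

/-!
An involution of `Co0` inverting the element of order 7, conjugate to a sign change.
-/

set_option autoImplicit false
set_option maxRecDepth 20000
set_option maxHeartbeats 1000000

namespace CfsgLib.MonsterLocal.Seven

open Cfsg CfsgLib.Fischer2 CfsgLib.Leech
open CfsgLib.Golay (IsTbl idx idx_lt wordOf)

/-- An involution inverting the element. -/
def flipMat : List (List ℤ) := ([3150859661523631828575292938013522553997664771469501039234,
    3150859655677625279246364353214405600712165022536036286082,
    3101627491050011499874868318187984617842959964715393908864,
    3150859655677536076265570230404921972004952774219432755842,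
    3150858164945955200364258317455209745008609274484423163522,
    3150859661523542625594498815204038925290450262522631061122,
    3150858159099859448065169434449189670339387147604423900802,
    3297786920280844576846449283581251020354962552093597925504,
    3150859661523542624228052435854062874816207607866570343042,
    3150859655677536074909757675021225286292870187202962816642,
    3150858159099859449420981989832896065236956262811505296002,
    3150858164945865998749910574629537100664953388203650350722,
    3150859655677625277890551797196873943479413069537630782082,
    3101627491050010802976581026365288274065127336032107135104,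
    3102393738820443747405760037619586599443573314015188648064,
    3150858159099948652401776112642370022390039902100941471362,
    3150858159099948651045963556624847998784910751379092439682,
    3101627491050010802976580864106011444851763944454097371264,
    3150858164945955201730704697439011057818034766931539559042,
    3101627491095682729143171580299876595874147788818344738944,
    3150859661523631827208846558029711532002748247231877381762,
    3150858164945865997383464195279551416563083427671674225282,
    3101627491050010802976622402480879723472792188424730607744,
    3101627491050010802976580864106011444852340405206400270464] : List ℕ).map unp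

/-- A matrix carrying a sign change to it. -/
def frameMat : List (List ℤ) := ([3199898767630872064007252247839864093895941869830838320260,
    3150666597157340241389355146743234476172357228721185260162,
    3101819052992619212627893212004640391019316409609062875264,
    3199898767608036448011991918287598390337075419678635098240,
    3199898767630872064007252247839864093895941869830838322300,
    3151051217620233340453849805243699818254574567680993428098,
    3199898767608035751113662925830756938724851155446704275584,
    3101819053015365972730394447925924328306931243940353048704,
    3151049726888563611376679283354345291226289696064365691522,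
    3199900264208548689490711020729378941516254446293941911680,
    3199897271053195435801534539582841538568632442743907582080,
    3151049721042467859077590399714509587849509785469412475522,
    3150668093734928013702272222994397277422476737374219960962,
    3199898767608036099557510510076038001113423265975290986624,
    3199898773476878611969734452972087510946572673024289308800,
    3150668099581023766011994929966696679222503273326138393218,
    3150666603003257587737489609364217183154828498538848092802,
    3101819052992619212627893212638475362539988027390812127360,
    3101435929130238703496598902532064460388257755731643498624,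
    3199898767608036099568144334042317327949079769867857330304,
    3102202176900671647925778238304916444193430516870745587840,
    3151051223466150686791350443264587569398683644711783137922,
    3199898761784865513322511107340132969137737755227030716544,
    3101819053015544378691982692911056576274180567875239182464] : List ℕ).map unp

/-- The mask of the sign change. -/
def flipWord : ℕ := 1523282

theorem flip_checks : matOk flipMat = true ∧ matOk frameMat = true ∧
    matIntertw data.t data.ti flipMat = true ∧ CfsgLib.Golay.inCode flipWord = true ∧
    (gensList.all fun L => CfsgLib.McLInv.ap8 flipMat (CfsgLib.McLInv.ap8 frameMat L) ==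
      CfsgLib.McLInv.ap8 frameMat (flipL flipWord L)) = true := by decide +kernel

/-- Two elements agreeing on the generators are equal. -/
theorem co0_ext_gens {g h : Co0}
    (e : ∀ L ∈ gensList, ∀ v : leechLattice, toVec L = coordVec v → g • v = h • v) : g = h := by
  suffices key : ∀ y : GolayPt → ℤ, y ∈ gensSpan → ∀ hy : y ∈ leechLattice,
      g • (⟨y, hy⟩ : leechLattice) = h • ⟨y, hy⟩ from
    Subtype.ext (Equiv.ext fun x => key x (mem_gensSpan x.2) x.2)
  intro y hy
  have hsub : gensSpan ≤ leechLattice := (AddSubgroup.closure_le _).2 (by
    rintro z ⟨L, hL, rfl⟩
    exact toVec_mem ((show ∀ L ∈ gensList, memTest L = true by decide +kernel) L hL))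
  induction hy using AddSubgroup.closure_induction with
  | mem y hy =>
    intro hm
    obtain ⟨L, hL, rfl⟩ := hy
    exact e L hL _ rfl
  | zero =>
    intro hm
    rw [show (⟨0, hm⟩ : leechLattice) = 0 from rfl, smul_zero_co0, smul_zero_co0]
  | add a b ha hb iha ihb =>
    intro hm
    rw [show (⟨a + b, hm⟩ : leechLattice) = ⟨a, hsub ha⟩ + ⟨b, hsub hb⟩ from rfl, smul_add_co0, smul_add_co0,
      iha, ihb]
  | neg a ha iha =>
    intro hm
    have h0 : (⟨-a, hm⟩ : leechLattice) + ⟨a, hsub ha⟩ = 0 := Subtype.ext (neg_add_cancel a)
    have h1 : g • (⟨-a, hm⟩ : leechLattice) + g • ⟨a, hsub ha⟩ = h • (⟨-a, hm⟩ : leechLattice) + h • ⟨a, hsub ha⟩ := by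
      rw [← smul_add_co0, ← smul_add_co0, h0, smul_zero_co0, smul_zero_co0]
    rw [iha (hsub ha)] at h1
    exact add_right_cancel h1

/-- The involution, the frame and the sign change. -/
theorem flip_spec : ∃ (d : golayCode),
    matFn flipMat * data.σ = data.σ⁻¹ * matFn flipMat ∧
      (matFn frameMat)⁻¹ * matFn flipMat * matFn frameMat = signAut d := by
  obtain ⟨hc, hk, hint, hin, hgen⟩ := flip_checks
  obtain ⟨-, hτ, hti, -⟩ := Data.base_spec ok
  set d : golayCode := ⟨wordOf flipWord, CfsgLib.Golay.wordOf_mem_golayCode (CfsgLib.Golay.inCode_iff.1 hin)⟩
  refine ⟨d, ?_, ?_⟩
  · rw [Data.σ, matFn_intertw (υ := data.τ⁻¹) hτ hti hc hint, ← permHom_apply, map_inv, permHom_apply]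
  rw [mul_assoc, inv_mul_eq_iff_eq_mul]
  refine co0_ext_gens fun L hL v hv => ?_
  have hl := length_gensList_mem hL
  obtain ⟨a1, a2⟩ := matFn_spec hk hl hv
  obtain ⟨-, b2⟩ := matFn_spec hc a1 a2
  have hs : toVec (flipL flipWord L) = coordVec (signAut d • v) := by
    funext p
    simp only [coordVec_signAut, ← hv, toVec, flipL, d, wordOf]
    rw [List.getD_eq_getElem _ _ (by simp [idx_lt]), List.getElem_map, List.getElem_range]
    by_cases hb : flipWord.testBit (idx p) = true <;> simp [hb]
  obtain ⟨-, c2⟩ := matFn_spec hk (show (flipL flipWord L).length = 24 by simp [flipL]) hs
  have h := List.all_eq_true.1 hgen L hL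
  rw [beq_iff_eq] at h
  rw [mul_smul, mul_smul]
  exact CfsgLib.GolayStructure.leech_ext fun p => by rw [← b2, ← c2, h]

end CfsgLib.MonsterLocal.Seven
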