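import Cfsg.Agent.Lib.MonsterLocal.Main
import Cfsg.Agent.Lib.MonsterLocal.Flip
import Cfsg.Agent.Lib.Fischer2.MonsterFrame
import Cfsg.Agent.Lib.ClassK.Extraspecial
import Cfsg.Agent.Lib.PGroups.Extraspecial

/-!
An involution of `C(z)` inverting an element of order 7.
-/

set_option autoImplicit false

namespace CfsgLib.MonsterLocal

open Cfsg CfsgLib.Fischer2 CfsgLib.Leech

variable {G : Type*} [Group G] [Finite G] {z : G} {Q : Subgroup (Subgroup.centralizer ({z} : Set G))}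
  [Q.Normal] {e : (Subgroup.centralizer ({z} : Set G)) ⧸ Q ≃* Spor.Co1}
  {ψ : leechLattice → Q ⧸ Subgroup.center Q}

/-- In the frame of `x`, the image of the conjugate of `Q` consists of the sign changes. -/
theorem sign_mem_eImage (hS : IsExtraspecialCentralizerSetting z Q 12) (hψ : IsLeechModTwoIso Q e ψ) {g : G}
    {x : Q} (D : ConjData Q g x) (hv : ψ vecA = QuotientGroup.mk x) (d : golayCode) :
    e.symm (QuotientGroup.mk (signAut d)) ∈ eImage Q g := by
  have F := settingFacts hS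
  have hQ := hS.2.2.1
  have hxc := D.notMem_center F
  obtain ⟨hEab, -⟩ := eImage_mul_self_comm F D
  let θ : Co0 →* CC z ⧸ Q := e.symm.toMonoidHom.comp (QuotientGroup.mk' (Subgroup.center Co0))
  have hsurj : Function.Surjective θ := fun a => by
    obtain ⟨h, hh⟩ := QuotientGroup.mk_surjective (e a)
    exact ⟨h, by show e.symm (QuotientGroup.mk h) = a; rw [hh, e.symm_apply_apply]⟩
  have hker : ∀ h, θ h = 1 ↔ h ∈ Subgroup.center Co0 := fun h => by
    show e.symm (QuotientGroup.mk h) = 1 ↔ _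
    rw [MulEquiv.map_eq_one_iff, QuotientGroup.eq_one_iff]
  have hmonoX : ∀ (d : golayCode) (σ : M24), θ (signAut d * permAut σ) ∈ xImage x := fun d σ =>
    mem_xImage_of_congTwo F hψ hxc hv (smul_vecA_monomial d σ)
  have hN : (eImage Q g).comap θ = signHom.range := by
    refine eq_range_signHom (fun n hn => exists_monomial
      (congTwo_of_mem_xImage hψ hv (eImage_le_xImage F D hn)
        (show (QuotientGroup.mk n : Spor.Co1) = e (θ n) from (e.apply_symm_apply _).symm))) ?_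
      (fun d n hn => ?_) (fun σ n hn => ?_) (fun a ha b hb => ?_) ?_
    · show θ negAut ∈ eImage Q g
      rw [(hker _).2 negAut_mem_center]; exact Subgroup.one_mem _
    · show θ _ ∈ eImage Q g
      rw [map_mul, map_mul, map_inv]
      refine eImage_normal F D _ ?_ _ hn
      have := hmonoX d 1
      rwa [show permAut (1 : M24) = 1 from map_one permHom, mul_one] at this
    · show θ _ ∈ eImage Q g
      rw [map_mul, map_mul, map_inv]
      refine eImage_normal F D _ ?_ _ hn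
      have := hmonoX 0 σ
      rwa [signAut_zero, one_mul] at this
    · rw [← hker, map_mul, map_mul, map_mul, map_inv, map_inv, hEab _ ha _ hb]; group
    · by_contra hall
      push Not at hall
      refine eImage_ne_bot F hQ hψ D ((Subgroup.eq_bot_iff_forall _).2 fun a ha => ?_)
      obtain ⟨n, rfl⟩ := hsurj a
      exact (hker n).2 (hall n ha)
  have h : signAut d ∈ (eImage Q g).comap θ := by rw [hN]; exact ⟨Multiplicative.ofAdd d, rfl⟩
  exact h

/-- An element of the image of the conjugate of `Q`, outside `Q`, is the image of an involution. -/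
theorem exists_involution_lift (hS : IsExtraspecialCentralizerSetting z Q 12) (hψ : IsLeechModTwoIso Q e ψ)
    {g : G} {x : Q} (D : ConjData Q g x) {a : CC z ⧸ Q} (ha : a ∈ eImage Q g) (ha1 : a ≠ 1) :
    ∃ r : CC z, (QuotientGroup.mk r : CC z ⧸ Q) = a ∧ r * r = 1 := by
  have F := settingFacts hS
  obtain ⟨r, hr, rfl⟩ := ha
  obtain ⟨hrP, -⟩ := Subgroup.mem_subgroupOf.1 hr
  set P := (qSub Q).map (MulAut.conj g).toMonoidHom with hPdef
  have hrQ : r ∉ Q := fun h => ha1 ((QuotientGroup.eq_one_iff r).2 h)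
  have hq : g * z * g⁻¹ = qVal x := D.eq.symm
  have hcen : ∀ u ∈ P, ∀ v ∈ P, u * v * u⁻¹ * v⁻¹ = 1 ∨ u * v * u⁻¹ * v⁻¹ = qVal x := by
    rintro _ ⟨u, hu, rfl⟩ _ ⟨v, hv, rfl⟩
    show g * u * g⁻¹ * (g * v * g⁻¹) * (g * u * g⁻¹)⁻¹ * (g * v * g⁻¹)⁻¹ = 1 ∨
      g * u * g⁻¹ * (g * v * g⁻¹) * (g * u * g⁻¹)⁻¹ * (g * v * g⁻¹)⁻¹ = qVal x
    rw [show g * u * g⁻¹ * (g * v * g⁻¹) * (g * u * g⁻¹)⁻¹ * (g * v * g⁻¹)⁻¹ =
      g * (u * v * u⁻¹ * v⁻¹) * g⁻¹ by group]
    rcases F.eq_or (IsExtraspecial.commutator_mem F.extra hu hv) with h | h <;> rw [h]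
    · exact Or.inl (by group)
    · exact Or.inr hq
  have hsq : ∀ u ∈ P, u * u = 1 ∨ u * u = qVal x := by
    rintro _ ⟨u, hu, rfl⟩
    show g * u * g⁻¹ * (g * u * g⁻¹) = 1 ∨ g * u * g⁻¹ * (g * u * g⁻¹) = qVal x
    have h2 := IsExtraspecial.sq_mem F.extra hu
    rw [pow_two] at h2
    rw [show g * u * g⁻¹ * (g * u * g⁻¹) = g * (u * u) * g⁻¹ by group]
    rcases F.eq_or h2 with h | h <;> rw [h]
    · exact Or.inl (by group)
    · exact Or.inr hq
  rcases hsq _ hrP with h1 | h1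
  · exact ⟨r, rfl, Subtype.ext h1⟩
  -- some element of the intersection does not commute with `r`
  set I := qSub Q ⊓ P with hI
  obtain ⟨y, hy, hyr⟩ : ∃ y ∈ I, (r : G) * y ≠ y * (r : G) := by
    by_contra hall
    push Not at hall
    have hP : IsExtraspecial 2 P :=
      CfsgLib.PGroups.IsExtraspecial.of_mulEquiv
        (Subgroup.equivMapOfInjective (qSub Q) _ (MulAut.conj g).injective) F.extra
    have hZ : (Subgroup.center P).map P.subtype ≤ I := by
      intro u hu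
      have huc := (mem_centerImage_iff P u).1 hu
      refine ⟨?_, huc.1⟩
      obtain ⟨u₀, hu₀, rfl⟩ := huc.1
      have hu₀c : u₀ ∈ (Subgroup.center (qSub Q)).map (qSub Q).subtype := by
        refine (mem_centerImage_iff _ _).2 ⟨hu₀, fun w hw => ?_⟩
        have h := huc.2 (g * w * g⁻¹) ⟨w, hw, rfl⟩
        change g * u₀ * g⁻¹ * (g * w * g⁻¹) = g * w * g⁻¹ * (g * u₀ * g⁻¹) at h
        calc u₀ * w = g⁻¹ * (g * u₀ * g⁻¹ * (g * w * g⁻¹)) * g := by group
          _ = g⁻¹ * (g * w * g⁻¹ * (g * u₀ * g⁻¹)) * g := by rw [h]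
          _ = w * u₀ := by group
      show g * u₀ * g⁻¹ ∈ qSub Q
      rcases F.eq_or hu₀c with h | h <;> rw [h]
      · rw [mul_one, mul_inv_cancel]; exact Subgroup.one_mem _
      · rw [hq]; exact qVal_mem x
    have hcI := CfsgLib.ClassK.card_inf_centralizer_mul_card hP hZ inf_le_right
    have hIcard : Nat.card I = 2 ^ 13 := by
      have h2 := card_eImage_mul F D
      rw [(frame_structure F hS.2.2.1 hψ D).2.2.2.1, ← hPdef, ← hI] at h2
      omega
    have hPcard : Nat.card P = 2 ^ 25 := by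
      rw [hPdef, Subgroup.card_map_of_injective (MulAut.conj g).injective, F.card_eq]
    have hIab : I ≤ P ⊓ Subgroup.centralizer (I : Set G) := fun u hu => ⟨hu.2, Subgroup.mem_centralizer_iff.2
      fun v hv => by
        rcases hcen v hv.2 u hu.2 with h | h
        · exact mul_inv_eq_iff_eq_mul.1 (mul_inv_eq_one.1 h)
        · rcases F.eq_or (IsExtraspecial.commutator_mem F.extra hv.1 hu.1) with h' | h'
          · exact mul_inv_eq_iff_eq_mul.1 (mul_inv_eq_one.1 h')
          · exact absurd (h.symm.trans h') D.ne⟩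
    have heq : P ⊓ Subgroup.centralizer (I : Set G) = I := by
      refine (Subgroup.eq_of_le_of_card_ge hIab ?_).symm
      rw [hIcard, hPcard] at hcI
      rw [hIcard]
      omega
    have hrI : (r : G) ∈ I := by
      rw [← heq]
      exact ⟨hrP, Subgroup.mem_centralizer_iff.2 fun v hv => (hall v hv).symm⟩
    obtain ⟨r₀, hr₀, hr₀e⟩ := hrI.1
    exact hrQ (by rwa [← Subtype.ext hr₀e])
  obtain ⟨hyQ, hyP⟩ := hy
  obtain ⟨y₀, hy₀, rfl⟩ := hyQ
  have hy2 : (y₀ : G) * y₀ = 1 := by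
    rcases hsq _ hyP with h | h
    · exact h
    · exfalso
      have h2 := IsExtraspecial.sq_mem F.extra (⟨y₀, hy₀, rfl⟩ : (y₀ : G) ∈ qSub Q)
      rw [pow_two] at h2
      rcases F.eq_or h2 with h' | h'
      · exact F.ne_one (conj_eq_one_iff.1 (hq.trans (h.symm.trans h')))
      · exact D.ne (h.symm.trans h')
  refine ⟨r * y₀, ?_, Subtype.ext ?_⟩
  · show (QuotientGroup.mk (r * y₀) : CC z ⧸ Q) = QuotientGroup.mk r
    rw [QuotientGroup.mk_mul, (QuotientGroup.eq_one_iff y₀).2 hy₀, mul_one]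
  show (r : G) * (y₀ : G) * ((r : G) * (y₀ : G)) = 1
  have hxy : qVal x * (y₀ : G) = (y₀ : G) * qVal x := by
    obtain ⟨w, hw, hwe⟩ := hyP
    change g * w * g⁻¹ = (y₀ : G) at hwe
    have hzw := ((mem_centerImage_iff _ z).1 F.mem_center).2 w hw
    rw [← hwe, ← hq]
    calc g * z * g⁻¹ * (g * w * g⁻¹) = g * (z * w) * g⁻¹ := by group
      _ = g * (w * z) * g⁻¹ := by rw [hzw]
      _ = _ := by group
  have hcm : (r : G) * (y₀ : G) * (r : G)⁻¹ * (y₀ : G)⁻¹ = qVal x := by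
    refine (hcen _ hrP _ hyP).resolve_left fun h => hyr ?_
    exact mul_inv_eq_iff_eq_mul.1 (mul_inv_eq_one.1 h)
  calc (r : G) * (y₀ : G) * ((r : G) * (y₀ : G))
      = (r : G) * (y₀ : G) * (r : G)⁻¹ * (y₀ : G)⁻¹ * ((y₀ : G) * ((r : G) * (r : G)) * (y₀ : G)) := by group
    _ = qVal x * (qVal x * ((y₀ : G) * (y₀ : G))) := by rw [hcm, h1, ← hxy]; group
    _ = 1 := by
      rw [hy2, mul_one, D.eq, show g * z * g⁻¹ * (g * z * g⁻¹) = g * (z * z) * g⁻¹ by group, F.sq]
      group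

namespace Seven

variable {T : Type*} [Group T] {b : CC z}

/-- An involution inverting `b`. -/
theorem exists_inverting (X : Loc e ψ data T b) : ∃ t : CC z, orderOf t = 2 ∧ t * b * t⁻¹ = b⁻¹ := by
  have : Fact (Nat.Prime 7) := ⟨by norm_num⟩
  have : Fact (Nat.Prime 2) := ⟨Nat.prime_two⟩
  obtain ⟨d, hinv, hd⟩ := flip_spec
  set c := matFn flipMat
  set k := matFn frameMat
  have hψ₂ := isLeechModTwoIso_twist X.hψ k⁻¹
  set ψ₂ : leechLattice → Q ⧸ Subgroup.center Q := fun v => ψ (k⁻¹⁻¹ • v)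
  set x := liftVec ψ₂ vecA
  have hv : ψ₂ vecA = QuotientGroup.mk x := (mk_liftVec _).symm
  obtain ⟨hc, hne⟩ := (conj_iff_class X.hS hψ₂ x).2 ⟨vecA, sqNorm_vecA, hv⟩
  obtain ⟨g, hgz, -⟩ := exists_swap X.hS hψ₂ hc hne
  have D : ConjData Q g x := ⟨hgz.symm, hne⟩
  have hσp : (QuotientGroup.mk data.σ : Spor.Co1) ^ 7 = 1 := by
    rw [← QuotientGroup.mk_pow, ← show orderOf data.σ = 7 from X.cent.order, pow_orderOf_eq_one, QuotientGroup.mk_one]
  have hcinv : (QuotientGroup.mk c : Spor.Co1) * QuotientGroup.mk data.σ =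
      (QuotientGroup.mk data.σ)⁻¹ * QuotientGroup.mk c := by
    rw [← QuotientGroup.mk_mul, ← QuotientGroup.mk_inv, ← QuotientGroup.mk_mul, hinv]
  have hc1 : (QuotientGroup.mk c : Spor.Co1) ≠ 1 := fun h => by
    rw [h, one_mul, mul_one] at hcinv
    refine X.mk_sigma_ne_one ?_
    have h2 : (QuotientGroup.mk data.σ : Spor.Co1) ^ 2 = 1 := by rw [pow_two]; exact eq_inv_iff_mul_eq_one.1 hcinv
    rw [show (7 : ℕ) = 2 * 3 + 1 from rfl, pow_succ, pow_mul, h2, one_pow, one_mul] at hσp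
    exact hσp
  set a := e.symm (QuotientGroup.mk c)
  have ha : a ∈ eImage Q g := by
    have h := sign_mem_eImage X.hS hψ₂ D hv d
    rw [← hd] at h
    convert h using 1
    apply e.injective
    rw [e.apply_symm_apply, MulEquiv.symm_trans_apply, e.apply_symm_apply, MulAut.conj_symm_apply,
      ← QuotientGroup.mk_inv, ← QuotientGroup.mk_mul, ← QuotientGroup.mk_mul]
    refine congrArg QuotientGroup.mk ?_
    group
  obtain ⟨t₀, ht₀, ht₀2⟩ := exists_involution_lift X.hS hψ₂ D ha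
    (fun h => hc1 (e.symm.injective (h.trans (map_one e.symm).symm)))
  set β := (QuotientGroup.mk b : CC z ⧸ Q)
  have hτinv : (QuotientGroup.mk t₀ : CC z ⧸ Q) * β * (QuotientGroup.mk t₀)⁻¹ = β⁻¹ := by
    apply e.injective
    rw [map_mul, map_mul, map_inv, map_inv, X.img, ht₀, e.apply_symm_apply, hcinv, mul_inv_cancel_right]
  set y := t₀ * b * t₀⁻¹ * b⁻¹
  have hty : t₀ * y * t₀⁻¹ = y⁻¹ := by
    have h1 : t₀⁻¹ = t₀ := inv_eq_of_mul_eq_one_right ht₀2
    simp only [y, mul_inv_rev, inv_inv, h1]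
    calc t₀ * (t₀ * b * t₀ * b⁻¹) * t₀ = t₀ * t₀ * b * t₀ * b⁻¹ * t₀ := by group
      _ = b * (t₀ * (b⁻¹ * t₀)) := by rw [ht₀2]; group
  have hβ : β ^ 7 = 1 := by rw [← show orderOf β = 7 from X.order_mk, pow_orderOf_eq_one]
  have hym : (QuotientGroup.mk y : CC z ⧸ Q) = β ^ 5 := by
    rw [QuotientGroup.mk_mul, QuotientGroup.mk_mul, QuotientGroup.mk_mul, QuotientGroup.mk_inv,
      QuotientGroup.mk_inv, hτinv, ← mul_inv_rev, ← pow_two]
    exact inv_eq_of_mul_eq_one_right (by rw [← pow_add, hβ])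
  obtain ⟨N, hN⟩ : ∃ N : ℕ, N = 2 ^ 25 := ⟨_, rfl⟩
  set y' := y ^ N
  have hy7 : y ^ 7 ∈ Q := by
    rw [← QuotientGroup.eq_one_iff, QuotientGroup.mk_pow, hym, ← pow_mul, mul_comm, pow_mul, hβ, one_pow]
  have hmy' : (QuotientGroup.mk y' : CC z ⧸ Q) = β ^ (5 * N) := by
    rw [QuotientGroup.mk_pow, hym, ← pow_mul]
  have hcop : Nat.Coprime 7 (5 * N) := by
    rw [hN]; exact Nat.Coprime.mul_right (by norm_num) (Nat.Coprime.pow_right _ (by norm_num))
  have hoy : orderOf y' = 7 := by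
    refine orderOf_eq_prime ?_ fun h => ?_
    · rw [← pow_mul, mul_comm, pow_mul]
      have h1 : (⟨y ^ 7, hy7⟩ : Q) ^ Nat.card Q = 1 := pow_card_eq_one'
      rw [X.card_Q, ← hN] at h1
      simpa only [SubmonoidClass.coe_pow, OneMemClass.coe_one] using congrArg Subtype.val h1
    · rw [h, QuotientGroup.mk_one] at hmy'
      have h2 := orderOf_dvd_of_pow_eq_one hmy'.symm
      rw [show orderOf β = 7 from X.order_mk] at h2
      exact absurd (hcop.eq_one_of_dvd h2) (by norm_num)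
  set bk := b ^ (5 * N)
  have hobk : orderOf bk = 7 := by
    rw [Nat.Coprime.orderOf_pow (by rw [show orderOf b = 7 from X.order]; exact hcop), show orderOf b = 7 from X.order]
  set W := (Subgroup.zpowers β).comap (QuotientGroup.mk' Q)
  have hyW : y' ∈ W := by
    rw [Subgroup.mem_comap, QuotientGroup.mk'_apply, hmy']; exact Subgroup.npow_mem_zpowers _ _
  have hbW : bk ∈ W := by
    rw [Subgroup.mem_comap, QuotientGroup.mk'_apply, QuotientGroup.mk_pow]; exact Subgroup.npow_mem_zpowers _ _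
  obtain ⟨⟨m, _hmW⟩, hm⟩ := conj_of_map_eq ((QuotientGroup.mk' Q).comp W.subtype) (p := 7) (by norm_num)
    (coprime_ker_mk X.hS W rfl) (x := ⟨bk, hbW⟩) (y := ⟨y', hyW⟩)
    (by rw [Subgroup.orderOf_mk, hobk]) (by rw [Subgroup.orderOf_mk, hoy])
    (show (QuotientGroup.mk bk : CC z ⧸ Q) = QuotientGroup.mk y' by rw [hmy', QuotientGroup.mk_pow])
  have hm' : m * y' * m⁻¹ = bk := congrArg Subtype.val hm
  refine ⟨m * t₀ * m⁻¹, ?_, ?_⟩
  · rw [← MulAut.conj_apply, MulEquiv.orderOf_eq]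
    refine orderOf_eq_prime (by rw [pow_two, ht₀2]) fun h => hc1 ?_
    rw [h, QuotientGroup.mk_one] at ht₀
    exact e.symm.injective (ht₀.symm.trans (map_one e.symm).symm)
  · have hk : m * t₀ * m⁻¹ * bk * (m * t₀ * m⁻¹)⁻¹ = bk⁻¹ := by
      calc _ = m * (t₀ * y' * t₀⁻¹) * m⁻¹ := by rw [← hm']; group
        _ = m * (y')⁻¹ * m⁻¹ := by rw [← conj_pow, hty, inv_pow]
        _ = bk⁻¹ := by rw [← hm']; group
    obtain ⟨j, -, hj⟩ := Nat.exists_mul_mod_eq_one_of_coprime hcop.symm (by norm_num)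
    have hbj : bk ^ j = b := by
      rw [← pow_mul, ← pow_mod_orderOf, show orderOf b = 7 from X.order, hj, pow_one]
    rw [← hbj, ← conj_pow, hk, inv_pow]

end Seven

end CfsgLib.MonsterLocal
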