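import Cfsg.Agent.Lib.MonsterLocal.Count
import Cfsg.Agent.Lib.MonsterLocal.Invol
import Cfsg.Agent.Lib.Fischer2.FittingSetting
import Cfsg.Agent.Lib.Cores.GenFitting
import Cfsg.Agent.Lib.Balance.Local

/-!
The automiser of an element of order 7 and the layer of its centraliser.
-/

set_option autoImplicit false

namespace CfsgLib.MonsterLocal.Seven

open Cfsg CfsgLib.Fischer2 CfsgLib.Leech

variable {G : Type*} [Group G] [Finite G] {z : G} {Q : Subgroup (Subgroup.centralizer ({z} : Set G))}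
  [Q.Normal] {e : (Subgroup.centralizer ({z} : Set G)) ⧸ Q ≃* Spor.Co1}
  {ψ : leechLattice → Q ⧸ Subgroup.center Q} {b : CC z}

/-- An element of `Co0` inducing a generator of the automorphisms. -/
theorem exists_gen5 : ∃ g : Co0, g * data.σ * g⁻¹ = data.σ ^ 5 := by
  obtain ⟨g, hg⟩ := exists_sq (c := data) ok (π := 102112708089011464760128204443110432)
    (u := 591491519957499262917683578953321728) (by decide +kernel) (by decide +kernel) (by decide +kernel)
  obtain ⟨hm, -⟩ := inv_spec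
  refine ⟨matFn invMat * g, ?_⟩
  set σ := data.σ
  set m := matFn invMat
  have hσ : σ ^ 7 = 1 := by rw [← show orderOf σ = 7 from cent.order, pow_orderOf_eq_one]
  calc m * g * σ * (m * g)⁻¹ = (m * σ * m⁻¹) ^ 2 := by rw [conj_pow, ← hg]; group
    _ = σ⁻¹ ^ 2 := by rw [hm, mul_inv_cancel_right]
    _ = σ ^ 5 := by rw [inv_pow]; exact inv_eq_of_mul_eq_one_right (by rw [← pow_add, hσ])

theorem five_gen : ∀ r : ℕ, ¬ 7 ∣ r → ∃ n, 5 ^ n % 7 = r % 7 := by
  intro r hr
  have h : r % 7 = 1 ∨ r % 7 = 5 ∨ r % 7 = 4 ∨ r % 7 = 6 ∨ r % 7 = 2 ∨ r % 7 = 3 := by omega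
  rcases h with h | h | h | h | h | h <;> rw [h]
  · exact ⟨0, rfl⟩
  · exact ⟨1, rfl⟩
  · exact ⟨2, rfl⟩
  · exact ⟨3, rfl⟩
  · exact ⟨4, rfl⟩
  · exact ⟨5, rfl⟩

/-- The fourteen classes contain vectors of norm 64. -/
theorem exists_norm64 (a : ℕ) (ha : a ∈ data.orb ++ data.rest) :
    ∃ v : leechLattice, sqNorm (coordVec v) = 64 ∧ CongTwo v (combV data.B a) := by
  rcases List.mem_append.1 ha with hx | hx
  · obtain ⟨i, hi, rfl⟩ := List.getElem_of_mem hx
    obtain ⟨g, -, hg⟩ := Data.exists_transversal ok i hi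
    rw [List.getD_eq_getElem _ _ hi] at hg
    exact ⟨g • vecA, by rw [sqNorm_smul', sqNorm_vecA], hg⟩
  · have hi := inv_ok
    simp only [invOk, Bool.and_eq_true, List.all_eq_true, List.contains_iff_mem] at hi
    obtain ⟨i, hil, he⟩ := List.getElem_of_mem (hi.1.2 a hx)
    obtain ⟨g, -, hg⟩ := Data.exists_transversal ok i hil
    rw [List.getD_eq_getElem _ _ hil, he] at hg
    refine ⟨(matFn invMat)⁻¹ • (g • vecA), by rw [sqNorm_smul', sqNorm_smul', sqNorm_vecA], ?_⟩
    have h1 := (hg.trans (inv_spec.2 a).symm).smul (matFn invMat)⁻¹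
    rwa [inv_smul_smul] at h1

variable (X : Loc e ψ data (Matrix.SpecialLinearGroup (Fin 3) (ZMod 2)) b)
include X

theorem conj_fix (q : Q) (hq : q ∈ Loc.qFix b) (hc : IsConj z (qVal q)) (hne : qVal q ≠ z) :
    ∃ h : G, h * (b : G) * h⁻¹ = (b : G) ∧ h * z * h⁻¹ = qVal q := by
  obtain ⟨g, hg⟩ := exists_gen5
  have hfac : (244823040 : ℕ).factorization 7 = 1 := by
    rw [show (244823040 : ℕ) = 7 * 34974720 by norm_num, Nat.factorization_mul (by norm_num) (by norm_num),
      Finsupp.add_apply, Nat.Prime.factorization_self (by norm_num), Nat.factorization_eq_zero_of_not_dvd (by norm_num)]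
  exact exists_conj_fix (c := data) X.prime cent.orderOf_tau (Pr := fun _ => True)
    (reach_of_single (by norm_num) hfac cent.orderOf_tau) 5 g hg five_gen X q hq hc hne
    (fun _ _ _ => ⟨fun _ _ _ _ _ => trivial, fun _ _ _ _ _ _ _ => trivial⟩)

theorem axis_mem : liftVec ψ vecA ∈ Loc.qFix b ∧ IsConj z (qVal (liftVec ψ vecA)) ∧
    qVal (liftVec ψ vecA) ≠ z :=
  ⟨X.mem_qFix_of_class (mk_liftVec _).symm (Data.smul_vecA_sigma data),
    (conj_iff_class X.hS X.hψ _).2 ⟨vecA, sqNorm_vecA, (mk_liftVec _).symm⟩⟩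

/-- Not all conjugates of `z` in `C_Q(b)` commute. -/
theorem exists_noncommuting : ∃ q₁ ∈ Loc.qFix (Q := Q) b, ∃ q₂ ∈ Loc.qFix (Q := Q) b,
    IsConj z (qVal q₁) ∧ IsConj z (qVal q₂) ∧ q₁ * q₂ ≠ q₂ * q₁ := by
  by_contra hall
  push Not at hall
  obtain ⟨hspan, hnorm⟩ : (∀ x < 2 ^ data.D.length, ∃ a ∈ 0 :: (data.orb ++ data.rest),
      ∃ a' ∈ 0 :: (data.orb ++ data.rest), x = a ^^^ a') ∧ data.D.length = 6 := by decide +kernel
  have hQF := X.isExtraspecial_qFix (by rw [hnorm]; norm_num)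
  have hclass : ∀ a ∈ 0 :: (data.orb ++ data.rest), ∀ r : Loc.qFix (Q := Q) b,
      (QuotientGroup.mk (r : Q) : Q ⧸ Subgroup.center Q) = ψ (combV data.B a) →
      ∀ s : Loc.qFix (Q := Q) b, IsConj z (qVal (s : Q)) → r * s = s * r := by
    intro a ha r hr s hs
    rcases List.mem_cons.1 ha with rfl | ha
    · rw [combV_zero, psi_zero X.hψ, QuotientGroup.eq_one_iff] at hr
      exact Subtype.ext (Subgroup.mem_center_iff.1 hr (s : Q)).symm
    · obtain ⟨v, hv, hva⟩ := exists_norm64 a ha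
      exact Subtype.ext (hall r r.2 s s.2 ((conj_iff_class X.hS X.hψ _).2
        ⟨v, hv, by rw [(psi_eq_iff X.hψ).2 hva, hr]⟩).1 hs)
  have hS : ∀ r s : Loc.qFix (Q := Q) b, IsConj z (qVal (s : Q)) → r * s = s * r := by
    intro r s hs
    obtain ⟨x, hx, hxr⟩ := X.exists_code r.2
    obtain ⟨a, ha, a', ha', rfl⟩ := hspan x hx
    set r₁ : Loc.qFix (Q := Q) b := ⟨_, X.liftVec_mem a⟩
    set r₂ : Loc.qFix (Q := Q) b := ⟨_, X.liftVec_mem a'⟩
    have h1 := hclass a ha r₁ (mk_liftVec _) s hs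
    have h2 := hclass a' ha' r₂ (mk_liftVec _) s hs
    have h3 : ((r₁ * r₂)⁻¹ * r : Loc.qFix (Q := Q) b).1 ∈ Subgroup.center Q := by
      show ((r₁ : Q) * (r₂ : Q))⁻¹ * (r : Q) ∈ _
      rw [← QuotientGroup.eq, QuotientGroup.mk_mul, mk_liftVec, mk_liftVec, ← X.hψ.1, ← hxr,
        (psi_eq_iff X.hψ).2 (combV_xor data.B a a')]
    have h4 : Commute ((r₁ * r₂)⁻¹ * r) s := Subtype.ext (Subgroup.mem_center_iff.1 h3 (s : Q)).symm
    have h5 := ((show Commute r₁ s from h1).mul_left (show Commute r₂ s from h2)).mul_left h4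
    rwa [mul_inv_cancel_left] at h5
  have htop : ∀ r s : Loc.qFix (Q := Q) b, r * s = s * r := by
    intro r s
    obtain ⟨x, hx, hxs⟩ := X.exists_code s.2
    obtain ⟨a, ha, a', ha', rfl⟩ := hspan x hx
    have key : ∀ a ∈ 0 :: (data.orb ++ data.rest), Commute r (⟨_, X.liftVec_mem a⟩ : Loc.qFix (Q := Q) b) := by
      intro a ha
      by_cases hc : IsConj z (qVal (liftVec ψ (combV data.B a)))
      · exact hS r ⟨_, X.liftVec_mem a⟩ hc
      · rcases List.mem_cons.1 ha with rfl | ha'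
        · refine Subtype.ext (Subgroup.mem_center_iff.1 ?_ (r : Q))
          rw [← QuotientGroup.eq_one_iff, mk_liftVec, combV_zero, psi_zero X.hψ]
        · exfalso
          refine hc ?_
          obtain ⟨v, hv, hva⟩ := exists_norm64 a ha'
          exact ((conj_iff_class X.hS X.hψ _).2 ⟨v, hv, by rw [(psi_eq_iff X.hψ).2 hva, mk_liftVec]⟩).1
    set r₁ : Loc.qFix (Q := Q) b := ⟨_, X.liftVec_mem a⟩
    set r₂ : Loc.qFix (Q := Q) b := ⟨_, X.liftVec_mem a'⟩
    have h3 : ((r₁ * r₂)⁻¹ * s : Loc.qFix (Q := Q) b).1 ∈ Subgroup.center Q := by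
      show ((r₁ : Q) * (r₂ : Q))⁻¹ * (s : Q) ∈ _
      rw [← QuotientGroup.eq, QuotientGroup.mk_mul, mk_liftVec, mk_liftVec, ← X.hψ.1, ← hxs,
        (psi_eq_iff X.hψ).2 (combV_xor data.B a a')]
    have h4 : Commute r ((r₁ * r₂)⁻¹ * s) := Subtype.ext (Subgroup.mem_center_iff.1 h3 (r : Q))
    have h5 := ((key a ha).mul_right (key a' ha')).mul_right h4
    rwa [mul_inv_cancel_left] at h5
  have hc2 := hQF.2
  rw [show Subgroup.center (Loc.qFix (Q := Q) b) = ⊤ from
    eq_top_iff.2 fun r _ => Subgroup.mem_center_iff.2 fun s => htop s r, Subgroup.card_top, X.card_qFix, hnorm] at hc2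
  norm_num at hc2

omit X in
theorem eq_one_of_pow_seven {a : G} (h2 : a * a = 1) (h7 : a ^ 7 = 1) : a = 1 := by
  rw [show (7 : ℕ) = 2 * 3 + 1 from rfl, pow_succ, pow_mul, pow_two, h2, one_pow, one_mul] at h7
  exact h7

/-- `z` lies in the layer of the centraliser of `⟨b⟩`. -/
theorem z_mem_layer (B : Subgroup G) (hB : B = Subgroup.zpowers (b : G)) :
    z ∈ (layer ↥(Subgroup.centralizer (B : Set G))).map (Subgroup.centralizer (B : Set G)).subtype := by
  classical
  subst hB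
  set C := Subgroup.centralizer ((Subgroup.zpowers (b : G) : Subgroup G) : Set G) with hCdef
  set K := (Subgroup.zpowers (b : G)).subgroupOf C with hKdef
  have hmemC : ∀ a : G, a ∈ C ↔ a * (b : G) = (b : G) * a := fun a => by
    rw [hCdef, Subgroup.mem_centralizer_iff]
    constructor
    · exact fun h => (h _ (Subgroup.mem_zpowers _)).symm
    · rintro h _ ⟨k, rfl⟩
      exact ((show Commute a (b : G) from h).zpow_right k).symm.eq
  have hKc : K ≤ Subgroup.center C := by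
    intro k hk
    obtain ⟨i, hi⟩ := Subgroup.mem_zpowers_iff.1 (Subgroup.mem_subgroupOf.1 hk)
    refine Subgroup.mem_center_iff.2 fun a => Subtype.ext ?_
    show (a : G) * (k : G) = (k : G) * (a : G)
    rw [← hi]
    exact ((show Commute (a : G) (b : G) from (hmemC _).1 a.2).zpow_right i).eq
  have : K.Normal := ⟨fun k hk a => by rw [Subgroup.mem_center_iff.1 (hKc hk) a, mul_inv_cancel_right]; exact hk⟩
  have hw : data.D.length = 2 * 3 := by decide +kernel
  obtain ⟨hax1, hax2, hax3⟩ := axis_mem X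
  obtain ⟨zb, R, hRn, hzb, hset, -, -⟩ := X.setting hw (by norm_num) (fun N hN hN2 => @no_normal_two N hN hN2)
    (conj_fix X) ⟨_, hax1, hax2, hax3⟩ (Subgroup.zpowers (b : G)) rfl
  have F := settingFacts X.hS
  have hbz : (b : G) * z = z * (b : G) := Subgroup.mem_centralizer_singleton_iff.1 b.2
  have hzC : z ∈ C := (hmemC z).2 hbz.symm
  set zC : C := ⟨z, hzC⟩
  have hzb' : zb = QuotientGroup.mk zC := hzb hzC
  obtain ⟨hz2, hF, hRe, hRc, g, ⟨hgm, hgR⟩, hgne⟩ := hset
  set R' := R.map (Subgroup.centralizer ({zb} : Set _)).subtype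
  have hF' : (generalizedFittingSubgroup ↥(Subgroup.centralizer ({zb} : Set _))).map
      (Subgroup.centralizer ({zb} : Set _)).subtype = R' := by rw [hF]
  have hR'e : IsExtraspecial 2 R' := CfsgLib.PGroups.IsExtraspecial.of_mulEquiv
    (Subgroup.equivMapOfInjective R _ (Subgroup.centralizer ({zb} : Set _)).subtype_injective) hRe
  obtain ⟨hzZ, hz1, -, hcQ, hnQ, -⟩ := setting_facts hz2 hF' hR'e
  have hL : IsLargeExtraspecial R' := isLargeExtraspecial_of_conj_mem hR'e hcQ hnQ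
    (by rw [Subgroup.card_map_of_injective (Subgroup.centralizer ({zb} : Set _)).subtype_injective, hRc]; norm_num)
    hzZ hz1 (g := g) ⟨_, hgR, rfl⟩ hgne
  set M := Subgroup.normalClosure ({zb} : Set (C ⧸ K))
  have hzM : zb ∈ M := Subgroup.subset_normalClosure rfl
  have hmin : ∀ N : Subgroup (C ⧸ K), N.Normal → N ≤ M → N = ⊥ ∨ N = M := fun N hN hNM => by
    rw [or_iff_not_imp_left]
    intro hne
    have := hN
    exact le_antisymm hNM (Subgroup.normalClosure_le_normal
      (Set.singleton_subset_iff.2 (mem_of_normal_ne_bot hL hzZ hz1 hN hne)))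
  -- the normal closure is not commutative
  have hb7 : (b : G) ^ 7 = 1 := by
    rw [← SubmonoidClass.coe_pow, ← show orderOf b = 7 from X.order, pow_orderOf_eq_one]; rfl
  have hK7 : ∀ k ∈ K, (k : G) ^ 7 = 1 := by
    intro k hk
    obtain ⟨i, hi⟩ := Subgroup.mem_zpowers_iff.1 (Subgroup.mem_subgroupOf.1 hk)
    rw [← hi, ← zpow_natCast, ← zpow_mul, mul_comm, zpow_mul, zpow_natCast, hb7, one_zpow]
  have hna : ¬ IsMulCommutative M := by
    intro hab
    obtain ⟨q₁, hq₁, q₂, hq₂, hc₁, hc₂, hne⟩ := exists_noncommuting X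
    have himg : ∀ q : Q, q ∈ Loc.qFix b → IsConj z (qVal q) →
        ∃ hq : qVal q ∈ C, (QuotientGroup.mk (⟨qVal q, hq⟩ : C) : C ⧸ K) ∈ M := by
      intro q hq hc
      refine ⟨(hmemC _).2 (congrArg Subtype.val (Loc.mem_qFix.1 hq)), ?_⟩
      by_cases hqz : qVal q = z
      · rw [show (⟨qVal q, _⟩ : C) = zC from Subtype.ext hqz, ← hzb']; exact hzM
      obtain ⟨h, hhb, hhz⟩ := conj_fix X q hq hc hqz
      have hh : h ∈ C := (hmemC _).2 (mul_inv_eq_iff_eq_mul.1 hhb)
      rw [show (⟨qVal q, _⟩ : C) = ⟨h, hh⟩ * zC * (⟨h, hh⟩ : C)⁻¹ from Subtype.ext hhz.symm, QuotientGroup.mk_mul,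
        QuotientGroup.mk_mul, QuotientGroup.mk_inv, ← hzb']
      exact (Subgroup.normalClosure_normal (s := ({zb} : Set (C ⧸ K)))).conj_mem _ hzM _
    obtain ⟨h1, m1⟩ := himg q₁ hq₁ hc₁
    obtain ⟨h2, m2⟩ := himg q₂ hq₂ hc₂
    have he := congrArg Subtype.val (hab.is_comm.comm (⟨_, m1⟩ : M) ⟨_, m2⟩)
    change (QuotientGroup.mk (⟨_, h1⟩ : C) : C ⧸ K) * QuotientGroup.mk (⟨_, h2⟩ : C) =
      QuotientGroup.mk (⟨_, h2⟩ : C) * QuotientGroup.mk (⟨_, h1⟩ : C) at he
    rw [← QuotientGroup.mk_mul, ← QuotientGroup.mk_mul, QuotientGroup.eq] at he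
    have h7 := hK7 _ he
    have hcc : (q₁ * q₂)⁻¹ * (q₂ * q₁) ∈ Subgroup.center Q := by
      have h := comm_mem_center X.hS.2.2.1 q₂⁻¹ q₁⁻¹
      rwa [inv_inv, inv_inv, show q₂⁻¹ * q₁⁻¹ * q₂ * q₁ = (q₁ * q₂)⁻¹ * (q₂ * q₁) by group] at h
    refine hne ?_
    rcases (F.mem_center_iff _).1 hcc with r | r
    · exact inv_mul_eq_one.1 (qVal_injective (r.trans (show (1 : G) = qVal (1 : Q) from rfl)))
    · exfalso
      change (qVal ((q₁ * q₂)⁻¹ * (q₂ * q₁))) ^ 7 = 1 at h7
      rw [r] at h7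
      exact F.ne_one (eq_one_of_pow_seven F.sq h7)
  have hperf : ⁅M, M⁆ = M := by
    rcases hmin ⁅M, M⁆ inferInstance (Subgroup.commutator_le_left M M) with h | h
    · exact absurd ⟨⟨fun u v => Subtype.ext (commutatorElement_eq_one_iff_mul_comm.1
        (Subgroup.mem_bot.1 (h ▸ Subgroup.commutator_mem_commutator u.2 v.2)))⟩⟩ hna
    · exact h
  set π := QuotientGroup.mk' K
  have hπs : Function.Surjective π := QuotientGroup.mk'_surjective K
  -- the layer is not trivial
  have hlay : layer C ≠ ⊥ := by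
    intro hbot
    set N := (fittingSubgroup C).map π
    have : Group.IsNilpotent (fittingSubgroup C) := CfsgLib.Cores.isNilpotent_fittingSubgroup
    have hFn : Group.IsNilpotent N := CfsgLib.Cores.isNilpotent_map (fittingSubgroup C) π
    have hNM : N ⊓ M = ⊥ := by
      have hNn : N.Normal := Subgroup.Normal.map inferInstance π hπs
      rcases hmin (N ⊓ M) inferInstance inf_le_right with h | h
      · exact h
      · exfalso
        have hle : M ≤ N := inf_eq_right.1 h
        have hMn : Group.IsNilpotent M := CfsgLib.Cores.isNilpotent_of_le hFn hle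
        have : Nontrivial M := ⟨⟨⟨zb, hzM⟩, 1, fun h0 => hz1 (congrArg Subtype.val h0)⟩⟩
        have : Group.IsPerfect M := by
          rw [Group.isPerfect_def]
          refine Subgroup.map_injective M.subtype_injective ?_
          rw [Subgroup.map_subtype_commutator, hperf, ← MonoidHom.range_eq_map, Subgroup.range_subtype]
        exact Group.IsPerfect.not_isSolvable M inferInstance
    have hNbot : N = ⊥ := by
      by_contra hne
      have := mem_of_normal_ne_bot hL hzZ hz1 (Subgroup.Normal.map inferInstance π hπs) hne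
      exact hz1 (Subgroup.mem_bot.1 (hNM ▸ (⟨this, hzM⟩ : zb ∈ N ⊓ M)))
    have hFK : fittingSubgroup C ≤ K := by
      rw [← QuotientGroup.ker_mk' K]
      exact (Subgroup.map_eq_bot_iff _).1 hNbot
    have hgen : generalizedFittingSubgroup C = fittingSubgroup C := by
      rw [generalizedFittingSubgroup, hbot, bot_sup_eq]
    have hcent := CfsgLib.Cores.centralizer_generalizedFittingSubgroup_le (G := C)
    rw [hgen] at hcent
    have hzK : zC ∈ K := hFK (hcent (Subgroup.mem_centralizer_iff.2 fun f hf =>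
      (Subgroup.mem_center_iff.1 (hKc (hFK hf)) zC).symm))
    exact F.ne_one (eq_one_of_pow_seven F.sq (hK7 _ hzK))
  have hLn : ((layer C).map π).Normal := Subgroup.Normal.map inferInstance π hπs
  have hLne : (layer C).map π ≠ ⊥ := by
    intro h
    have hle : layer C ≤ Subgroup.center C := by
      refine ((Subgroup.map_eq_bot_iff _).1 h).trans ?_
      rw [QuotientGroup.ker_mk']; exact hKc
    refine hlay (le_bot_iff.1 ?_)
    rw [← CfsgLib.Cores.commutator_layer_self, Subgroup.commutator_le]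
    intro u hu v _
    rw [Subgroup.mem_bot, commutatorElement_eq_one_iff_mul_comm]
    exact (Subgroup.mem_center_iff.1 (hle hu) v).symm
  obtain ⟨l, hl, hle⟩ := mem_of_normal_ne_bot hL hzZ hz1 hLn hLne
  rw [hzb'] at hle
  have hk : l⁻¹ * zC ∈ K := QuotientGroup.eq.1 hle
  have hk7 : ((l⁻¹ * zC : C) : G) ^ 7 = 1 := hK7 _ hk
  have hcm : Commute (l : C) (l⁻¹ * zC) := Subgroup.mem_center_iff.1 (hKc hk) l
  have hz7 : zC = l ^ 7 := by
    have h1 : zC ^ 7 = l ^ 7 := by
      conv_lhs => rw [show zC = l * (l⁻¹ * zC) by group]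
      rw [hcm.mul_pow, show (l⁻¹ * zC) ^ 7 = 1 from Subtype.ext (by simpa using hk7), mul_one]
    rw [← h1, show (7 : ℕ) = 2 * 3 + 1 from rfl, pow_succ, pow_mul, pow_two,
      show zC * zC = 1 from Subtype.ext F.sq, one_pow, one_mul]
  exact ⟨zC, hz7 ▸ Subgroup.pow_mem _ hl _, rfl⟩

/-- An element inverting `b` moves `z` or the axis element. -/
theorem false_of_inverting {u : G} (hub : u * (b : G) * u⁻¹ = (b : G)⁻¹) (huz : u * z = z * u)
    (hux : u * qVal (liftVec ψ vecA) = qVal (liftVec ψ vecA) * u) : False := by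
  set x := liftVec ψ vecA
  set uC : CC z := ⟨u, Subgroup.mem_centralizer_singleton_iff.2 huz⟩
  obtain ⟨g, hg⟩ := QuotientGroup.mk_surjective (e (QuotientGroup.mk uC))
  have hfix : CongTwo (g • vecA) vecA := congTwo_of_mem_xImage X.hψ (mk_liftVec _).symm
    (xImage_iff.2 ⟨uC, Subgroup.mem_centralizer_singleton_iff.2 (Subtype.ext hux), rfl⟩) hg
  have hb : uC * b * uC⁻¹ = b⁻¹ := Subtype.ext hub
  have h1 : (QuotientGroup.mk (g * data.σ * g⁻¹) : Spor.Co1) = QuotientGroup.mk data.σ⁻¹ := by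
    rw [QuotientGroup.mk_mul, QuotientGroup.mk_mul, QuotientGroup.mk_inv, QuotientGroup.mk_inv, hg, ← X.img,
      ← map_inv e, ← map_mul e, ← map_mul e, ← map_inv e, ← QuotientGroup.mk_inv, ← QuotientGroup.mk_mul,
      ← QuotientGroup.mk_mul, hb, QuotientGroup.mk_inv]
  rcases mk_eq_or h1 with h2 | h2
  · refine no_invert_mono hfix ?_
    exact mul_inv_eq_iff_eq_mul.1 h2
  · have hσ : data.σ ^ 7 = 1 := by rw [← show orderOf data.σ = 7 from X.cent.order, pow_orderOf_eq_one]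
    have h3 : (data.σ⁻¹ * negAut) ^ 7 = 1 := by rw [← h2, conj_pow, hσ, mul_one, mul_inv_cancel]
    rw [(show Commute data.σ⁻¹ negAut from Subgroup.mem_center_iff.1 negAut_mem_center data.σ⁻¹).mul_pow,
      inv_pow, hσ, inv_one, one_mul] at h3
    have hn2 : negAut * negAut = (1 : Co0) := co0_ext fun v p => by
      rw [mul_smul, negAut_apply, negAut_apply, neg_neg, one_smul]
    rw [show (7 : ℕ) = 2 * 3 + 1 from rfl, pow_succ, pow_mul, pow_two, hn2, one_pow, one_mul] at h3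
    have := congrArg (fun g : Co0 => coordVec (g • axisVec none) none) h3
    simp only [coordVec_negAut, one_smul, coordVec_axisVec, if_true] at this
    norm_num at this

end CfsgLib.MonsterLocal.Seven

namespace CfsgLib.MonsterLocal

open Cfsg

/-- A subgroup of order 7 whose generator is conjugate to its fifth power has automiser of order 6. -/
theorem relIndex_six {G : Type*} [Group G] [Finite G] {b h : G} (hb : orderOf b = 7) (hh : h * b * h⁻¹ = b ^ 5) :
    (Subgroup.centralizer ((Subgroup.zpowers b : Subgroup G) : Set G)).relIndex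
      (Subgroup.normalizer ((Subgroup.zpowers b : Subgroup G) : Set G)) = 6 := by
  classical
  set B := Subgroup.zpowers b
  have hiter : ∀ n : ℕ, h ^ n * b * (h ^ n)⁻¹ = b ^ 5 ^ n := by
    intro n
    induction n with
    | zero => simp
    | succ n ih =>
      calc h ^ (n + 1) * b * (h ^ (n + 1))⁻¹ = h * (h ^ n * b * (h ^ n)⁻¹) * h⁻¹ := by rw [pow_succ']; group
        _ = (h * b * h⁻¹) ^ 5 ^ n := by rw [ih, conj_pow]
        _ = _ := by rw [hh, ← pow_mul, ← pow_succ']
  have hb5 : b = (b ^ 5) ^ 3 := by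
    rw [← pow_mul, ← pow_mod_orderOf, hb]
    norm_num
  have hhN : h ∈ Subgroup.normalizer (B : Set G) := by
    refine Subgroup.mem_normalizer_iff.2 fun a => ⟨fun ha => ?_, fun ha => ?_⟩
    · obtain ⟨k, rfl⟩ := ha
      show h * b ^ k * h⁻¹ ∈ B
      rw [← conj_zpow, hh]
      exact Subgroup.zpow_mem _ (Subgroup.npow_mem_zpowers _ _) _
    · obtain ⟨k, hk⟩ := ha
      refine ⟨3 * k, ?_⟩
      change b ^ k = h * a * h⁻¹ at hk
      show b ^ (3 * k) = a
      calc b ^ (3 * k) = h⁻¹ * (h * b ^ (3 * k) * h⁻¹) * h := by group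
        _ = h⁻¹ * ((b ^ 5) ^ (3 * k)) * h := by rw [← conj_zpow, hh]
        _ = h⁻¹ * b ^ k * h := by
          congr 2
          rw [zpow_mul, show (3 : ℤ) = ((3 : ℕ) : ℤ) from rfl, zpow_natCast, ← hb5]
        _ = a := by rw [hk]; group
  rw [Subgroup.relIndex, ← Subgroup.normalizerMonoidHom_ker, Subgroup.index_ker]
  set φ := B.normalizerMonoidHom
  have happ : ∀ (u : Subgroup.normalizer (B : Set G)) (a : B), ((φ u a : B) : G) = (u : G) * (a : G) * (u : G)⁻¹ :=
    fun _ _ => rfl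
  have hext : ∀ u v : Subgroup.normalizer (B : Set G),
      (u : G) * b * (u : G)⁻¹ = (v : G) * b * (v : G)⁻¹ → φ u = φ v := by
    intro u v huv
    refine MulEquiv.ext fun a => Subtype.ext ?_
    obtain ⟨k, hk⟩ := Subgroup.mem_zpowers_iff.1 a.2
    rw [happ, happ, ← hk, ← conj_zpow, ← conj_zpow, huv]
  let f : Fin 6 → φ.range := fun n => ⟨φ (⟨h, hhN⟩ ^ (n : ℕ)), ⟨_, rfl⟩⟩
  rw [← Nat.card_fin 6]
  symm
  refine Nat.card_eq_of_bijective f ⟨fun m n hmn => ?_, ?_⟩
  · have h1 := congrArg (fun α : MulAut B => ((α ⟨b, Subgroup.mem_zpowers b⟩ : B) : G)) (congrArg Subtype.val hmn :)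
    simp only [f, happ, SubmonoidClass.coe_pow, hiter, pow_inj_mod, hb] at h1
    exact (show ∀ i j : Fin 6, 5 ^ (i : ℕ) % 7 = 5 ^ (j : ℕ) % 7 → i = j by decide) m n h1
  · rintro ⟨_, u, rfl⟩
    obtain ⟨k, hk⟩ := Subgroup.mem_zpowers_iff.1
      ((Subgroup.mem_normalizer_iff.1 u.2 b).1 (Subgroup.mem_zpowers b))
    have hk' : b ^ (k % 7).toNat = (u : G) * b * (u : G)⁻¹ := by
      rw [← zpow_natCast, Int.toNat_of_nonneg (Int.emod_nonneg _ (by norm_num)), ← hk]
      conv_rhs => rw [← zpow_mod_orderOf, hb]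
      rfl
    have hne : (k % 7).toNat ≠ 0 := by
      intro h0
      rw [h0, pow_zero, eq_comm, conj_eq_one_iff] at hk'
      rw [hk', orderOf_one] at hb
      norm_num at hb
    obtain ⟨n, hn⟩ : ∃ n : Fin 6, 5 ^ (n : ℕ) % 7 = (k % 7).toNat := by
      have h : (k % 7).toNat = 1 ∨ (k % 7).toNat = 5 ∨ (k % 7).toNat = 4 ∨ (k % 7).toNat = 6 ∨
          (k % 7).toNat = 2 ∨ (k % 7).toNat = 3 := by omega
      rcases h with h | h | h | h | h | h <;> rw [h]
      · exact ⟨0, rfl⟩
      · exact ⟨1, rfl⟩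
      · exact ⟨2, rfl⟩
      · exact ⟨3, rfl⟩
      · exact ⟨4, rfl⟩
      · exact ⟨5, rfl⟩
    refine ⟨n, Subtype.ext (hext _ _ ?_)⟩
    rw [SubmonoidClass.coe_pow, ← hk', hiter, ← hn, ← hb, pow_mod_orderOf]

end CfsgLib.MonsterLocal
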