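import Cfsg.Agent.Lib.Golay.TblHom
import Cfsg.Agent.Lib.Golay.Stab

/-!
Kernel checks bounding the permutations of the code satisfying `h t = u h` for given tables.
-/

set_option autoImplicit false

namespace CfsgLib.MonsterLocal

open Cfsg CfsgLib.Golay
open scoped Pointwise

local notation "PP" => Equiv.Perm GolayPt

/-- Element of `M24` with a given table. -/
theorem exists_elem {t : ℕ} (h : inM24 t = true) : ∃ g : M24, IsTbl (g : PP) t := by
  have h' := h
  simp only [inM24, Bool.and_eq_true] at h'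
  obtain ⟨g, hg⟩ := exists_isTbl h'.1
  exact ⟨⟨g, mem_M24_of_isTbl hg h⟩, hg⟩

/-- The inverse table is correct. -/
theorem symm_tbl {g : PP} {t ti : ℕ} (hg : IsTbl g t)
    (h : ((List.range 24).all fun i => tblAt t (tblAt ti i) == i && decide (tblAt ti i < 24)) = true) :
    IsTbl g.symm ti := by
  intro p
  simp only [List.all_eq_true, List.mem_range, Bool.and_eq_true, beq_iff_eq, decide_eq_true_eq] at h
  obtain ⟨h1, h2⟩ := h (idx p) (idx_lt p)
  have e : g (pt (tblAt ti (idx p))) = p := idx_injective (by rw [hg, idx_pt h2, h1])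
  rw [show g.symm p = pt (tblAt ti (idx p)) by rw [Equiv.symm_apply_eq, e], idx_pt h2]

/-- The mask of the images of the points of `o` under a partial map. -/
def imgOf (ps : List (ℕ × ℕ)) (o : ℕ) : ℕ :=
  ps.foldr (fun xy a => bif o.testBit xy.1 then a ||| 2 ^ xy.2 else a) 0

/-- An octad given by a mask. -/
def isOct (o : ℕ) : Bool := inCode o && popc o == 8

/-- The partial map extends to no code automorphism. -/
def badMap (ps : List (ℕ × ℕ)) (cert : ℕ × ℕ) : Bool :=
  (ps.any fun a => ps.any fun b => (a.1 == b.1) != (a.2 == b.2)) ||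
    (isOct cert.1 && isOct cert.2 && decide (5 ≤ popc (imgOf ps cert.1 &&& cert.2)) &&
      imgOf ps cert.1 &&& cert.2 != imgOf ps cert.1)

theorem testBit_imgOf {o j : ℕ} : ∀ {ps : List (ℕ × ℕ)}, (imgOf ps o).testBit j = true →
    ∃ xy ∈ ps, o.testBit xy.1 = true ∧ xy.2 = j
  | [], h => by simp [imgOf] at h
  | a :: ps, h => by
    have e : imgOf (a :: ps) o = bif o.testBit a.1 then imgOf ps o ||| 2 ^ a.2 else imgOf ps o := rfl
    rw [e] at h
    cases ha : o.testBit a.1
    · simp only [ha, cond_false] at h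
      obtain ⟨xy, h1, h2⟩ := testBit_imgOf h
      exact ⟨xy, List.mem_cons_of_mem _ h1, h2⟩
    · simp only [ha, cond_true, Nat.testBit_or, Bool.or_eq_true, Nat.testBit_two_pow,
        decide_eq_true_eq] at h
      rcases h with h | h
      · obtain ⟨xy, h1, h2⟩ := testBit_imgOf h
        exact ⟨xy, List.mem_cons_of_mem _ h1, h2⟩
      · exact ⟨a, List.mem_cons_self, ha, h⟩

theorem isOct_spec {o : ℕ} (h : isOct o = true) : unmask o ∈ octads := by
  simp only [isOct, Bool.and_eq_true, beq_iff_eq] at h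
  exact mem_octads_iff.2 ⟨o, inCode_iff.1 h.1, h.2, rfl⟩

theorem not_badMap {h : PP} (hh : h ∈ M24) {ps : List (ℕ × ℕ)} {cert : ℕ × ℕ}
    (hps : ∀ xy ∈ ps, xy.1 < 24 ∧ idx (h (pt xy.1)) = xy.2) : badMap ps cert ≠ true := by
  intro hb
  simp only [badMap, Bool.or_eq_true, List.any_eq_true, Bool.and_eq_true, decide_eq_true_eq,
    bne_iff_ne] at hb
  rcases hb with ⟨a, ha, b, hb, hne⟩ | ⟨⟨⟨ho, ho'⟩, h5⟩, hne⟩
  · refine hne ?_
    obtain ⟨ha1, ha2⟩ := hps a ha
    obtain ⟨hb1, hb2⟩ := hps b hb
    rw [Bool.eq_iff_iff, beq_iff_eq, beq_iff_eq, ← ha2, ← hb2]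
    constructor
    · intro e; rw [e]
    · intro e
      have := h.injective (idx_injective e)
      rw [← idx_pt ha1, this, idx_pt hb1]
  · have hsub : ∀ p ∈ unmask (imgOf ps cert.1), p ∈ h • unmask cert.1 := by
      intro p hp
      obtain ⟨xy, hxy, h1, h2⟩ := testBit_imgOf (mem_unmask.1 hp)
      obtain ⟨hlt, he⟩ := hps xy hxy
      refine Finset.mem_smul_finset.2 ⟨pt xy.1, (pt_mem_unmask hlt).2 h1, idx_injective ?_⟩
      rw [Equiv.Perm.smul_def, he, h2]
    have hoct := smul_mem_octads hh (isOct_spec ho)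
    have heq : h • unmask cert.1 = unmask cert.2 := by
      refine octad_unique hoct (isOct_spec ho') (le_trans ?_ (Finset.card_le_card
        (Finset.inter_subset_inter hsub (Finset.Subset.refl _))))
      rw [← unmask_and, card_unmask]
      exact h5
    refine hne (Nat.eq_of_testBit_eq fun i => ?_)
    rw [Nat.testBit_and]
    cases hi : (imgOf ps cert.1).testBit i
    · rfl
    · obtain ⟨xy, hxy, -, h2⟩ := testBit_imgOf hi
      obtain ⟨-, he⟩ := hps xy hxy
      have hi24 : i < 24 := by rw [← h2, ← he]; exact idx_lt _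
      have := hsub (pt i) ((pt_mem_unmask hi24).2 hi)
      rw [heq] at this
      rw [(pt_mem_unmask hi24).1 this]
      rfl

/-- The images of the orbit of `a` forced by the image of `a`. -/
def orbPairs (t u : ℕ) : ℕ → ℕ → ℕ → List (ℕ × ℕ)
  | 0, _, _ => []
  | n + 1, a, q => (a, q) :: orbPairs t u n (tblAt t a) (tblAt u q)

theorem orbPairs_spec {h τ υ : PP} {t u : ℕ} (ht : IsTbl τ t) (hu : IsTbl υ u) (hc : h * τ = υ * h) :
    ∀ (n a q : ℕ), a < 24 → idx (h (pt a)) = q →
      ∀ xy ∈ orbPairs t u n a q, xy.1 < 24 ∧ idx (h (pt xy.1)) = xy.2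
  | 0, _, _, _, _, _, hm => by simp [orbPairs] at hm
  | n + 1, a, q, ha, hq, xy, hm => by
    rcases List.mem_cons.1 hm with rfl | hm
    · exact ⟨ha, hq⟩
    · have hlt : tblAt t a < 24 := by
        have := ht (pt a); rw [idx_pt ha] at this; rw [← this]; exact idx_lt _
      refine orbPairs_spec ht hu hc n (tblAt t a) (tblAt u q) hlt ?_ xy hm
      have e : τ (pt a) = pt (tblAt t a) := idx_injective (by rw [ht, idx_pt ha, idx_pt hlt])
      rw [← e, ← Equiv.Perm.mul_apply, hc, Equiv.Perm.mul_apply, hu, hq]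

/-- The pairs of the points fixed so far. -/
def basePairs (t u p : ℕ) (as : List ℕ) : List (ℕ × ℕ) := as.flatMap fun a => orbPairs t u p a a

/-- One step: every image of `a` is realised by a table of the list or is impossible. -/
def levelOk (t p : ℕ) (L : List ℕ) (as : List ℕ) (a b : ℕ) (certs : List (ℕ × ℕ))
    (certs2 : List (List (ℕ × ℕ))) : Bool :=
  decide (a < 24) && decide (b < 24) && (List.range 24).all fun q =>
    (L.any fun l => tblAt l a == q && as.all fun c => tblAt l c == c) ||
      badMap (basePairs t t p as ++ orbPairs t t p a q) (certs.getD q (0, 0)) ||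
      (List.range 24).all fun q' =>
        badMap (basePairs t t p as ++ orbPairs t t p a q ++ orbPairs t t p b q')
          ((certs2.getD q []).getD q' (0, 0))

/-- All steps. -/
def chainOk (t p : ℕ) (L : List ℕ) :
    List ℕ → List (ℕ × ℕ × List (ℕ × ℕ) × List (List (ℕ × ℕ))) → Bool
  | _, [] => true
  | as, l :: ls => levelOk t p L as l.1 l.2.1 l.2.2.1 l.2.2.2 && chainOk t p L (as ++ [l.1]) ls

/-- The octads with five fixed points separate the other points. -/
def sepOk (S : ℕ) (octs : List ℕ) : Bool :=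
  octs.all (fun o => isOct o && decide (5 ≤ popc (o &&& S))) &&
    (List.range 24).all fun i => S.testBit i || (List.range 24).all fun j =>
      S.testBit j || i == j || octs.any fun o => o.testBit i && !o.testBit j

/-- The mask of the points in a list of pairs. -/
def domMask (ps : List (ℕ × ℕ)) : ℕ := ps.foldr (fun xy a => a ||| 2 ^ xy.1) 0

theorem testBit_domMask {j : ℕ} : ∀ {ps : List (ℕ × ℕ)}, (domMask ps).testBit j = true →
    ∃ xy ∈ ps, xy.1 = j
  | [], h => by simp [domMask] at h
  | a :: ps, h => by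
    have e : domMask (a :: ps) = domMask ps ||| 2 ^ a.1 := rfl
    rw [e, Nat.testBit_or, Bool.or_eq_true, Nat.testBit_two_pow, decide_eq_true_eq] at h
    rcases h with h | h
    · obtain ⟨xy, h1, h2⟩ := testBit_domMask h
      exact ⟨xy, List.mem_cons_of_mem _ h1, h2⟩
    · exact ⟨a, List.mem_cons_self, h⟩

theorem eq_one_of_sep {h : PP} (hh : h ∈ M24) {S : ℕ} {octs : List ℕ} (hs : sepOk S octs = true)
    (hfix : ∀ i, S.testBit i = true → i < 24 → h (pt i) = pt i) : h = 1 := by
  simp only [sepOk, Bool.and_eq_true, List.all_eq_true, List.any_eq_true, decide_eq_true_eq,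
    Bool.or_eq_true, beq_iff_eq, List.mem_range] at hs
  obtain ⟨hoct, hsep⟩ := hs
  have hfixo : ∀ o ∈ octs, h • unmask o = unmask o := by
    intro o ho
    obtain ⟨h1, h2⟩ := hoct o ho
    refine octad_unique (smul_mem_octads hh (isOct_spec h1)) (isOct_spec h1) (le_trans ?_ (Finset.card_le_card
      (Finset.subset_inter ?_ (show unmask (o &&& S) ⊆ unmask o by
        intro p hp
        rw [mem_unmask, Nat.testBit_and, Bool.and_eq_true] at hp
        exact mem_unmask.2 hp.1))))
    · rw [card_unmask]; exact h2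
    · intro p hp
      rw [mem_unmask, Nat.testBit_and, Bool.and_eq_true] at hp
      refine Finset.mem_smul_finset.2 ⟨p, mem_unmask.2 hp.1, ?_⟩
      rw [Equiv.Perm.smul_def]
      have := hfix (idx p) hp.2 (idx_lt p)
      rwa [pt_idx] at this
  refine Equiv.ext fun p => idx_injective ?_
  rw [Equiv.Perm.one_apply]
  by_contra hne
  have hp := idx_lt p
  have hq := idx_lt (h p)
  rcases hsep _ hp with hS | hsep'
  · have := hfix _ hS hp
    rw [pt_idx] at this
    exact hne (by rw [this])
  rcases hsep' _ hq with (hS | he) | ⟨o, ho, ho1, ho2⟩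
  · have := hfix _ hS hq
    rw [pt_idx] at this
    exact hne (congrArg idx (h.injective this))
  · exact hne he.symm
  · have hmem : h p ∈ h • unmask o := Finset.smul_mem_smul_finset (mem_unmask.2 ho1)
    rw [hfixo o ho, mem_unmask] at hmem
    simp [hmem] at ho2

theorem mem_of_chainOk {τ : PP} {t p : ℕ} (ht : IsTbl τ t) {L : List ℕ} {K : Subgroup M24}
    (hL : ∀ l ∈ L, ∃ k ∈ K, IsTbl (k : PP) l ∧ (k : PP) * τ = τ * (k : PP)) {octs : List ℕ} :
    ∀ (ls : List (ℕ × ℕ × List (ℕ × ℕ) × List (List (ℕ × ℕ)))) (as : List ℕ), chainOk t p L as ls = true →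
      sepOk (domMask (basePairs t t p (as ++ ls.map Prod.fst))) octs = true →
      ∀ h : M24, (h : PP) * τ = τ * (h : PP) → (∀ a ∈ as, a < 24 ∧ idx ((h : PP) (pt a)) = a) → h ∈ K := by
  intro ls
  induction ls with
  | nil =>
    intro as _ hs h hc hfix
    rw [List.map_nil, List.append_nil] at hs
    have : (h : PP) = 1 := eq_one_of_sep h.2 hs fun i hi h24 => by
      obtain ⟨xy, hxy, rfl⟩ := testBit_domMask hi
      obtain ⟨a, ha, hxy⟩ := List.mem_flatMap.1 hxy
      obtain ⟨-, he⟩ := orbPairs_spec ht ht hc p a a (hfix a ha).1 (hfix a ha).2 xy hxy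
      refine idx_injective ?_
      rw [he, idx_pt h24]
      exact diag_orbPairs p a xy hxy
    rw [show h = 1 from Subtype.ext this]
    exact K.one_mem
  | cons l ls ih =>
    intro as hok hs h hc hfix
    simp only [chainOk, Bool.and_eq_true] at hok
    obtain ⟨hlev, hrest⟩ := hok
    simp only [levelOk, Bool.and_eq_true, decide_eq_true_eq, List.all_eq_true, List.mem_range,
      Bool.or_eq_true, List.any_eq_true, beq_iff_eq] at hlev
    obtain ⟨⟨ha, hb⟩, hq⟩ := hlev
    rcases hq (idx ((h : PP) (pt l.1))) (idx_lt _) with (⟨x, hx, hxa, hxb⟩ | hbad) | hbad2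
    · obtain ⟨k, hk, hkt, hkc⟩ := hL x hx
      have hkmem : k⁻¹ * h ∈ K := by
        refine ih (as ++ [l.1]) hrest (by simpa [List.append_assoc] using hs) (k⁻¹ * h) ?_ ?_
        · rw [Subgroup.coe_mul, InvMemClass.coe_inv]
          calc (k : PP)⁻¹ * h * τ = (k : PP)⁻¹ * (h * τ) := mul_assoc _ _ _
            _ = (k : PP)⁻¹ * (τ * h) := by rw [hc]
            _ = (k : PP)⁻¹ * (τ * (k : PP)) * (k : PP)⁻¹ * h := by group
            _ = (k : PP)⁻¹ * ((k : PP) * τ) * (k : PP)⁻¹ * h := by rw [hkc]
            _ = τ * ((k : PP)⁻¹ * h) := by group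
        · intro b hb
          have hboth : b < 24 ∧ idx ((h : PP) (pt b)) = tblAt x b := by
            rcases List.mem_append.1 hb with hb | hb
            · exact ⟨(hfix b hb).1, by rw [(hfix b hb).2, hxb b hb]⟩
            · rw [List.mem_singleton.1 hb]; exact ⟨ha, hxa.symm⟩
          refine ⟨hboth.1, ?_⟩
          have e : (h : PP) (pt b) = (k : PP) (pt b) :=
            idx_injective (by rw [hboth.2, hkt, idx_pt hboth.1])
          rw [Subgroup.coe_mul, InvMemClass.coe_inv, Equiv.Perm.mul_apply, e,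
            Equiv.Perm.inv_def, Equiv.symm_apply_apply, idx_pt hboth.1]
      have := K.mul_mem hk hkmem
      rwa [mul_inv_cancel_left] at this
    · exfalso
      refine not_badMap h.2 (fun xy hxy => ?_) hbad
      rcases List.mem_append.1 hxy with hxy | hxy
      · obtain ⟨a, haa, hxy⟩ := List.mem_flatMap.1 hxy
        exact orbPairs_spec ht ht hc p a a (hfix a haa).1 (hfix a haa).2 xy hxy
      · exact orbPairs_spec ht ht hc p _ _ ha rfl xy hxy
    · exfalso
      refine not_badMap h.2 (fun xy hxy => ?_) (hbad2 _ (idx_lt ((h : PP) (pt l.2.1))))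
      rcases List.mem_append.1 hxy with hxy | hxy
      · rcases List.mem_append.1 hxy with hxy | hxy
        · obtain ⟨a, haa, hxy⟩ := List.mem_flatMap.1 hxy
          exact orbPairs_spec ht ht hc p a a (hfix a haa).1 (hfix a haa).2 xy hxy
        · exact orbPairs_spec ht ht hc p _ _ ha rfl xy hxy
      · exact orbPairs_spec ht ht hc p _ _ hb rfl xy hxy
where
  diag_orbPairs {t : ℕ} : ∀ (n a : ℕ), ∀ xy ∈ orbPairs t t n a a, xy.2 = xy.1
    | 0, _, _, hm => by simp [orbPairs] at hm
    | n + 1, a, xy, hm => by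
      rcases List.mem_cons.1 hm with rfl | hm
      · rfl
      · exact diag_orbPairs n _ xy hm

/-- No code automorphism satisfies `h τ = υ h`. -/
def noneOk (t u p a b : ℕ) (certs : List (ℕ × ℕ)) (certs2 : List (List (ℕ × ℕ))) : Bool :=
  decide (a < 24) && decide (b < 24) && (List.range 24).all fun q =>
    badMap (orbPairs t u p a q) (certs.getD q (0, 0)) || (List.range 24).all fun q' =>
      badMap (orbPairs t u p a q ++ orbPairs t u p b q') ((certs2.getD q []).getD q' (0, 0))

theorem false_of_noneOk {τ υ : PP} {t u p a b : ℕ} (ht : IsTbl τ t) (hu : IsTbl υ u)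
    {certs : List (ℕ × ℕ)} {certs2 : List (List (ℕ × ℕ))}
    (hok : noneOk t u p a b certs certs2 = true) (h : M24) : (h : PP) * τ ≠ υ * (h : PP) := by
  intro hc
  simp only [noneOk, Bool.and_eq_true, decide_eq_true_eq, List.all_eq_true, List.mem_range,
    Bool.or_eq_true] at hok
  obtain ⟨⟨ha, hb⟩, hq⟩ := hok
  have h1 := orbPairs_spec ht hu hc p a _ ha rfl
  rcases hq _ (idx_lt ((h : PP) (pt a))) with hbad | hq'
  · exact not_badMap h.2 h1 hbad
  · refine not_badMap h.2 (fun xy hxy => ?_) (hq' _ (idx_lt ((h : PP) (pt b))))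
    rcases List.mem_append.1 hxy with hxy | hxy
    · exact h1 xy hxy
    · exact orbPairs_spec ht hu hc p b _ hb rfl xy hxy

end CfsgLib.MonsterLocal
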