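import Cfsg.Agent.Lib.MonsterLocal.Cord
import Cfsg.Agent.Lib.MonsterLocal.Pts
import Cfsg.Agent.Lib.Leech.Order

/-!
The centraliser in `Co0` of a monomial element of odd prime order, from checked certificates.
-/

set_option autoImplicit false

namespace CfsgLib.MonsterLocal

open Cfsg CfsgLib.Fischer2 CfsgLib.Leech
open CfsgLib.Golay (idx pt idx_pt pt_idx idx_lt IsTbl inM24 tblAt isCompTbl isIdTbl imgMask spanMasks
  basisMasks wordOf)
open CfsgLib.GolayStructure (leech_ext)
open CfsgLib.McLInv (ap8 co0_eq_of_gens sameOn mul_eq_of_sameOn coordVec_smul_list length_ap8)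

local notation "PP" => Equiv.Perm GolayPt

/-- A list of 24 small integers packed with eight bits each. -/
def unp (n : ℕ) : List ℤ := (List.range 24).map fun i => (((n >>> (8 * i)) % 256 : ℕ) : ℤ) - 128

/-- The image of a list under a sign change. -/
def flipL (m : ℕ) (L : List ℤ) : List ℤ :=
  (List.range 24).map fun i => if m.testBit i then -L.getD i 0 else L.getD i 0

/-- The automorphism of a checked matrix. -/
noncomputable def matFn (M : List (List ℤ)) : Co0 := if h : matOk M = true then matAut M h else 1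

theorem matFn_spec {M : List (List ℤ)} (h : matOk M = true) {L : List ℤ} {v : leechLattice}
    (hl : L.length = 24) (hv : toVec L = coordVec v) :
    (ap8 M L).length = 24 ∧ toVec (ap8 M L) = coordVec (matFn M • v) := by
  rw [matFn, dif_pos h]
  exact ⟨length_ap8 h L, coordVec_smul_list h hl hv⟩

/-- The matrix commutes with the permutation with table `t`. -/
def matComm (t : ℕ) (M : List (List ℤ)) : Bool :=
  (List.range 24).all fun r => (List.range 24).all fun q =>
    (M.getD (tblAt t r) []).getD (tblAt t q) 0 == (M.getD r []).getD q 0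

theorem matFn_comm {t : ℕ} {M : List (List ℤ)} {σ : M24} (hσ : IsTbl (σ : PP) t)
    (h : matOk M = true) (hc : matComm t M = true) :
    matFn M * permAut σ = permAut σ * matFn M := by
  simp only [matComm, List.all_eq_true, List.mem_range, beq_iff_eq] at hc
  rw [matFn, dif_pos h]
  refine co0_ext fun v i => ?_
  obtain ⟨p, rfl⟩ := (σ : PP).surjective i
  rw [mul_smul, mul_smul, coordVec_permAut, Equiv.symm_apply_apply, coordVec_matAut, coordVec_matAut,
    matAct, matAct, matApply, matApply]
  congr 1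
  simp only [dotInt, toVec]
  refine (Equiv.sum_comp (σ : PP) _).symm.trans (Finset.sum_congr rfl fun q _ => ?_)
  rw [coordVec_permAut, Equiv.symm_apply_apply, hσ, hσ, hc _ (idx_lt p) _ (idx_lt q)]

/-- A permutation, a sign change or a matrix. -/
inductive Op
  | perm (t ti : ℕ)
  | sign (m : ℕ)
  | mat (M : List (List ℤ))

/-- The image of a list. -/
def Op.app : Op → List ℤ → List ℤ
  | .perm _ ti, L => shiftL ti L
  | .sign m, L => flipL m L
  | .mat M, L => ap8 M L

/-- The element of `M24` with a table. -/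
noncomputable def elemOf (t : ℕ) : M24 := if h : inM24 t = true then (exists_elem h).choose else 1

theorem elemOf_spec {t : ℕ} (h : inM24 t = true) : IsTbl (elemOf t : PP) t := by
  rw [elemOf, dif_pos h]; exact (exists_elem h).choose_spec

/-- The automorphism. -/
noncomputable def Op.el : Op → Co0
  | .perm t _ => permAut (elemOf t)
  | .sign m => if h : Golay.inCode m = true then
      signAut ⟨wordOf m, Golay.wordOf_mem_golayCode (Golay.inCode_iff.1 h)⟩ else 1
  | .mat M => matFn M

/-- The image of a class from the images of the basis. -/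
def xorImg : List ℕ → ℕ → ℕ
  | [], _ => 0
  | e :: es, x => (if x % 2 = 1 then e else 0) ^^^ xorImg es (x / 2)

theorem combV_zero : ∀ B : List (List ℤ), combV B 0 = 0
  | [] => rfl
  | b :: bs => by simp [combV, combV_zero bs]

theorem xorImg_spec {g : Co0} {B : List (List ℤ)} :
    ∀ (Bs : List (List ℤ)) (Is : List ℕ), Is.length = Bs.length →
      (∀ j, (hj : j < Bs.length) → CongTwo (g • vecOf Bs[j]) (combV B (Is.getD j 0))) →
      ∀ x, CongTwo (g • combV Bs x) (combV B (xorImg Is x))
  | [], [], _, _, x => by simp only [combV, xorImg, smul_zero_co0, combV_zero]; exact CongTwo.refl _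
  | b :: bs, [], h, _, _ => by simp at h
  | [], e :: es, h, _, _ => by simp at h
  | b :: bs, e :: es, h, hj, x => by
    have ih := xorImg_spec bs es (by simpa using h) (fun j hjl => by
      have := hj (j + 1) (by simp; omega)
      simpa using this) (x / 2)
    simp only [combV, xorImg, smul_add_co0]
    refine CongTwo.trans ?_ (combV_xor B _ _).symm
    refine congTwo_add ?_ ih
    split_ifs
    · exact hj 0 (Nat.succ_pos _)
    · rw [smul_zero_co0, combV_zero]; exact CongTwo.refl _

/-- The certificates. -/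
structure Data where
  /-- The order. -/
  p : ℕ
  /-- The table of the element. -/
  t : ℕ
  /-- The table of its inverse. -/
  ti : ℕ
  /-- Vectors spanning the fixed classes. -/
  B : List (List ℤ)
  /-- Dual vectors. -/
  D : List (List ℤ)
  /-- Tables of the generating permutations and of their inverses. -/
  gts : List (ℕ × ℕ)
  /-- The masks of the invariant code words. -/
  fb : List ℕ
  /-- Further matrices. -/
  extraMats : List (List (List ℤ))
  /-- The images of the basis classes under the generators. -/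
  imgs : List (List ℕ)
  /-- The tables of the centraliser in the permutation group, the first the identity. -/
  perms : List ℕ
  /-- How each table arises. -/
  parents : List (ℕ × ℕ)
  /-- The images of the tables under the generators. -/
  succ : List (List ℕ)
  /-- The base points and the certificates. -/
  chain : List (ℕ × ℕ × List (ℕ × ℕ) × List (List (ℕ × ℕ)))
  /-- Octads separating the points. -/
  seps : List ℕ
  /-- The orbit of the class of the axes. -/
  orb : List ℕ
  /-- How each class arises. -/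
  orbPar : List (ℕ × ℕ)
  /-- Short representatives of the other classes. -/
  small : List (List ℤ)
  /-- The remaining classes. -/
  rest : List ℕ

namespace Data

variable (c : Data)

/-- All generators. -/
def ops : List Op :=
  c.gts.map (fun g => Op.perm g.1 g.2) ++ c.fb.map Op.sign ++ c.extraMats.map Op.mat

/-- The list of the axis class. -/
def axisL : List ℤ := List.replicate 23 0 ++ [8]

/-- The tables are inverse to each other. -/
def invTblOk (t ti : ℕ) : Bool :=
  (List.range 24).all fun i => tblAt t (tblAt ti i) == i && decide (tblAt ti i < 24)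

/-- The element and the monomial generators. -/
def baseOk : Bool :=
  decide (c.p % 2 = 1) && inM24 c.t && invTblOk c.t c.ti && dualOk c.B c.D &&
    c.B.all (fun b => sameClass (shiftL c.ti b) b) &&
    (c.gts.all fun g => inM24 g.1 && invTblOk g.1 g.2 && Golay.conjTbl g.1 c.t c.t) &&
    c.fb.all fun m => Golay.inCode m &&
      (List.range 24).all fun i => m.testBit (tblAt c.t i) == m.testBit i

/-- The further matrices. -/
def matsOk : Bool := c.extraMats.all fun M => matOk M && matComm c.t M

/-- The images of the basis. -/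
def imgsOk : Bool :=
  (List.range c.ops.length).all fun k =>
    decide ((c.imgs.getD k []).length = c.B.length) &&
      (List.range c.B.length).all fun j =>
        sameClass ((c.ops.getD k (Op.sign 0)).app (c.B.getD j [])) (combL c.B ((c.imgs.getD k []).getD j 0))

/-- The tables of the centraliser. -/
def permsOk : Bool :=
  isIdTbl (c.perms.getD 0 0) && decide (0 < c.perms.length) &&
    ((List.range c.perms.length).all fun i => i == 0 ||
      (decide ((c.parents.getD i (0, 0)).2 < i) && decide ((c.parents.getD i (0, 0)).1 < c.gts.length) &&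
        isCompTbl (c.perms.getD i 0) (c.gts.getD (c.parents.getD i (0, 0)).1 (0, 0)).1
          (c.perms.getD (c.parents.getD i (0, 0)).2 0))) &&
    (List.range c.gts.length).all fun g => (List.range c.perms.length).all fun i =>
      decide ((c.succ.getD g []).getD i 0 < c.perms.length) &&
        isCompTbl (c.perms.getD ((c.succ.getD g []).getD i 0) 0) (c.gts.getD g (0, 0)).1 (c.perms.getD i 0)

/-- The centraliser in the permutation group. -/
def chainsOk : Bool :=
  chainOk c.t c.p c.perms [] c.chain &&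
    sepOk (domMask (basePairs c.t c.t c.p ([] ++ c.chain.map Prod.fst))) c.seps

/-- The invariant code words. -/
def codeOk : Bool :=
  (spanMasks basisMasks).all fun n => imgMask c.t n != n || (spanMasks c.fb).any fun m => m == n

/-- The orbit of the axis class. -/
def orbOk : Bool :=
  decide (0 < c.orb.length) &&
    sameClass axisL (combL c.B (c.orb.getD 0 0)) &&
    (c.orb.all fun x => decide (x < 2 ^ c.D.length)) &&
    ((List.range c.orb.length).all fun i => i == 0 ||
      (decide ((c.orbPar.getD i (0, 0)).2 < i) && decide ((c.orbPar.getD i (0, 0)).1 < c.ops.length) &&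
        xorImg (c.imgs.getD (c.orbPar.getD i (0, 0)).1 []) (c.orb.getD (c.orbPar.getD i (0, 0)).2 0) ==
          c.orb.getD i 0)) &&
    (c.small.all fun v => memTest v && decide (dotL v v < 64) && sameClass v (combL c.B (codeL c.D v))) &&
    (List.range (2 ^ c.D.length)).all fun x =>
      c.orb.contains x || c.rest.contains x || c.small.any fun v => codeL c.D v == x

/-- All checks. -/
structure Ok : Prop where
  base : c.baseOk = true
  norm : normOk c.ti c.p c.B c.D = true
  mats : c.matsOk = true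
  imgs : c.imgsOk = true
  perms : c.permsOk = true
  chains : c.chainsOk = true
  code : c.codeOk = true
  orbit : c.orbOk = true

/-- The permutation. -/
noncomputable def τ : M24 := if h : inM24 c.t = true then (exists_elem h).choose else 1

/-- The element. -/
noncomputable def σ : Co0 := permAut c.τ

/-- The group generated by the matrices. -/
noncomputable def gen : Subgroup Co0 := Subgroup.closure {g | ∃ o ∈ c.ops, g = o.el}

variable {c}

theorem base_spec (hc : c.Ok) : c.p % 2 = 1 ∧ IsTbl (c.τ : PP) c.t ∧ IsTbl ((c.τ : PP).symm) c.ti ∧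
    dualOk c.B c.D = true ∧ normOk c.ti c.p c.B c.D = true ∧
    (∀ b ∈ c.B, sameClass (shiftL c.ti b) b = true) ∧
    (∀ g ∈ c.gts, ∃ ρ : M24, IsTbl (ρ : PP) g.1 ∧ IsTbl ((ρ : PP).symm) g.2 ∧
      (Op.perm g.1 g.2).el = permAut ρ) ∧
    (∀ m ∈ c.fb, ∃ d : golayCode, (d : GolayPt → ZMod 2) = wordOf m ∧ (Op.sign m).el = signAut d) ∧
    ∀ o ∈ c.ops, o.el * c.σ = c.σ * o.el ∧ ∀ (L : List ℤ) (v : leechLattice), L.length = 24 →
      toVec L = coordVec v → (o.app L).length = 24 ∧ toVec (o.app L) = coordVec (o.el • v) := by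
  have h := hc.base
  simp only [baseOk, Bool.and_eq_true, decide_eq_true_eq, List.all_eq_true, List.mem_range, beq_iff_eq] at h
  obtain ⟨⟨⟨⟨⟨⟨hp, hin⟩, hinv⟩, hd⟩, hB⟩, hg⟩, hf⟩ := h
  have hτ : IsTbl (c.τ : PP) c.t := by rw [τ, dif_pos hin]; exact (exists_elem hin).choose_spec
  have hti := symm_tbl hτ hinv
  refine ⟨hp, hτ, hti, hd, hc.norm, hB, fun g hgm => ?_, fun m hm' => ?_, fun o ho => ?_⟩
  · obtain ⟨⟨h1, h2⟩, -⟩ := hg g hgm
    exact ⟨elemOf g.1, elemOf_spec h1, symm_tbl (elemOf_spec h1) h2, rfl⟩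
  · exact ⟨⟨wordOf m, Golay.wordOf_mem_golayCode (Golay.inCode_iff.1 (hf m hm').1)⟩, rfl,
      dif_pos (hf m hm').1⟩
  simp only [ops, List.mem_append, List.mem_map] at ho
  rcases ho with (⟨g, hgm, rfl⟩ | ⟨m, hm, rfl⟩) | ⟨M, hM, rfl⟩
  · obtain ⟨⟨h1, h2⟩, h3⟩ := hg g hgm
    have hρ := elemOf_spec h1
    have e : elemOf g.1 * c.τ = c.τ * elemOf g.1 :=
      Subtype.ext (mul_inv_eq_iff_eq_mul.1 (hρ.conj hτ hτ h3))
    refine ⟨?_, fun L v hl hv => ⟨length_shiftL _ _, coordVec_shiftL (symm_tbl hρ h2) hv⟩⟩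
    show permAut (elemOf g.1) * c.σ = c.σ * permAut (elemOf g.1)
    rw [σ, ← permHom_apply, ← permHom_apply, ← map_mul, ← map_mul, e]
  · obtain ⟨h1, h2⟩ := hf m hm
    refine ⟨?_, fun L v hl hv => ⟨by simp [Op.app, flipL], ?_⟩⟩
    · show (Op.sign m).el * c.σ = c.σ * (Op.sign m).el
      simp only [Op.el, dif_pos h1, σ, permAut_mul_signAut]
      congr 2
      refine Subtype.ext (funext fun p => ?_)
      obtain ⟨q, rfl⟩ := (c.τ : PP).surjective p
      show wordOf m ((c.τ : PP) q) = wordOf m ((c.τ : PP).symm ((c.τ : PP) q))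
      rw [Equiv.symm_apply_apply]
      simp only [wordOf, hτ q, h2 _ (idx_lt q)]
    · funext p
      simp only [Op.el, Op.app, dif_pos h1, coordVec_signAut, ← hv, toVec, flipL, wordOf]
      rw [List.getD_eq_getElem _ _ (by simp [idx_lt]), List.getElem_map, List.getElem_range]
      by_cases hb : m.testBit (idx p) = true <;> simp [hb]
  · have hm := hc.mats
    simp only [matsOk, List.all_eq_true, Bool.and_eq_true] at hm
    exact ⟨matFn_comm hτ (hm M hM).1 (hm M hM).2, fun L v hl hv => matFn_spec (hm M hM).1 hl hv⟩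

theorem smul_op (hc : c.Ok) {k : ℕ} (hk : k < c.ops.length) (x : ℕ) :
    CongTwo (c.ops[k].el • combV c.B x) (combV c.B (xorImg (c.imgs.getD k []) x)) := by
  obtain ⟨-, -, -, hd, -, -, -, -, hops⟩ := base_spec hc
  obtain ⟨hB, -⟩ := dualOk_spec hd
  have h := hc.imgs
  simp only [imgsOk, List.all_eq_true, List.mem_range, Bool.and_eq_true, decide_eq_true_eq] at h
  obtain ⟨hlen, hj⟩ := h k hk
  refine xorImg_spec c.B _ hlen (fun j hjl => ?_) x
  have hm := List.all_eq_true.1 hB _ (List.getElem_mem hjl)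
  have hl : (c.B[j]).length = 24 := by
    simp only [memTest, Bool.and_eq_true, decide_eq_true_eq] at hm
    exact hm.1
  obtain ⟨a1, a2⟩ := (hops _ (List.getElem_mem hk)).2 _ _ hl (coordVec_vecOf hm).symm
  obtain ⟨b1, b2⟩ := combL_spec hB ((c.imgs.getD k []).getD j 0)
  have := hj j hjl
  rw [List.getD_eq_getElem _ _ hk, List.getD_eq_getElem _ _ hjl] at this
  exact congTwo_of_sameClass a1 b1 a2 b2 this

theorem comm_of_mem_gen (hc : c.Ok) {g : Co0} (hg : g ∈ c.gen) : g * c.σ = c.σ * g := by
  induction hg using Subgroup.closure_induction with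
  | mem g hg => obtain ⟨M, hM, rfl⟩ := hg; exact ((base_spec hc).2.2.2.2.2.2.2.2 M hM).1
  | one => rw [one_mul, mul_one]
  | mul a b _ _ ha hb => rw [mul_assoc, hb, ← mul_assoc, ha, mul_assoc]
  | inv a _ ha =>
    exact ((show Commute a c.σ from ha).inv_left).eq

/-- The permutations with tables in the list. -/
def permSet (c : Data) : Set M24 :=
  {ρ | ∃ i < c.perms.length, IsTbl (ρ : PP) (c.perms.getD i 0)}

theorem permSet_spec (hc : c.Ok) {i : ℕ} (hi : i < c.perms.length) :
    ∃ ρ : M24, IsTbl (ρ : PP) (c.perms.getD i 0) ∧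
      ρ ∈ Subgroup.closure {ρ : M24 | ∃ g ∈ c.gts, IsTbl (ρ : PP) g.1} := by
  have h := hc.perms
  simp only [permsOk, Bool.and_eq_true, List.all_eq_true, List.mem_range, Bool.or_eq_true,
    decide_eq_true_eq, beq_iff_eq] at h
  obtain ⟨⟨⟨hid, -⟩, hpar⟩, -⟩ := h
  induction i using Nat.strong_induction_on with
  | h i ih =>
    rcases Nat.eq_zero_or_pos i with rfl | hpos
    · refine ⟨1, fun p => ?_, Subgroup.one_mem _⟩
      simp only [isIdTbl, List.all_eq_true, List.mem_range, beq_iff_eq] at hid
      rw [hid _ (idx_lt p)]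
      rfl
    · obtain ⟨⟨h1, h2⟩, h3⟩ := (hpar i hi).resolve_left (by omega)
      obtain ⟨ρ, hρ, hρm⟩ := ih _ h1 (by omega)
      have hmem : c.gts.getD (c.parents.getD i (0, 0)).1 (0, 0) ∈ c.gts := by
        rw [List.getD_eq_getElem _ _ h2]; exact List.getElem_mem h2
      obtain ⟨π, hπ, -⟩ := (base_spec hc).2.2.2.2.2.2.1 _ hmem
      exact ⟨π * ρ, hπ.mul hρ h3, Subgroup.mul_mem _ (Subgroup.subset_closure ⟨_, hmem, hπ⟩) hρm⟩

theorem closure_subset_permSet (hc : c.Ok) {π : M24}
    (hπ : π ∈ Subgroup.closure {ρ : M24 | ∃ g ∈ c.gts, IsTbl (ρ : PP) g.1}) : π ∈ permSet c := by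
  have h := hc.perms
  simp only [permsOk, Bool.and_eq_true, List.all_eq_true, List.mem_range, decide_eq_true_eq] at h
  obtain ⟨⟨⟨hid, hpos⟩, -⟩, hsucc⟩ := h
  suffices key : ∀ ρ ∈ permSet c, π * ρ ∈ permSet c by
    have h1 : (1 : M24) ∈ permSet c := ⟨0, hpos, fun p => by
      simp only [isIdTbl, List.all_eq_true, List.mem_range, beq_iff_eq] at hid
      rw [hid _ (idx_lt p)]
      rfl⟩
    have := key 1 h1
    rwa [mul_one] at this
  induction hπ using Subgroup.closure_induction with
  | mem a ha =>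
    obtain ⟨g, hg, hga⟩ := ha
    rintro ρ ⟨i, hi, hρ⟩
    obtain ⟨n, hn, rfl⟩ := List.getElem_of_mem hg
    obtain ⟨h1, h2⟩ := hsucc n hn i hi
    rw [List.getD_eq_getElem c.gts _ hn] at h2
    exact ⟨_, h1, hga.mul hρ h2⟩
  | one => exact fun ρ hρ => by rwa [one_mul]
  | mul a b _ _ ha hb => exact fun ρ hρ => by rw [mul_assoc]; exact ha _ (hb _ hρ)
  | inv a _ ha =>
    intro ρ hρ
    have hb := ((Set.toFinite (permSet c)).injOn_iff_bijOn_of_mapsTo (f := fun x => a * x) ha).1
      (mul_right_injective a).injOn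
    obtain ⟨x, hx, hxe⟩ := hb.surjOn hρ
    rw [← hxe]
    simpa using hx

theorem ncard_permSet_le (c : Data) : (permSet c).ncard ≤ c.perms.length := by
  classical
  have : ∀ ρ : permSet c, ∃ i : Fin c.perms.length, IsTbl ((ρ : M24) : PP) (c.perms.getD i 0) :=
    fun ρ => ⟨⟨_, ρ.2.choose_spec.1⟩, ρ.2.choose_spec.2⟩
  choose f hf using this
  rw [← Nat.card_coe_set_eq, ← Nat.card_fin c.perms.length]
  exact Nat.card_le_card_of_injective f fun a b e => Subtype.ext (Subtype.ext ((hf a).ext (e ▸ hf b)))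

theorem mem_gen_of_closure (hc : c.Ok) {π : M24}
    (hπ : π ∈ Subgroup.closure {ρ : M24 | ∃ g ∈ c.gts, IsTbl (ρ : PP) g.1}) : permAut π ∈ c.gen := by
  suffices Subgroup.closure {ρ : M24 | ∃ g ∈ c.gts, IsTbl (ρ : PP) g.1} ≤ c.gen.comap permHom from this hπ
  rw [Subgroup.closure_le]
  rintro a ⟨g, hg, hga⟩
  obtain ⟨ρ, hρ, -, he⟩ := (base_spec hc).2.2.2.2.2.2.1 g hg
  show permAut a ∈ c.gen
  rw [show a = ρ from Subtype.ext (hga.ext hρ), ← he]
  exact Subgroup.subset_closure ⟨_, List.mem_append_left _ (List.mem_append_left _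
    (List.mem_map.2 ⟨g, hg, rfl⟩)), rfl⟩

theorem centralizer_perm (hc : c.Ok) {ρ : M24} (h : ρ * c.τ = c.τ * ρ) :
    ρ ∈ Subgroup.closure {ρ : M24 | ∃ g ∈ c.gts, IsTbl (ρ : PP) g.1} := by
  obtain ⟨-, hτ, -⟩ := base_spec hc
  have hcs := hc.chains
  simp only [chainsOk, Bool.and_eq_true] at hcs
  refine mem_of_chainOk hτ (fun l hl => ?_) c.chain [] hcs.1 hcs.2 ρ
    (congrArg Subtype.val h) (fun a ha => absurd ha (List.not_mem_nil))
  obtain ⟨i, hi, rfl⟩ := List.getElem_of_mem hl
  obtain ⟨π, hπ, hπm⟩ := permSet_spec hc hi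
  rw [List.getD_eq_getElem _ _ hi] at hπ
  refine ⟨π, hπm, hπ, ?_⟩
  have hcomm := comm_of_mem_gen hc (mem_gen_of_closure hc hπm)
  rw [σ, ← permHom_apply, ← permHom_apply, ← map_mul, ← map_mul, permHom_apply, permHom_apply] at hcomm
  exact congrArg Subtype.val (monomial_unique (congrArg (fun g => signAut 0 * g) hcomm)).2

/-- The invariant words. -/
def fixWords (c : Data) : Set golayCode := {d | ∃ n ∈ spanMasks c.fb, (d : GolayPt → ZMod 2) = wordOf n}

theorem fixWord_of_comp (hc : c.Ok) {d : golayCode}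
    (h : ∀ p, (d : GolayPt → ZMod 2) ((c.τ : PP).symm p) = (d : GolayPt → ZMod 2) p) : d ∈ fixWords c := by
  obtain ⟨-, hτ, -⟩ := base_spec hc
  obtain ⟨n, hn, hne⟩ := Golay.mem_golayCode_iff.1 d.2
  refine ⟨n, ?_, hne.symm⟩
  have hcode := hc.code
  simp only [codeOk, List.all_eq_true, Bool.or_eq_true, List.any_eq_true, beq_iff_eq, bne_iff_ne] at hcode
  rcases hcode n hn with h1 | ⟨m, hm, rfl⟩
  · refine absurd (Nat.eq_of_testBit_eq fun j => ?_) h1
    have hd : ∀ p, n.testBit (idx p) = decide ((d : GolayPt → ZMod 2) p ≠ 0) := fun p => by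
      rw [← hne]
      simp only [wordOf]
      by_cases hb : n.testBit (idx p) = true <;> simp [hb]
    rw [Bool.eq_iff_iff, Golay.testBit_imgMask]
    constructor
    · rintro ⟨i, hi, hni, rfl⟩
      have hp := hd ((c.τ : PP) (pt i))
      rw [hτ, idx_pt hi] at hp
      rw [hp, ← h, Equiv.symm_apply_apply, ← hd, idx_pt hi, hni]
    · intro hj
      have hj24 : j < 24 := by
        by_contra hge
        have hlt : n < 2 ^ 24 := Golay.lt_of_mem_codeMasks hn
        rw [Nat.testBit_eq_false_of_lt (lt_of_lt_of_le hlt (Nat.pow_le_pow_right (by norm_num) (not_lt.1 hge)))] at hj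
        exact Bool.false_ne_true hj
      refine ⟨idx ((c.τ : PP).symm (pt j)), idx_lt _, ?_, ?_⟩
      · rw [hd, h, ← hd, idx_pt hj24, hj]
      · rw [← hτ, Equiv.apply_symm_apply, idx_pt hj24]
  · exact hm

theorem signAut_mem_gen (hc : c.Ok) {d : golayCode} (hd : d ∈ fixWords c) : signAut d ∈ c.gen := by
  obtain ⟨n, hn, hne⟩ := hd
  have : ∃ d' : golayCode, (d' : GolayPt → ZMod 2) = wordOf n ∧ signAut d' ∈ c.gen := by
    refine Golay.spanMasks_induction
      (P := fun w => ∃ d' : golayCode, (d' : GolayPt → ZMod 2) = w ∧ signAut d' ∈ c.gen) ?_ ?_ ?_ hn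
    · exact ⟨0, rfl, by rw [signAut_zero]; exact Subgroup.one_mem _⟩
    · rintro v w ⟨a, rfl, ha⟩ ⟨b, rfl, hb⟩
      exact ⟨a + b, rfl, by rw [← signAut_mul]; exact Subgroup.mul_mem _ ha hb⟩
    · intro b hb
      obtain ⟨d', hd', he⟩ := (base_spec hc).2.2.2.2.2.2.2.1 b hb
      refine ⟨d', hd', ?_⟩
      rw [← he]
      exact Subgroup.subset_closure ⟨_, List.mem_append_left _ (List.mem_append_right _
        (List.mem_map.2 ⟨b, hb, rfl⟩)), rfl⟩
  obtain ⟨d', hd', hm⟩ := this
  rwa [show d = d' from Subtype.ext (hne.trans hd'.symm)]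

theorem exists_transversal (hc : c.Ok) : ∀ i < c.orb.length,
    ∃ g ∈ c.gen, CongTwo (g • vecA) (combV c.B (c.orb.getD i 0)) := by
  have h := hc.orbit
  simp only [orbOk, Bool.and_eq_true, List.all_eq_true, List.mem_range, Bool.or_eq_true,
    decide_eq_true_eq, beq_iff_eq] at h
  obtain ⟨⟨⟨⟨⟨-, h0⟩, -⟩, hpar⟩, -⟩, -⟩ := h
  obtain ⟨hB, -⟩ := dualOk_spec (base_spec hc).2.2.2.1
  intro i
  induction i using Nat.strong_induction_on with
  | h i ih =>
    intro hi
    rcases Nat.eq_zero_or_pos i with rfl | hpos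
    · refine ⟨1, Subgroup.one_mem _, ?_⟩
      rw [one_smul]
      obtain ⟨h1, h2⟩ := combL_spec hB (c.orb.getD 0 0)
      refine congTwo_of_sameClass (a := axisL) (by decide) h1 ?_ h2 h0
      funext p
      show toVec axisL p = 4 * (if p = none then (2 : ℤ) else 0)
      revert p; decide +kernel
    · obtain ⟨⟨h1, h2⟩, h3⟩ := (hpar i hi).resolve_left (by omega)
      obtain ⟨g, hg, hgv⟩ := ih _ h1 (by omega)
      refine ⟨(c.ops[(c.orbPar.getD i (0, 0)).1]).el * g,
        Subgroup.mul_mem _ (Subgroup.subset_closure ⟨_, List.getElem_mem h2, rfl⟩) hg, ?_⟩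
      rw [mul_smul]
      refine (hgv.smul _).trans ?_
      rw [← h3]
      exact smul_op hc h2 _

theorem smul_vecA_sigma (c : Data) : CongTwo (c.σ • vecA) vecA := by
  have := smul_vecA_monomial 0 c.τ
  rwa [signAut_zero, one_mul] at this

theorem class_cases (hc : c.Ok) {h : Co0} (hcomm : h * c.σ = c.σ * h) :
    ∃ x < 2 ^ c.D.length, CongTwo (h • vecA) (combV c.B x) ∧ (x ∈ c.orb ∨ x ∈ c.rest) := by
  obtain ⟨hp, -, hti, hd, hn, -⟩ := base_spec hc
  obtain ⟨hB, hD, -, -⟩ := dualOk_spec hd
  have hfix : CongTwo (c.σ • (h • vecA)) (h • vecA) := by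
    rw [← mul_smul, ← hcomm, mul_smul]
    exact (smul_vecA_sigma c).smul h
  have hv := exists_comb hti hp hd hn hfix
  refine ⟨_, codeV_lt _ _, hv, ?_⟩
  have h := hc.orbit
  simp only [orbOk, Bool.and_eq_true, List.all_eq_true, List.mem_range, Bool.or_eq_true,
    decide_eq_true_eq, List.any_eq_true, beq_iff_eq, List.contains_iff_mem] at h
  obtain ⟨⟨-, hsm⟩, hall⟩ := h
  rcases hall _ (codeV_lt c.D (h • vecA)) with h1 | ⟨v, hv', he⟩
  · exact h1
  · exfalso
    obtain ⟨⟨hm, hn64⟩, hsc⟩ := hsm v hv'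
    have hl : v.length = 24 := by
      simp only [memTest, Bool.and_eq_true, decide_eq_true_eq] at hm
      exact hm.1
    obtain ⟨c1, c2⟩ := combL_spec hB (codeL c.D v)
    have h2 := congTwo_of_sameClass hl c1 (coordVec_vecOf hm).symm c2 hsc
    rw [he] at h2
    have hA : sqNorm (coordVec (h • vecA)) = 64 := by rw [sqNorm_smul', sqNorm_vecA]
    have hV : sqNorm (coordVec (vecOf v)) < 64 := by
      rw [coordVec_vecOf hm, ← dotInt_self, dotInt_toVec hl hl]; exact hn64
    rcases congTwo_cases (hv.trans h2.symm) (le_of_eq hA) hV.le with r | r | ⟨-, r, -⟩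
    · rw [r] at hA; omega
    · rw [r] at hA
      have : sqNorm (coordVec (-vecOf v)) = sqNorm (coordVec (vecOf v)) :=
        Finset.sum_congr rfl fun p _ => neg_sq _
      omega
    · omega

/-- Every element of the centraliser is a product from the three pieces. -/
theorem exists_decomp (hc : c.Ok)
    (hrest : ∀ h : Co0, h * c.σ = c.σ * h → ∀ x ∈ c.rest, ¬ CongTwo (h • vecA) (combV c.B x))
    {h : Co0} (hcomm : h * c.σ = c.σ * h) :
    ∃ (i : Fin c.orb.length) (d : golayCode) (ρ : M24), d ∈ fixWords c ∧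
      ρ ∈ Subgroup.closure {ρ : M24 | ∃ g ∈ c.gts, IsTbl (ρ : PP) g.1} ∧
      h = (exists_transversal hc i i.2).choose * (signAut d * permAut ρ) := by
  obtain ⟨x, -, hx, ho | hr⟩ := class_cases hc hcomm
  swap
  · exact absurd hx (hrest h hcomm x hr)
  obtain ⟨i, hi, rfl⟩ := List.getElem_of_mem ho
  refine ⟨⟨i, hi⟩, ?_⟩
  set g := (exists_transversal hc i hi).choose
  obtain ⟨hg, hgv⟩ := (exists_transversal hc i hi).choose_spec
  have hgv : CongTwo (g • vecA) (combV c.B c.orb[i]) :=
    hgv.trans (by rw [List.getD_eq_getElem _ _ hi]; exact CongTwo.refl _)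
  have hmono : CongTwo ((g⁻¹ * h) • vecA) vecA := by
    rw [mul_smul]
    have := (hx.trans hgv.symm).smul g⁻¹
    rwa [inv_smul_smul] at this
  obtain ⟨d, ρ, he⟩ := exists_monomial hmono
  have hm : (g⁻¹ * h) * c.σ = c.σ * (g⁻¹ * h) :=
    (Commute.mul_left (Commute.inv_left (comm_of_mem_gen hc hg : Commute g c.σ)) hcomm).eq
  rw [he, σ] at hm
  have hR : permAut c.τ * (signAut d * permAut ρ) =
      signAut ⟨fun i => (d : GolayPt → ZMod 2) ((c.τ : PP).symm i),
        comp_mem_golayCode (M24.inv_mem c.τ.2) d.2⟩ * permAut (c.τ * ρ) := by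
    rw [← mul_assoc, permAut_mul_signAut, mul_assoc]
    congr 1
  rw [hR, mul_assoc, show permAut ρ * permAut c.τ = permAut (ρ * c.τ) from (map_mul permHom ρ c.τ).symm] at hm
  obtain ⟨h1, h2⟩ := monomial_unique hm
  refine ⟨d, ρ, fixWord_of_comp hc fun p => ?_, centralizer_perm hc h2, ?_⟩
  · exact (congrFun (congrArg Subtype.val h1) p).symm
  · show h = g * _
    rw [← he, mul_inv_cancel_left]

theorem mem_gen (hc : c.Ok)
    (hrest : ∀ h : Co0, h * c.σ = c.σ * h → ∀ x ∈ c.rest, ¬ CongTwo (h • vecA) (combV c.B x))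
    {h : Co0} (hcomm : h * c.σ = c.σ * h) : h ∈ c.gen := by
  obtain ⟨i, d, ρ, hd, hρ, rfl⟩ := exists_decomp hc hrest hcomm
  exact Subgroup.mul_mem _ (exists_transversal hc i i.2).choose_spec.1
    (Subgroup.mul_mem _ (signAut_mem_gen hc hd) (mem_gen_of_closure hc hρ))

theorem card_gen_le (hc : c.Ok)
    (hrest : ∀ h : Co0, h * c.σ = c.σ * h → ∀ x ∈ c.rest, ¬ CongTwo (h • vecA) (combV c.B x)) :
    Nat.card c.gen ≤ c.orb.length * 2 ^ c.fb.length * c.perms.length := by
  have := finite_Co0
  have hex : ∀ h : c.gen, ∃ (i : Fin c.orb.length) (d : fixWords c) (ρ : permSet c),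
      (h : Co0) = (exists_transversal hc i i.2).choose * (signAut (d : golayCode) * permAut (ρ : M24)) :=
    fun h => by
      obtain ⟨i, d, ρ, hd, hρ, he⟩ := exists_decomp hc hrest (comm_of_mem_gen hc h.2)
      exact ⟨i, ⟨d, hd⟩, ⟨ρ, closure_subset_permSet hc hρ⟩, he⟩
  choose fi fd fr he using hex
  have hinj : Function.Injective fun h => (fi h, fd h, fr h) := fun a b e => by
    simp only [Prod.mk.injEq] at e
    obtain ⟨e1, e2, e3⟩ := e
    apply Subtype.ext
    rw [he a, he b, e2, e3]
    rw [e1]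
  have hw : (fixWords c).ncard ≤ 2 ^ c.fb.length := by
    have hlen : ∀ bs : List ℕ, (spanMasks bs).length = 2 ^ bs.length := fun bs => by
      induction bs with
      | nil => rfl
      | cons b bs ih => simp [spanMasks, ih, pow_succ, Nat.mul_comm]; omega
    have hsub : (fixWords c).MapsTo (fun d : golayCode => (d : GolayPt → ZMod 2))
        ((spanMasks c.fb).map wordOf).toFinset := fun d hd => by
      obtain ⟨n, hn, e⟩ := hd
      exact List.mem_toFinset.2 (List.mem_map.2 ⟨n, hn, e.symm⟩)
    refine le_trans (Set.ncard_le_ncard_of_injOn _ hsub Subtype.val_injective.injOn (Finset.finite_toSet _)) ?_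
    rw [Set.ncard_coe_finset, ← hlen c.fb, ← List.length_map (f := wordOf)]
    exact List.toFinset_card_le _
  refine le_trans (Nat.card_le_card_of_injective _ hinj) ?_
  rw [Nat.card_prod, Nat.card_prod, Nat.card_fin, Nat.card_coe_set_eq, Nat.card_coe_set_eq, mul_assoc]
  exact Nat.mul_le_mul le_rfl (Nat.mul_le_mul hw (ncard_permSet_le c))

theorem smul_comb_fixed (hc : c.Ok) : ∀ x, CongTwo (c.σ • combV c.B x) (combV c.B x) := by
  obtain ⟨-, -, hti, hd, -, hB, -⟩ := base_spec hc
  obtain ⟨hm, -⟩ := dualOk_spec hd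
  suffices ∀ B : List (List ℤ), B.all memTest = true → (∀ b ∈ B, sameClass (shiftL c.ti b) b = true) →
      ∀ x, CongTwo (c.σ • combV B x) (combV B x) from this c.B hm hB
  intro B
  induction B with
  | nil => exact fun _ _ x => by rw [combV, smul_zero_co0]; exact CongTwo.refl _
  | cons b bs ih =>
    intro hall hs x
    simp only [List.all_cons, Bool.and_eq_true] at hall
    simp only [combV, smul_add_co0]
    refine congTwo_add ?_ (ih hall.2 (fun y hy => hs y (List.mem_cons_of_mem _ hy)) _)
    split_ifs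
    · have hl : b.length = 24 := by
        have := hall.1
        simp only [memTest, Bool.and_eq_true, decide_eq_true_eq] at this
        exact this.1
      exact congTwo_of_sameClass (length_shiftL _ _) hl (coordVec_shiftL hti (coordVec_vecOf hall.1).symm)
        (coordVec_vecOf hall.1).symm (hs b List.mem_cons_self)
    · rw [smul_zero_co0]; exact CongTwo.refl _

end Data

end CfsgLib.MonsterLocal
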