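import Cfsg.Agent.Lib.McLInv.Centraliser
import Cfsg.Agent.Lib.Fischer2.MonsterClasses

/-!
Coordinates on the classes modulo `2Λ` fixed by a permutation of odd order.
-/

set_option autoImplicit false

namespace CfsgLib.MonsterLocal

open Cfsg CfsgLib.Fischer2 CfsgLib.Leech
open CfsgLib.Golay (idx pt idx_pt pt_idx idx_lt)
open CfsgLib.GolayStructure (leech_ext)
open CfsgLib.McLInv (ap8)

/-- The entrywise sum of two lists. -/
def addL (a b : List ℤ) : List ℤ := List.zipWith (· + ·) a b

/-- The zero list. -/
def zeroL : List ℤ := List.replicate 24 0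

theorem toVec_addL {a b : List ℤ} (ha : a.length = 24) (hb : b.length = 24) :
    toVec (addL a b) = toVec a + toVec b := by
  funext p
  have h : idx p < 24 := idx_lt p
  rw [Pi.add_apply, toVec, toVec, toVec, addL,
    List.getD_eq_getElem _ _ (by simp [ha, hb, h]), List.getD_eq_getElem _ _ (by omega),
    List.getD_eq_getElem _ _ (by omega), List.getElem_zipWith]

theorem toVec_zeroL : toVec zeroL = 0 := by
  funext p; revert p; decide +kernel

/-- The lattice vector of a list, zero if the membership test fails. -/
def vecOf (L : List ℤ) : leechLattice := if h : memTest L = true then ofList L h else 0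

theorem coordVec_vecOf {L : List ℤ} (h : memTest L = true) : coordVec (vecOf L) = toVec L := by
  rw [vecOf, dif_pos h, coordVec_ofList]

theorem coordVec_zero' : coordVec (0 : leechLattice) = 0 := rfl

/-- The sum of the vectors selected by the bits. -/
def combV : List (List ℤ) → ℕ → leechLattice
  | [], _ => 0
  | b :: bs, c => (if c % 2 = 1 then vecOf b else 0) + combV bs (c / 2)

/-- The list form of `combV`. -/
def combL : List (List ℤ) → ℕ → List ℤ
  | [], _ => zeroL
  | b :: bs, c => addL (if c % 2 = 1 then b else zeroL) (combL bs (c / 2))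

theorem combL_spec : ∀ {B : List (List ℤ)}, B.all memTest = true → ∀ c,
    (combL B c).length = 24 ∧ toVec (combL B c) = coordVec (combV B c) := by
  intro B
  induction B with
  | nil => exact fun _ c => ⟨rfl, toVec_zeroL⟩
  | cons b bs ih =>
    intro h c
    simp only [List.all_cons, Bool.and_eq_true] at h
    obtain ⟨h1, h2⟩ := h
    have hb : b.length = 24 := by
      simp only [memTest, Bool.and_eq_true, decide_eq_true_eq] at h1
      exact h1.1
    obtain ⟨il, ie⟩ := ih h2 (c / 2)
    have hl : (if c % 2 = 1 then b else zeroL).length = 24 := by split_ifs <;> simp [hb, zeroL]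
    refine ⟨by simp only [combL, addL, List.length_zipWith, hl, il, min_self], ?_⟩
    rw [combL, toVec_addL hl il, ie, combV]
    show _ = coordVec _ + coordVec _
    split_ifs
    · rw [coordVec_vecOf h1]
    · rw [toVec_zeroL, coordVec_zero']

theorem xor_halve (a b : ℕ) : (a ^^^ b) / 2 = a / 2 ^^^ b / 2 := by
  apply Nat.eq_of_testBit_eq
  intro i
  simp only [Nat.testBit_xor, Nat.testBit_div_two]

theorem congTwo_add {a b c d : leechLattice} (h : CongTwo a b) (h' : CongTwo c d) :
    CongTwo (a + c) (b + d) := by
  obtain ⟨u, rfl⟩ := h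
  obtain ⟨w, rfl⟩ := h'
  exact ⟨u + w, by abel⟩

theorem combV_xor : ∀ (B : List (List ℤ)) (a b : ℕ),
    CongTwo (combV B (a ^^^ b)) (combV B a + combV B b)
  | [], a, b => by simpa [combV] using CongTwo.refl _
  | x :: B, a, b => by
    simp only [combV, xor_halve]
    have ih := combV_xor B (a / 2) (b / 2)
    have hm : (a ^^^ b) % 2 = if a % 2 = b % 2 then 0 else 1 := by
      have := Nat.testBit_xor a b 0
      simp only [Nat.testBit_zero] at this
      rcases Nat.mod_two_eq_zero_or_one a with h | h <;> rcases Nat.mod_two_eq_zero_or_one b with h' | h' <;>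
        simp [h, h'] at this ⊢ <;> exact this
    have key : CongTwo (if (a ^^^ b) % 2 = 1 then vecOf x else 0)
        ((if a % 2 = 1 then vecOf x else 0) + (if b % 2 = 1 then vecOf x else 0)) := by
      rw [hm]
      rcases Nat.mod_two_eq_zero_or_one a with h | h <;> rcases Nat.mod_two_eq_zero_or_one b with h' | h' <;>
        simp [h, h', CongTwo.refl]
      exact ⟨-vecOf x, by abel⟩
    have e : (if a % 2 = 1 then vecOf x else 0) + combV B (a / 2) +
        ((if b % 2 = 1 then vecOf x else 0) + combV B (b / 2)) =
        ((if a % 2 = 1 then vecOf x else 0) + (if b % 2 = 1 then vecOf x else 0)) +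
          (combV B (a / 2) + combV B (b / 2)) := by abel
    rw [e]
    exact congTwo_add key ih

/-! ### Coordinates -/

/-- The coordinates of a list with respect to the dual list. -/
def codeL (D : List (List ℤ)) (L : List ℤ) : ℕ := maskOf (D.map fun d => decide (dotL L d / 8 % 2 = 1))

/-- The coordinates of a lattice vector with respect to the dual list. -/
def codeV (D : List (List ℤ)) (v : leechLattice) : ℕ :=
  maskOf (D.map fun d => decide (dotInt (coordVec v) (toVec d) / 8 % 2 = 1))

theorem codeV_eq {D : List (List ℤ)} (hD : D.all memTest = true) {v : leechLattice} {L : List ℤ}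
    (hl : L.length = 24) (h : toVec L = coordVec v) : codeV D v = codeL D L := by
  simp only [codeV, codeL]
  congr 1
  refine List.map_congr_left fun d hd => ?_
  have hd' := List.all_eq_true.1 hD d hd
  simp only [memTest, Bool.and_eq_true, decide_eq_true_eq] at hd'
  rw [← h, dotInt_toVec hl hd'.1]

theorem codeV_congr {D : List (List ℤ)} (hD : D.all memTest = true) {v w : leechLattice}
    (h : CongTwo v w) : codeV D v = codeV D w := by
  obtain ⟨u, rfl⟩ := h
  simp only [codeV]
  congr 1
  refine List.map_congr_left fun d hd => ?_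
  obtain ⟨k, hk⟩ := eight_dvd_dotInt u.2 (toVec_mem (List.all_eq_true.1 hD d hd))
  have hadd : dotInt (coordVec (w + (u + u))) (toVec d) =
      dotInt (coordVec w) (toVec d) + 2 * dotInt (coordVec u) (toVec d) := by
    simp only [dotInt, Finset.mul_sum, ← Finset.sum_add_distrib]
    refine Finset.sum_congr rfl fun p _ => ?_
    show (coordVec w p + (coordVec u p + coordVec u p)) * _ = _
    ring
  change dotInt (coordVec u) (toVec d) = 8 * k at hk
  refine decide_eq_decide.2 ?_
  rw [hadd, hk]
  omega

/-- The two lists differ by an element of `2Λ`. -/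
def sameClass (a b : List ℤ) : Bool :=
  let d := List.zipWith (· - ·) a b
  d.all (fun x => decide (x % 2 = 0)) && memTest (d.map (· / 2))

theorem congTwo_of_sameClass {a b : List ℤ} {v w : leechLattice} (ha : a.length = 24)
    (hb : b.length = 24) (hv : toVec a = coordVec v) (hw : toVec b = coordVec w)
    (h : sameClass a b = true) : CongTwo v w := by
  simp only [sameClass, Bool.and_eq_true, List.all_eq_true, decide_eq_true_eq] at h
  obtain ⟨h2, hm⟩ := h
  refine ⟨vecOf ((List.zipWith (· - ·) a b).map (· / 2)), leech_ext fun p => ?_⟩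
  show coordVec v p = coordVec w p + (coordVec (vecOf _) p + coordVec (vecOf _) p)
  rw [coordVec_vecOf hm, ← hv, ← hw, toVec, toVec, toVec]
  have hp : idx p < 24 := idx_lt p
  have hz : idx p < (List.zipWith (· - ·) a b).length := by simp [ha, hb, hp]
  have := h2 _ (List.getElem_mem hz)
  rw [List.getD_eq_getElem _ _ (by omega), List.getD_eq_getElem _ _ (by omega),
    List.getD_eq_getElem _ _ (by simpa using hz), List.getElem_map]
  simp only [List.getElem_zipWith] at this ⊢
  omega

theorem codeV_lt (D : List (List ℤ)) (v : leechLattice) : codeV D v < 2 ^ D.length := by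
  have : ∀ bs : List Bool, maskOf bs < 2 ^ bs.length := by
    intro bs
    induction bs with
    | nil => simp [maskOf]
    | cons b bs ih =>
      simp only [maskOf, List.length_cons, pow_succ]
      cases b <;> simp <;> omega
  simpa [codeV] using this (D.map fun d => decide (dotInt (coordVec v) (toVec d) / 8 % 2 = 1))

/-- The check of a pair of dual lists. -/
def dualOk (B D : List (List ℤ)) : Bool :=
  B.all memTest && D.all memTest && decide (B.length = D.length) &&
    (List.range (2 ^ D.length)).all fun c => codeL D (combL B c) == c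

theorem dualOk_spec {B D : List (List ℤ)} (h : dualOk B D = true) :
    B.all memTest = true ∧ D.all memTest = true ∧ B.length = D.length ∧
      ∀ c < 2 ^ D.length, codeV D (combV B c) = c := by
  simp only [dualOk, Bool.and_eq_true, decide_eq_true_eq] at h
  obtain ⟨⟨⟨hB, hD⟩, hl⟩, hc⟩ := h
  refine ⟨hB, hD, hl, fun c hlt => ?_⟩
  have := List.all_eq_true.1 hc c (List.mem_range.2 hlt)
  rw [beq_iff_eq] at this
  obtain ⟨h1, h2⟩ := combL_spec hB c
  rw [codeV_eq hD h1 h2, this]

theorem eq_of_congTwo_combV {B D : List (List ℤ)} (h : dualOk B D = true) {a b : ℕ}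
    (ha : a < 2 ^ D.length) (hb : b < 2 ^ D.length) (hab : CongTwo (combV B a) (combV B b)) : a = b := by
  obtain ⟨-, hD, -, hc⟩ := dualOk_spec h
  rw [← hc a ha, ← hc b hb, codeV_congr hD hab]

/-! ### The classes fixed by a permutation -/

/-- A list moved by the permutation whose inverse has the table `ti`. -/
def shiftL (ti : ℕ) (L : List ℤ) : List ℤ :=
  (List.range 24).map fun i => L.getD (Golay.tblAt ti i) 0

theorem length_shiftL (ti : ℕ) (L : List ℤ) : (shiftL ti L).length = 24 := by simp [shiftL]

theorem coordVec_shiftL {σ : M24} {ti : ℕ}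
    (hti : Golay.IsTbl ((σ : Equiv.Perm GolayPt).symm) ti) {L : List ℤ} {v : leechLattice}
    (h : toVec L = coordVec v) : toVec (shiftL ti L) = coordVec (permAut σ • v) := by
  funext p
  rw [coordVec_permAut, ← h]
  simp only [toVec, shiftL]
  rw [List.getD_eq_getElem _ _ (by simp [idx_lt]), List.getElem_map, List.getElem_range, ← hti p]

/-- The sum of `v, gv, …` with `n` terms. -/
def normV (g : Co0) : ℕ → leechLattice → leechLattice
  | 0, _ => 0
  | n + 1, v => v + g • normV g n v

/-- The list form of `normV`. -/
def normL (ti : ℕ) : ℕ → List ℤ → List ℤ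
  | 0, _ => zeroL
  | n + 1, L => addL L (shiftL ti (normL ti n L))

theorem normL_spec {σ : M24} {ti : ℕ} (hti : Golay.IsTbl ((σ : Equiv.Perm GolayPt).symm) ti)
    {L : List ℤ} {v : leechLattice} (hl : L.length = 24) (h : toVec L = coordVec v) :
    ∀ n, (normL ti n L).length = 24 ∧ toVec (normL ti n L) = coordVec (normV (permAut σ) n v)
  | 0 => ⟨rfl, toVec_zeroL⟩
  | n + 1 => by
    obtain ⟨-, he⟩ := normL_spec hti hl h n
    refine ⟨by simp only [normL, addL, List.length_zipWith, hl, length_shiftL, min_self], ?_⟩
    rw [normL, toVec_addL hl (length_shiftL _ _), coordVec_shiftL hti he, h]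
    rfl

theorem normV_add (g : Co0) : ∀ (n : ℕ) (v w : leechLattice),
    normV g n (v + w) = normV g n v + normV g n w
  | 0, _, _ => (add_zero _).symm
  | n + 1, v, w => by simp only [normV, normV_add g n v w, smul_add_co0]; abel

theorem normV_congr {g : Co0} {v : leechLattice} (h : CongTwo (g • v) v) :
    ∀ n, CongTwo (normV g n v) (if n % 2 = 1 then v else 0)
  | 0 => CongTwo.refl _
  | n + 1 => by
    simp only [normV]
    have h1 := congTwo_add (CongTwo.refl v) ((normV_congr h n).smul g)
    refine h1.trans ?_
    rcases Nat.mod_two_eq_zero_or_one n with hn | hn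
    · rw [if_neg (by omega), if_pos (by omega), smul_zero_co0, add_zero]
      exact CongTwo.refl _
    · rw [if_pos hn, if_neg (by omega)]
      refine (congTwo_add (CongTwo.refl v) h).trans ?_
      exact ⟨v, by abel⟩

/-- The check that the norms of the generators are combinations of the basis. -/
def normOk (ti p : ℕ) (B D : List (List ℤ)) : Bool :=
  gensList.all fun g =>
    let n := normL ti p g
    sameClass n (combL B (codeL D n))

theorem exists_comb {σ : M24} {ti p : ℕ} (hti : Golay.IsTbl ((σ : Equiv.Perm GolayPt).symm) ti)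
    (hp : p % 2 = 1) {B D : List (List ℤ)} (hd : dualOk B D = true) (hn : normOk ti p B D = true)
    {v : leechLattice} (hv : CongTwo (permAut σ • v) v) :
    CongTwo v (combV B (codeV D v)) := by
  obtain ⟨hB, hD, hl, hc⟩ := dualOk_spec hd
  have key : ∀ x : leechLattice, ∃ c < 2 ^ D.length, CongTwo (normV (permAut σ) p x) (combV B c) := by
    have hzero : ∀ n, normV (permAut σ) n 0 = 0 := fun n => by
      induction n with
      | zero => rfl
      | succ n ih => simp only [normV, ih, smul_zero_co0, add_zero]
    suffices h : ∀ y : GolayPt → ℤ, y ∈ gensSpan → ∀ hy : y ∈ leechLattice,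
        ∃ c < 2 ^ D.length, CongTwo (normV (permAut σ) p ⟨y, hy⟩) (combV B c) from
      fun x => h x (mem_gensSpan x.2) x.2
    intro y hy
    have hsub : gensSpan ≤ leechLattice := (AddSubgroup.closure_le _).2 (by
      rintro z ⟨L, hL, rfl⟩
      exact toVec_mem ((show ∀ L ∈ gensList, memTest L = true by decide +kernel) L hL))
    induction hy using AddSubgroup.closure_induction with
    | mem y hy =>
      intro hm
      obtain ⟨L, hL, rfl⟩ := hy
      obtain ⟨hnl, hne⟩ := normL_spec hti (length_gensList_mem hL) (v := ⟨toVec L, hm⟩) rfl p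
      have h1 := List.all_eq_true.1 hn L hL
      obtain ⟨hcl, hce⟩ := combL_spec hB (codeL D (normL ti p L))
      refine ⟨codeL D (normL ti p L), ?_, congTwo_of_sameClass hnl hcl hne hce h1⟩
      rw [← codeV_eq hD hnl hne]
      exact codeV_lt _ _
    | zero =>
      intro hm
      refine ⟨0, Nat.two_pow_pos _, ?_⟩
      rw [show (⟨0, hm⟩ : leechLattice) = 0 from rfl, hzero]
      have hz : ∀ B : List (List ℤ), combV B 0 = 0 := fun B => by
        induction B with
        | nil => rfl
        | cons b bs ih => simp [combV, ih]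
      rw [hz]
      exact CongTwo.refl _
    | add a b ha hb iha ihb =>
      intro hm
      obtain ⟨c, hc, hca⟩ := iha (hsub ha)
      obtain ⟨d, hd', hdb⟩ := ihb (hsub hb)
      refine ⟨c ^^^ d, Nat.xor_lt_two_pow hc hd', ?_⟩
      rw [show (⟨a + b, hm⟩ : leechLattice) = ⟨a, hsub ha⟩ + ⟨b, hsub hb⟩ from rfl, normV_add]
      exact (congTwo_add hca hdb).trans (combV_xor B c d).symm
    | neg a ha iha =>
      intro hm
      obtain ⟨c, hc, hca⟩ := iha (hsub ha)
      refine ⟨c, hc, CongTwo.trans ?_ hca⟩
      have e : normV (permAut σ) p ⟨-a, hm⟩ = -normV (permAut σ) p ⟨a, hsub ha⟩ := by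
        refine eq_neg_of_add_eq_zero_left ?_
        rw [← normV_add]
        convert hzero p
        exact Subtype.ext (neg_add_cancel a)
      rw [e]
      exact congTwo_neg _
  obtain ⟨c, hc', hvc⟩ := key v
  have h1 := normV_congr hv p
  rw [if_pos hp] at h1
  have h2 : CongTwo v (combV B c) := h1.symm.trans hvc
  rw [codeV_congr hD h2, hc c hc']
  exact h2

end CfsgLib.MonsterLocal
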