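import Cfsg.Agent.Lib.MonsterLocal.Main
import Cfsg.Agent.Lib.MonsterLocal.SevenHom

/-!
The conjugates of `z` in `C_Q(B)`, counted.
-/

set_option autoImplicit false

namespace CfsgLib.MonsterLocal

open Cfsg CfsgLib.Fischer2 CfsgLib.Leech

variable {G : Type*} [Group G] [Finite G] {z : G} {Q : Subgroup (Subgroup.centralizer ({z} : Set G))}
  [Q.Normal] {e : (Subgroup.centralizer ({z} : Set G)) ⧸ Q ≃* Spor.Co1}
  {ψ : leechLattice → Q ⧸ Subgroup.center Q} {c : Data} {T : Type*} [Group T] {b : CC z}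

theorem Loc.ncard_conj (X : Loc e ψ c T b) (L : Finset ℕ)
    (hL : ∀ x ∈ L, x < 2 ^ c.D.length ∧
      ∃ v : leechLattice, sqNorm (coordVec v) = 64 ∧ CongTwo v (combV c.B x))
    (hout : ∀ x < 2 ^ c.D.length, ∀ v : leechLattice, sqNorm (coordVec v) = 64 →
      CongTwo v (combV c.B x) → x ∈ L) :
    Set.ncard {q : Loc.qFix (Q := Q) b | IsConj z (qVal (q : Q))} = 2 * L.card + 1 := by
  classical
  have F := settingFacts X.hS
  obtain ⟨-, -, -, hd, -⟩ := Data.base_spec X.ok
  obtain ⟨zc, hzQ, hzc⟩ := F.mem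
  set zQ : Q := ⟨zc, hzQ⟩
  have hzv : qVal zQ = z := hzc
  have hzcen : zQ ∈ Subgroup.center Q := (F.mem_center_iff _).2 (Or.inr hzv)
  have hz1 : zQ ≠ 1 := fun h => F.ne_one (hzv.symm.trans (congrArg qVal h))
  let f : ℕ × Bool → Loc.qFix (Q := Q) b := fun xe =>
    ⟨liftVec ψ (combV c.B xe.1) * (if xe.2 then zQ else 1),
      Subgroup.mul_mem _ (X.liftVec_mem _) (by split_ifs; exacts [X.center_le_qFix hzcen, Subgroup.one_mem _])⟩
  have hf : ∀ xe, (QuotientGroup.mk (f xe : Q) : Q ⧸ Subgroup.center Q) = ψ (combV c.B xe.1) := fun xe => by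
    show QuotientGroup.mk (liftVec ψ (combV c.B xe.1) * _) = _
    rw [QuotientGroup.mk_mul, mk_liftVec, (QuotientGroup.eq_one_iff (if xe.2 then zQ else 1)).2
      (by split_ifs; exacts [hzcen, Subgroup.one_mem _]), mul_one]
  have hfx : ∀ xe, xe.1 ∈ L → IsConj z (qVal (f xe : Q)) ∧ qVal (f xe : Q) ≠ z := fun xe hx => by
    obtain ⟨-, v, hv, hvx⟩ := hL _ hx
    exact (conj_iff_class X.hS X.hψ _).2 ⟨v, hv, by rw [(psi_eq_iff X.hψ).2 hvx, hf]⟩
  have hinj : Set.InjOn f ↑(L ×ˢ (Finset.univ : Finset Bool)) := by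
    rintro ⟨x, ε⟩ hx ⟨y, δ⟩ hy h
    simp only [Finset.coe_product, Set.mem_prod, Finset.mem_coe] at hx hy
    have h1 := hf (x, ε)
    rw [h, hf] at h1
    obtain rfl := eq_of_congTwo_combV hd (hL _ hy.1).1 (hL _ hx.1).1 ((psi_eq_iff X.hψ).1 h1)
    have h2 := mul_left_cancel (congrArg Subtype.val h)
    cases ε <;> cases δ <;> simp_all
  have hset : {q : Loc.qFix (Q := Q) b | IsConj z (qVal (q : Q))} =
      insert (⟨zQ, X.center_le_qFix hzcen⟩ : Loc.qFix (Q := Q) b)
        ↑((L ×ˢ (Finset.univ : Finset Bool)).image f) := by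
    ext q
    simp only [Set.mem_ofPred_eq, Set.mem_insert_iff, Finset.coe_image, Set.mem_image, Finset.coe_product,
      Set.mem_prod, Finset.mem_coe, Finset.coe_univ, Set.mem_univ, and_true]
    constructor
    · intro hc
      by_cases hq : qVal (q : Q) = z
      · exact Or.inl (Subtype.ext (qVal_injective (hq.trans hzv.symm)))
      obtain ⟨v, hv, hvq⟩ := (conj_iff_class X.hS X.hψ _).1 ⟨hc, hq⟩
      obtain ⟨x, hx, hxq⟩ := X.exists_code q.2
      have hxL := hout x hx v hv ((psi_eq_iff X.hψ).1 (hvq.trans hxq.symm))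
      have h0 : (liftVec ψ (combV c.B x))⁻¹ * (q : Q) ∈ Subgroup.center Q := by
        rw [← QuotientGroup.eq, mk_liftVec, hxq]
      rcases (F.mem_center_iff _).1 h0 with h | h
      · refine Or.inr ⟨(x, false), hxL, Subtype.ext ?_⟩
        show liftVec ψ (combV c.B x) * 1 = (q : Q)
        rw [mul_one]
        exact inv_mul_eq_one.1 (qVal_injective (h.trans (show (1 : G) = qVal (1 : Q) from rfl)))
      · refine Or.inr ⟨(x, true), hxL, Subtype.ext ?_⟩
        show liftVec ψ (combV c.B x) * zQ = (q : Q)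
        rw [← inv_mul_eq_iff_eq_mul.1 (qVal_injective (h.trans hzv.symm))]
    · rintro (rfl | ⟨xe, hxe, rfl⟩)
      · show IsConj z (qVal zQ); rw [hzv]
      · exact (hfx xe hxe).1
  rw [hset, Set.ncard_insert_of_notMem, Set.ncard_coe_finset, Finset.card_image_of_injOn hinj,
    Finset.card_product, Finset.card_univ, Fintype.card_bool, mul_comm]
  intro hmem
  simp only [Finset.coe_image, Set.mem_image, Finset.coe_product, Set.mem_prod, Finset.mem_coe, Finset.coe_univ,
    Set.mem_univ, and_true] at hmem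
  obtain ⟨xe, hxe, he⟩ := hmem
  exact (hfx xe hxe).2 (by rw [he]; exact hzv)

namespace Seven

theorem count_checks : ((data.orb ++ data.rest).toFinset.card = 14) ∧
    (∀ x ∈ data.orb ++ data.rest, x < 2 ^ data.D.length) := by decide +kernel

theorem ncard_conj (X : Loc e ψ data T b) :
    Set.ncard {q : Loc.qFix (Q := Q) b | IsConj z (qVal (q : Q))} = 29 := by
  rw [X.ncard_conj (data.orb ++ data.rest).toFinset ?_ ?_, count_checks.1]
  · intro x hx
    rw [List.mem_toFinset] at hx
    refine ⟨count_checks.2 x hx, ?_⟩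
    rcases List.mem_append.1 hx with hx | hx
    · obtain ⟨i, hi, rfl⟩ := List.getElem_of_mem hx
      obtain ⟨g, -, hg⟩ := Data.exists_transversal ok i hi
      rw [List.getD_eq_getElem _ _ hi] at hg
      exact ⟨g • vecA, by rw [sqNorm_smul', sqNorm_vecA], hg⟩
    · have hi := inv_ok
      simp only [invOk, Bool.and_eq_true, List.all_eq_true, List.contains_iff_mem] at hi
      obtain ⟨i, hil, he⟩ := List.getElem_of_mem (hi.1.2 x hx)
      obtain ⟨g, -, hg⟩ := Data.exists_transversal ok i hil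
      rw [List.getD_eq_getElem _ _ hil, he] at hg
      refine ⟨(matFn invMat)⁻¹ • (g • vecA), by rw [sqNorm_smul', sqNorm_smul', sqNorm_vecA], ?_⟩
      have h1 := (hg.trans (inv_spec.2 x).symm).smul (matFn invMat)⁻¹
      rwa [inv_smul_smul] at h1
  · intro x hx v hv hvx
    rw [List.mem_toFinset, List.mem_append]
    obtain ⟨-, -, -, hd, -⟩ := Data.base_spec ok
    obtain ⟨hB, -, -, hcode⟩ := dualOk_spec hd
    have h := ok.orbit
    simp only [Data.orbOk, Bool.and_eq_true, List.all_eq_true, List.mem_range, Bool.or_eq_true,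
      decide_eq_true_eq, List.any_eq_true, beq_iff_eq, List.contains_iff_mem] at h
    obtain ⟨⟨-, hsm⟩, hall⟩ := h
    rcases hall x hx with h1 | ⟨w, hw, he⟩
    · exact h1
    exfalso
    obtain ⟨⟨hm, hn64⟩, hsc⟩ := hsm w hw
    have hl : w.length = 24 := by
      simp only [memTest, Bool.and_eq_true, decide_eq_true_eq] at hm
      exact hm.1
    obtain ⟨c1, c2⟩ := combL_spec hB (codeL data.D w)
    have h2 := congTwo_of_sameClass hl c1 (coordVec_vecOf hm).symm c2 hsc
    rw [he] at h2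
    have hV : sqNorm (coordVec (vecOf w)) < 64 := by
      rw [coordVec_vecOf hm, ← dotInt_self, dotInt_toVec hl hl]; exact hn64
    rcases congTwo_cases (hvx.trans h2.symm) hv.le hV.le with r | r | ⟨-, r, -⟩
    · rw [r] at hv; omega
    · rw [r] at hv
      have : sqNorm (coordVec (-vecOf w)) = sqNorm (coordVec (vecOf w)) :=
        Finset.sum_congr rfl fun p _ => neg_sq _
      omega
    · omega

end Seven

end CfsgLib.MonsterLocal
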