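import Cfsg.Agent.Lib.MonsterLocal.Cent

/-!
Dual lists checked on the basis only.
-/

set_option autoImplicit false

namespace CfsgLib.MonsterLocal

open Cfsg CfsgLib.Fischer2 CfsgLib.Leech

theorem maskOf_xor : ∀ (l : List (List ℤ)) (f g h : List ℤ → Bool), (∀ d ∈ l, h d = (f d ^^ g d)) →
    maskOf (l.map h) = maskOf (l.map f) ^^^ maskOf (l.map g)
  | [], _, _, _, _ => by simp [maskOf]
  | d :: l, f, g, h, hh => by
    simp only [List.map_cons, maskOf, hh d List.mem_cons_self,
      maskOf_xor l f g h fun e he => hh e (List.mem_cons_of_mem _ he)]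
    have key : ∀ (b : Bool) (n : ℕ), (bif b then 1 else 0) + 2 * n = Nat.bit b n := fun b n => by
      rw [Nat.bit_val]; cases b <;> simp <;> omega
    rw [key, key, key]
    exact (Nat.xor_bit _ _ _ _).symm

theorem codeV_add {D : List (List ℤ)} (hD : D.all memTest = true) (v w : leechLattice) :
    codeV D (v + w) = codeV D v ^^^ codeV D w := by
  simp only [codeV]
  refine maskOf_xor D _ _ _ fun d hd => ?_
  obtain ⟨a, ha⟩ := eight_dvd_dotInt v.2 (toVec_mem (List.all_eq_true.1 hD d hd))
  obtain ⟨b, hb⟩ := eight_dvd_dotInt w.2 (toVec_mem (List.all_eq_true.1 hD d hd))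
  have hadd : dotInt (coordVec (v + w)) (toVec d) =
      dotInt (coordVec v) (toVec d) + dotInt (coordVec w) (toVec d) := Cfsg.dotInt_add_left _ _ _
  change dotInt (coordVec v) (toVec d) = 8 * a at ha
  change dotInt (coordVec w) (toVec d) = 8 * b at hb
  rw [hadd, ha, hb, show (8 * a + 8 * b) / 8 = a + b by omega, show 8 * a / 8 = a by omega,
    show 8 * b / 8 = b by omega]
  rcases Int.emod_two_eq_zero_or_one a with r | r <;> rcases Int.emod_two_eq_zero_or_one b with s | s <;>
    simp [r, s, Int.add_emod]

theorem codeV_zero {D : List (List ℤ)} (hD : D.all memTest = true) : codeV D 0 = 0 := by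
  have h := codeV_add hD 0 0
  rw [add_zero, Nat.xor_self] at h
  exact h

theorem codeV_combV {D : List (List ℤ)} (hD : D.all memTest = true) :
    ∀ (B : List (List ℤ)), B.all memTest = true → ∀ c,
      codeV D (combV B c) = xorImg (B.map (codeL D)) c
  | [], _, c => codeV_zero hD
  | b :: bs, h, c => by
    simp only [List.all_cons, Bool.and_eq_true] at h
    simp only [combV, List.map_cons, xorImg, codeV_add hD, codeV_combV hD bs h.2]
    congr 1
    split_ifs
    · have hl : b.length = 24 := by
        have := h.1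
        simp only [memTest, Bool.and_eq_true, decide_eq_true_eq] at this
        exact this.1
      exact codeV_eq hD hl (coordVec_vecOf h.1).symm
    · exact codeV_zero hD

theorem dualOk_of_basis {B D : List (List ℤ)} (hB : B.all memTest = true) (hD : D.all memTest = true)
    (hl : B.length = D.length) (h : ∀ c < 2 ^ D.length, xorImg (B.map (codeL D)) c = c) :
    dualOk B D = true := by
  simp only [dualOk, Bool.and_eq_true, decide_eq_true_eq, List.all_eq_true, List.mem_range, beq_iff_eq]
  refine ⟨⟨⟨fun b hb => List.all_eq_true.1 hB b hb, fun d hd => List.all_eq_true.1 hD d hd⟩, hl⟩, fun c hc => ?_⟩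
  obtain ⟨h1, h2⟩ := combL_spec hB c
  rw [← codeV_eq hD h1 h2, codeV_combV hD B hB, h c hc]

end CfsgLib.MonsterLocal
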