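import Cfsg.Agent.Lib.MonsterLocal.Act
import Mathlib.GroupTheory.SpecificGroups.Alternating

/-!
Checked membership in the group generated by a list of permutations.
-/

set_option autoImplicit false

namespace CfsgLib.MonsterLocal

variable {n : ℕ}

/-- Each entry is a generator times an earlier entry. -/
def progOk (perms : List (Equiv.Perm (Fin n))) (prog : List (ℕ × ℕ × List ℕ)) : Bool :=
  (List.range prog.length).all fun k =>
    if k = 0 then (List.finRange n).all fun i => (prog.getD k (0, 0, [])).2.2.getD i n == (i : ℕ)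
    else
      let e := prog.getD k (0, 0, [])
      decide (e.2.1 < k) && decide (e.1 < perms.length) &&
        (List.finRange n).all fun x => (List.finRange n).all fun y =>
          (prog.getD e.2.1 (0, 0, [])).2.2.getD x n != (y : ℕ) ||
            e.2.2.getD x n == (perms.getD e.1 1 y : ℕ)

/-- The permutation occurs among the entries. -/
def inProg (prog : List (ℕ × ℕ × List ℕ)) (ρ : Equiv.Perm (Fin n)) : Bool :=
  prog.any fun e => (List.finRange n).all fun i => e.2.2.getD i n == (ρ i : ℕ)

theorem exists_of_progOk {perms : List (Equiv.Perm (Fin n))} {prog : List (ℕ × ℕ × List ℕ)}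
    (h : progOk perms prog = true) : ∀ k < prog.length,
      ∃ ρ ∈ Subgroup.closure {ρ | ρ ∈ perms}, ∀ i : Fin n, (prog.getD k (0, 0, [])).2.2.getD i n = (ρ i : ℕ) := by
  simp only [progOk, List.all_eq_true, List.mem_range, List.mem_finRange, forall_const] at h
  intro k
  induction k using Nat.strong_induction_on with
  | h k ih =>
    intro hk
    have hk' := h k hk
    by_cases hk0 : k = 0
    · subst hk0
      rw [if_pos rfl] at hk'
      simp only [List.all_eq_true, List.mem_finRange, forall_const, beq_iff_eq] at hk'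
      exact ⟨1, Subgroup.one_mem _, hk'⟩
    · rw [if_neg hk0] at hk'
      simp only [Bool.and_eq_true, decide_eq_true_eq, List.all_eq_true, List.mem_finRange, forall_const,
        Bool.or_eq_true, bne_iff_ne, beq_iff_eq] at hk'
      obtain ⟨⟨h1, h2⟩, h3⟩ := hk'
      obtain ⟨ρ, hρ, hρe⟩ := ih _ h1 (by omega)
      refine ⟨perms[(prog.getD k (0, 0, [])).1] * ρ,
        Subgroup.mul_mem _ (Subgroup.subset_closure (List.getElem_mem h2)) hρ, fun i => ?_⟩
      rcases h3 i (ρ i) with hne | he
      · exact absurd (hρe i) hne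
      · rw [he, Equiv.Perm.mul_apply, List.getD_eq_getElem _ _ h2]

theorem mem_closure_of_inProg {perms : List (Equiv.Perm (Fin n))} {prog : List (ℕ × ℕ × List ℕ)}
    (h : progOk perms prog = true) {ρ : Equiv.Perm (Fin n)} (hρ : inProg prog ρ = true) :
    ρ ∈ Subgroup.closure {ρ | ρ ∈ perms} := by
  simp only [inProg, List.any_eq_true, List.all_eq_true, List.mem_finRange, forall_const, beq_iff_eq] at hρ
  obtain ⟨e, he, hee⟩ := hρ
  obtain ⟨k, hk, rfl⟩ := List.getElem_of_mem he
  obtain ⟨κ, hκ, hκe⟩ := exists_of_progOk h k hk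
  rw [List.getD_eq_getElem _ _ hk] at hκe
  rwa [show ρ = κ from Equiv.ext fun i => Fin.ext ((hee i).symm.trans (hκe i))]

theorem length_le_card_closure {perms : List (Equiv.Perm (Fin n))} {prog : List (ℕ × ℕ × List ℕ)}
    (h : progOk perms prog = true) (hnd : (prog.map fun e => (List.range n).map fun i => e.2.2.getD i n).Nodup) :
    prog.length ≤ Nat.card (Subgroup.closure {ρ | ρ ∈ perms}) := by
  choose f hf hfe using exists_of_progOk h
  rw [← Nat.card_fin prog.length]
  refine Nat.card_le_card_of_injective (fun k : Fin prog.length => ⟨f k k.2, hf k k.2⟩) fun a b e => ?_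
  have e' : f a a.2 = f b b.2 := congrArg Subtype.val e
  have hl : (List.range n).map (fun i => (prog.getD a (0, 0, [])).2.2.getD i n) =
      (List.range n).map fun i => (prog.getD b (0, 0, [])).2.2.getD i n :=
    List.map_congr_left fun i hi => by
      have hi' := List.mem_range.1 hi
      rw [show i = ((⟨i, hi'⟩ : Fin n) : ℕ) from rfl, hfe a a.2 ⟨i, hi'⟩, hfe b b.2 ⟨i, hi'⟩, e']
  rw [List.getD_eq_getElem _ _ a.2, List.getD_eq_getElem _ _ b.2] at hl
  exact Fin.ext ((List.Nodup.getElem_inj_iff hnd (hi := by simp) (hj := by simp)).1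
    (by rw [List.getElem_map, List.getElem_map, hl]))

/-- A three-cycle is a product of two transpositions with a common point. -/
theorem three_cycle_eq {α : Type*} [Fintype α] [DecidableEq α] {σ : Equiv.Perm α} (h : σ.IsThreeCycle) :
    ∃ a b c, a ≠ b ∧ b ≠ c ∧ a ≠ c ∧ σ = Equiv.swap a b * Equiv.swap b c := by
  obtain ⟨a, ha⟩ := h.isCycle.nonempty_support
  have h1 : σ a ≠ a := Equiv.Perm.mem_support.1 ha
  have h3 : σ (σ (σ a)) = a := by
    have := pow_orderOf_eq_one σ
    rw [h.orderOf] at this
    simpa [pow_succ, Equiv.Perm.mul_apply] using congrArg (· a) this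
  have hb : σ a ∈ σ.support := Equiv.Perm.apply_mem_support.2 ha
  have hc : σ (σ a) ∈ σ.support := Equiv.Perm.apply_mem_support.2 hb
  have hac : σ (σ a) ≠ a := fun e => h1 (by rw [e] at h3; exact h3)
  have hbc : σ a ≠ σ (σ a) := fun e => h1 (σ.injective e.symm)
  refine ⟨a, σ a, σ (σ a), Ne.symm h1, hbc, Ne.symm hac, Equiv.ext fun y => ?_⟩
  rw [Equiv.Perm.mul_apply]
  have hsup : σ.support = {a, σ a, σ (σ a)} := by
    refine (Finset.eq_of_subset_of_card_le ?_ ?_).symm
    · intro x hx
      simp only [Finset.mem_insert, Finset.mem_singleton] at hx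
      rcases hx with rfl | rfl | rfl <;> assumption
    · rw [h.card_support, Finset.card_eq_three.2 ⟨a, σ a, σ (σ a), Ne.symm h1, Ne.symm hac, hbc, rfl⟩]
  by_cases hy : y ∈ σ.support
  · rw [hsup] at hy
    simp only [Finset.mem_insert, Finset.mem_singleton] at hy
    rcases hy with rfl | rfl | rfl
    · rw [Equiv.swap_apply_of_ne_of_ne (Ne.symm h1) (Ne.symm hac), Equiv.swap_apply_left]
    · rw [Equiv.swap_apply_left, Equiv.swap_apply_of_ne_of_ne hac (Ne.symm hbc)]
    · rw [Equiv.swap_apply_right, Equiv.swap_apply_right, h3]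
  · have n1 : y ≠ a := fun e => hy (e ▸ ha)
    have n2 : y ≠ σ a := fun e => hy (e ▸ hb)
    have n3 : y ≠ σ (σ a) := fun e => hy (e ▸ hc)
    rw [Equiv.swap_apply_of_ne_of_ne n2 n3, Equiv.swap_apply_of_ne_of_ne n1 n2,
      Equiv.Perm.notMem_support.1 hy]

end CfsgLib.MonsterLocal
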