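import Cfsg.Agent.Lib.MonsterLocal.OkFive
import Cfsg.Agent.Lib.MonsterLocal.Gen
import Cfsg.Prelude.Def_MonsterType

/-!
The centraliser of an element of order 5: `5 × (A₅ wr 2)` modulo the centre.
-/

set_option autoImplicit false
set_option maxRecDepth 20000
set_option maxHeartbeats 2000000

namespace CfsgLib.MonsterLocal.Five

open Cfsg

/-- The ten points. -/
def toTen : Equiv.Perm (Fin 5 ⊕ Fin 5) ≃* Equiv.Perm (Fin 10) :=
  (finSumFinEquiv : Fin 5 ⊕ Fin 5 ≃ Fin 10).permCongrHom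

/-- The generators as elements of the wreath product. -/
def wit : List (Equiv.Perm (Fin 5) × Equiv.Perm (Fin 5) × Bool) :=
  [(⟨![0, 2, 4, 3, 1], ![0, 4, 1, 3, 2], by decide, by decide⟩, ⟨![0, 2, 4, 3, 1], ![0, 4, 1, 3, 2], by decide, by decide⟩, false),
    (⟨![0, 3, 4, 1, 2], ![0, 3, 4, 1, 2], by decide, by decide⟩, ⟨![0, 2, 1, 4, 3], ![0, 2, 1, 4, 3], by decide, by decide⟩, false),
    (⟨![0, 1, 2, 3, 4], ![0, 1, 2, 3, 4], by decide, by decide⟩, ⟨![0, 1, 2, 3, 4], ![0, 1, 2, 3, 4], by decide, by decide⟩, true),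
    (⟨![0, 3, 4, 1, 2], ![0, 3, 4, 1, 2], by decide, by decide⟩, ⟨![0, 3, 4, 1, 2], ![0, 3, 4, 1, 2], by decide, by decide⟩, false),
    (⟨![0, 4, 3, 2, 1], ![0, 4, 3, 2, 1], by decide, by decide⟩, ⟨![0, 4, 3, 2, 1], ![0, 4, 3, 2, 1], by decide, by decide⟩, true),
    (⟨![0, 2, 1, 4, 3], ![0, 2, 1, 4, 3], by decide, by decide⟩, ⟨![0, 2, 1, 4, 3], ![0, 2, 1, 4, 3], by decide, by decide⟩, false),
    (⟨![0, 3, 4, 1, 2], ![0, 3, 4, 1, 2], by decide, by decide⟩, ⟨![0, 4, 2, 1, 3], ![0, 3, 2, 4, 1], by decide, by decide⟩, true),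
    (⟨![1, 0, 3, 2, 4], ![1, 0, 3, 2, 4], by decide, by decide⟩, ⟨![2, 1, 0, 4, 3], ![2, 1, 0, 4, 3], by decide, by decide⟩, false)]

theorem wit_ok : ∀ m < act.perms.length,
    Equiv.Perm.sign (wit.getD m (1, 1, false)).1 = 1 ∧ Equiv.Perm.sign (wit.getD m (1, 1, false)).2.1 = 1 ∧
    act.perms.getD m 1 = toTen (Equiv.sumCongr (wit.getD m (1, 1, false)).1 (wit.getD m (1, 1, false)).2.1 *
      if (wit.getD m (1, 1, false)).2.2 then Equiv.sumComm (Fin 5) (Fin 5) else 1) := by decide +kernel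

theorem prog_ok : progOk act.perms prog = true := by decide +kernel

theorem left_mem : ∀ a b c : Fin 5, a ≠ b → b ≠ c → a ≠ c →
    inProg prog (toTen (Equiv.sumCongr (Equiv.swap a b * Equiv.swap b c) 1)) = true := by decide +kernel

theorem right_mem : ∀ a b c : Fin 5, a ≠ b → b ≠ c → a ≠ c →
    inProg prog (toTen (Equiv.sumCongr 1 (Equiv.swap a b * Equiv.swap b c))) = true := by decide +kernel

theorem swap_mem : inProg prog (toTen (Equiv.sumComm (Fin 5) (Fin 5))) = true := by decide +kernel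

/-- The map into permutations of the ten points. -/
def emb : alternatingFiveWreathTwo →* Equiv.Perm (Fin 10) :=
  toTen.toMonoidHom.comp alternatingFiveWreathTwo.subtype

theorem emb_injective : Function.Injective emb := toTen.injective.comp Subtype.val_injective

theorem alt_mem (φ : Equiv.Perm (Fin 5) →* Equiv.Perm (Fin 10))
    (h : ∀ a b c : Fin 5, a ≠ b → b ≠ c → a ≠ c → inProg prog (φ (Equiv.swap a b * Equiv.swap b c)) = true)
    {σ : Equiv.Perm (Fin 5)} (hσ : σ ∈ alternatingGroup (Fin 5)) :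
    φ σ ∈ Subgroup.closure {ρ | ρ ∈ act.perms} := by
  rw [← Equiv.Perm.closure_three_cycles_eq_alternating] at hσ
  suffices Subgroup.closure {σ : Equiv.Perm (Fin 5) | σ.IsThreeCycle} ≤
      (Subgroup.closure {ρ | ρ ∈ act.perms}).comap φ from this hσ
  rw [Subgroup.closure_le]
  intro σ hσ
  obtain ⟨a, b, c, hab, hbc, hac, rfl⟩ := three_cycle_eq hσ
  exact mem_closure_of_inProg prog_ok (h a b c hab hbc hac)

theorem gen_eq : Subgroup.closure {ρ | ρ ∈ act.perms} = emb.range := by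
  refine le_antisymm ((Subgroup.closure_le _).2 fun ρ hρ => ?_) ?_
  · obtain ⟨m, hm, rfl⟩ := List.getElem_of_mem hρ
    obtain ⟨h1, h2, h3⟩ := wit_ok m hm
    rw [List.getD_eq_getElem _ _ hm] at h3
    refine ⟨⟨_, ?_⟩, h3.symm⟩
    rw [alternatingFiveWreathTwo]
    refine Subgroup.mul_mem _ (Subgroup.subset_closure (Or.inl ⟨⟨_, Equiv.Perm.mem_alternatingGroup.2 h1⟩,
      ⟨_, Equiv.Perm.mem_alternatingGroup.2 h2⟩, rfl⟩)) ?_
    split_ifs
    · exact Subgroup.subset_closure (Or.inr rfl)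
    · exact Subgroup.one_mem _
  · rintro _ ⟨⟨w, hw⟩, rfl⟩
    show toTen w ∈ _
    suffices alternatingFiveWreathTwo ≤ (Subgroup.closure {ρ | ρ ∈ act.perms}).comap toTen.toMonoidHom from
      this hw
    rw [alternatingFiveWreathTwo, Subgroup.closure_le]
    rintro g (⟨σ, τ, rfl⟩ | rfl)
    · have e : Equiv.Perm.sumCongr (σ : Equiv.Perm (Fin 5)) (τ : Equiv.Perm (Fin 5)) =
          Equiv.sumCongr (σ : Equiv.Perm (Fin 5)) 1 * Equiv.sumCongr 1 (τ : Equiv.Perm (Fin 5)) := by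
        ext (x | x) <;> rfl
      rw [SetLike.mem_coe, Subgroup.mem_comap, e, map_mul]
      exact Subgroup.mul_mem _
        (alt_mem ((toTen.toMonoidHom.comp (Equiv.Perm.sumCongrHom _ _)).comp (MonoidHom.inl _ _)) left_mem σ.2)
        (alt_mem ((toTen.toMonoidHom.comp (Equiv.Perm.sumCongrHom _ _)).comp (MonoidHom.inr _ _)) right_mem τ.2)
    · exact mem_closure_of_inProg prog_ok swap_mem

theorem natCard_ge : 7200 ≤ Nat.card alternatingFiveWreathTwo := by
  have hA : Nat.card (alternatingGroup (Fin 5)) = 60 := by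
    rw [nat_card_alternatingGroup, Nat.card_fin]; rfl
  let f : (alternatingGroup (Fin 5) × alternatingGroup (Fin 5)) × Bool → alternatingFiveWreathTwo := fun x =>
    ⟨Equiv.sumCongr (x.1.1 : Equiv.Perm (Fin 5)) (x.1.2 : Equiv.Perm (Fin 5)) *
      (if x.2 then Equiv.sumComm (Fin 5) (Fin 5) else 1), Subgroup.mul_mem _
        (Subgroup.subset_closure (Or.inl ⟨x.1.1, x.1.2, rfl⟩)) (by
          split_ifs
          · exact Subgroup.subset_closure (Or.inr rfl)
          · exact Subgroup.one_mem _)⟩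
  have hf : Function.Injective f := by
    rintro ⟨⟨a, b⟩, s⟩ ⟨⟨a', b'⟩, s'⟩ h
    have e := congrArg Subtype.val h
    have hl : ∀ i, (Equiv.sumCongr (a : Equiv.Perm (Fin 5)) (b : Equiv.Perm (Fin 5)) *
        (if s then Equiv.sumComm (Fin 5) (Fin 5) else 1)) i = (Equiv.sumCongr (a' : Equiv.Perm (Fin 5))
        (b' : Equiv.Perm (Fin 5)) * (if s' then Equiv.sumComm (Fin 5) (Fin 5) else 1)) i := fun i =>
      congrArg (fun p : Equiv.Perm (Fin 5 ⊕ Fin 5) => p i) e
    cases s <;> cases s'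
    · have ha : a = a' := Subtype.ext (Equiv.ext fun i => by simpa using hl (Sum.inl i))
      have hb : b = b' := Subtype.ext (Equiv.ext fun i => by simpa using hl (Sum.inr i))
      rw [ha, hb]
    · exact absurd (hl (Sum.inl 0)) (by simp)
    · exact absurd (hl (Sum.inl 0)) (by simp)
    · have ha : a = a' := Subtype.ext (Equiv.ext fun i => by simpa using hl (Sum.inr i))
      have hb : b = b' := Subtype.ext (Equiv.ext fun i => by simpa using hl (Sum.inl i))
      rw [ha, hb]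
  have := Nat.card_le_card_of_injective f hf
  rw [Nat.card_prod, Nat.card_prod, hA, Nat.card_eq_fintype_card (α := Bool), Fintype.card_bool] at this
  exact this

theorem cent : CentHom data alternatingFiveWreathTwo :=
  centHom ok (fun _ _ x hx => absurd hx (show x ∉ ([] : List ℕ) from List.not_mem_nil)) (by decide) pow_ok
    not_id act act_ok emb emb_injective gen_eq
    (le_trans (show _ ≤ 2 * 5 * 7200 by decide +kernel) (Nat.mul_le_mul le_rfl natCard_ge))

/-- The embedding of the base group. -/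
def base : alternatingGroup (Fin 5) × alternatingGroup (Fin 5) →* Equiv.Perm (Fin 5 ⊕ Fin 5) :=
  (Equiv.Perm.sumCongrHom _ _).comp ((alternatingGroup (Fin 5)).subtype.prodMap (alternatingGroup (Fin 5)).subtype)

theorem base_injective : Function.Injective base := by
  rintro ⟨a, b⟩ ⟨a', b'⟩ h
  obtain ⟨h1, h2⟩ := Prod.ext_iff.1 (Equiv.Perm.sumCongrHom_injective h)
  exact Prod.ext (Subtype.ext h1) (Subtype.ext h2)

theorem cases_wreath {w : Equiv.Perm (Fin 5 ⊕ Fin 5)} (hw : w ∈ alternatingFiveWreathTwo) :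
    ∃ x, w = base x ∨ w = base x * Equiv.sumComm (Fin 5) (Fin 5) := by
  have hs : ∀ x, Equiv.sumComm (Fin 5) (Fin 5) * base x = base (x.2, x.1) * Equiv.sumComm (Fin 5) (Fin 5) :=
    fun x => by ext (i | i) <;> rfl
  have hs2 : (Equiv.sumComm (Fin 5) (Fin 5) : Equiv.Perm (Fin 5 ⊕ Fin 5)) * Equiv.sumComm (Fin 5) (Fin 5) = 1 := by
    ext (i | i) <;> rfl
  induction hw using Subgroup.closure_induction with
  | mem g hg =>
    rcases hg with ⟨σ, τ, rfl⟩ | rfl
    · exact ⟨(σ, τ), Or.inl rfl⟩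
    · exact ⟨1, Or.inr (by rw [map_one, one_mul])⟩
  | one => exact ⟨1, Or.inl (map_one _).symm⟩
  | mul a b _ _ ha hb =>
    obtain ⟨x, rfl | rfl⟩ := ha <;> obtain ⟨y, rfl | rfl⟩ := hb
    · exact ⟨x * y, Or.inl (map_mul _ _ _).symm⟩
    · exact ⟨x * y, Or.inr (by rw [map_mul, mul_assoc])⟩
    · exact ⟨x * (y.2, y.1), Or.inr (by rw [mul_assoc, hs, map_mul, mul_assoc])⟩
    · exact ⟨x * (y.2, y.1), Or.inl (by rw [mul_assoc, ← mul_assoc (Equiv.sumComm _ _), hs, mul_assoc, hs2,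
        mul_one, map_mul])⟩
  | inv a _ ha =>
    obtain ⟨x, rfl | rfl⟩ := ha
    · exact ⟨x⁻¹, Or.inl (map_inv _ _).symm⟩
    · refine ⟨((x⁻¹).2, (x⁻¹).1), Or.inr ?_⟩
      rw [mul_inv_rev, ← map_inv, inv_eq_of_mul_eq_one_right hs2, hs]

theorem isSimpleGroup_alt : IsSimpleGroup (alternatingGroup (Fin 5)) :=
  alternatingGroup.isSimpleGroup (by simp)

theorem no_normal_two_base (M : Subgroup (alternatingGroup (Fin 5) × alternatingGroup (Fin 5))) [M.Normal]
    (hM : IsPGroup 2 M) : M = ⊥ := by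
  have hA := isSimpleGroup_alt
  have h5 : ¬ IsPGroup 2 (⊤ : Subgroup (alternatingGroup (Fin 5))) := fun h => by
    obtain ⟨k, hk⟩ := IsPGroup.iff_card.1 h
    rw [Subgroup.card_top, nat_card_alternatingGroup, Nat.card_fin] at hk
    have hd : 3 ∣ 2 ^ k := hk ▸ (by decide)
    exact absurd (Nat.prime_three.dvd_of_dvd_pow hd) (by norm_num)
  have key : ∀ φ : alternatingGroup (Fin 5) × alternatingGroup (Fin 5) →* alternatingGroup (Fin 5),
      Function.Surjective φ → ∀ x ∈ M, φ x = 1 := fun φ hφ x hx => by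
    have := Subgroup.Normal.map (inferInstance : M.Normal) φ hφ
    rcases (Subgroup.Normal.eq_bot_or_eq_top (H := M.map φ) inferInstance) with h | h
    · exact Subgroup.mem_bot.1 (h ▸ Subgroup.mem_map_of_mem φ hx)
    · exact absurd (h ▸ hM.map φ) h5
  refine (Subgroup.eq_bot_iff_forall _).2 fun x hx => Prod.ext ?_ ?_
  · exact key (MonoidHom.fst _ _) (fun a => ⟨(a, 1), rfl⟩) x hx
  · exact key (MonoidHom.snd _ _) (fun a => ⟨(1, a), rfl⟩) x hx

theorem no_normal_two (N : Subgroup alternatingFiveWreathTwo) [N.Normal] (hN : IsPGroup 2 N) : N = ⊥ := by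
  have hbase : ∀ x, base x ∈ alternatingFiveWreathTwo := fun x =>
    Subgroup.subset_closure (Or.inl ⟨x.1, x.2, rfl⟩)
  let β : alternatingGroup (Fin 5) × alternatingGroup (Fin 5) →* alternatingFiveWreathTwo :=
    base.codRestrict _ hbase
  have hβ : Function.Injective β := fun a b h => base_injective (congrArg Subtype.val h)
  have hMbot : N.comap β = ⊥ := by
    have := (inferInstance : N.Normal).comap β
    exact no_normal_two_base _ (hN.comap_of_injective β hβ)
  have hnobase : ∀ x, β x ∈ N → x = 1 := fun x hx => Subgroup.mem_bot.1 (hMbot ▸ hx)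
  refine (Subgroup.eq_bot_iff_forall _).2 ?_
  rintro ⟨n, hnw⟩ hn
  obtain ⟨x, rfl | rfl⟩ := cases_wreath hnw
  · rw [show (⟨base x, hnw⟩ : alternatingFiveWreathTwo) = β x from rfl] at hn ⊢
    rw [hnobase x hn, map_one]
  · exfalso
    obtain ⟨a, ha⟩ := exists_ne (1 : alternatingGroup (Fin 5))
    set y : alternatingGroup (Fin 5) × alternatingGroup (Fin 5) := (a, 1) with hy
    set m : alternatingFiveWreathTwo := ⟨base x * Equiv.sumComm (Fin 5) (Fin 5), hnw⟩ with hm
    have h1 : m * (β y * m⁻¹ * (β y)⁻¹) ∈ N :=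
      N.mul_mem hn ((inferInstance : N.Normal).conj_mem _ (N.inv_mem hn) _)
    have h2 : m * (β y * m⁻¹ * (β y)⁻¹) = β (x * (y.2, y.1) * x⁻¹ * y⁻¹) := by
      refine Subtype.ext ?_
      show base x * Equiv.sumComm (Fin 5) (Fin 5) *
        (base y * (base x * Equiv.sumComm (Fin 5) (Fin 5))⁻¹ * (base y)⁻¹) = base (x * (y.2, y.1) * x⁻¹ * y⁻¹)
      have hs : (Equiv.sumComm (Fin 5) (Fin 5) : Equiv.Perm (Fin 5 ⊕ Fin 5)) * base y =
          base (y.2, y.1) * Equiv.sumComm (Fin 5) (Fin 5) := by ext (i | i) <;> rfl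
      simp only [map_mul, map_inv, mul_inv_rev, mul_assoc]
      rw [← mul_assoc (Equiv.sumComm (Fin 5) (Fin 5) : Equiv.Perm (Fin 5 ⊕ Fin 5)) (base y), hs]
      simp only [mul_assoc, mul_inv_cancel_left]
    rw [h2] at h1
    have h3 := congrArg Prod.fst (hnobase _ h1)
    simp [hy] at h3
    exact ha h3

end CfsgLib.MonsterLocal.Five
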