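import Cfsg.Agent.Lib.MonsterLocal.Quot
import Cfsg.Agent.Lib.Fischer2.MonsterTransport

/-!
Normal forms for subgroups of odd prime order of the centraliser of two conjugates of `z` in `Q`,
and conjugacy in `C(B)` of the conjugates of `z` in `C_Q(B)`.
-/

set_option autoImplicit false

namespace CfsgLib.MonsterLocal

open Cfsg CfsgLib.Fischer2 CfsgLib.Leech
open CfsgLib.Golay (IsTbl)

/-- Two elements of order `p` with the same image, under a homomorphism whose kernel has order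
prime to `p`, are conjugate. -/
theorem conj_of_map_eq {S H : Type*} [Group S] [Finite S] [Group H] (f : S →* H) {p : ℕ} (hp : p.Prime)
    (hker : (Nat.card f.ker).Coprime p) {x y : S} (hx : orderOf x = p) (hy : orderOf y = p)
    (hxy : f x = f y) : ∃ m : S, m * y * m⁻¹ = x := by
  have := Fact.mk hp
  set W := (Subgroup.zpowers (f x)).comap f with hWdef
  have hxW : x ∈ W := Subgroup.mem_zpowers _
  have hyW : y ∈ W := by rw [hWdef, Subgroup.mem_comap, hxy]; exact Subgroup.mem_zpowers _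
  have hfx : orderOf (f x) = p := by
    refine orderOf_eq_prime (by rw [← map_pow, ← hx, pow_orderOf_eq_one, map_one]) fun h1 => ?_
    have hd : orderOf x ∣ Nat.card f.ker :=
      Subgroup.orderOf_mk x (MonoidHom.mem_ker.2 h1) ▸ orderOf_dvd_natCard _
    rw [hx] at hd
    exact hp.ne_one (Nat.Coprime.eq_one_of_dvd hker.symm hd)
  set φ := f.comp W.subtype with hφ
  have hran : φ.range = Subgroup.zpowers (f x) := by
    rw [hφ, MonoidHom.range_comp, Subgroup.range_subtype, hWdef, Subgroup.map_comap_eq, inf_of_le_right]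
    exact Subgroup.zpowers_le.2 ⟨x, rfl⟩
  have hWcard : Nat.card W = Nat.card f.ker * p := by
    have h1 := Subgroup.card_mul_index φ.ker
    rw [Subgroup.index_ker, hran, Nat.card_zpowers, hfx] at h1
    rw [← h1]
    congr 1
    refine Nat.card_eq_of_bijective (fun a => ⟨((a : W) : S), MonoidHom.mem_ker.2 (MonoidHom.mem_ker.1 a.2 :)⟩)
      ⟨fun a a' h => Subtype.ext (Subtype.ext (congrArg Subtype.val h :)), ?_⟩
    rintro ⟨a, ha⟩
    exact ⟨⟨⟨a, by rw [hWdef, Subgroup.mem_comap, MonoidHom.mem_ker.1 ha]; exact Subgroup.one_mem _⟩,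
      MonoidHom.mem_ker.2 (MonoidHom.mem_ker.1 ha :)⟩, rfl⟩
  have hfac : (Nat.card W).factorization p = 1 := by
    rw [hWcard, Nat.factorization_mul Nat.card_pos.ne' hp.ne_zero, Finsupp.add_apply,
      Nat.Prime.factorization_self hp, Nat.factorization_eq_zero_of_not_dvd fun h =>
        hp.ne_one (Nat.Coprime.eq_one_of_dvd hker.symm h)]
  let P : Sylow p W := Sylow.ofCard (Subgroup.zpowers ⟨x, hxW⟩)
    (by rw [hfac, pow_one, Nat.card_zpowers, Subgroup.orderOf_mk, hx])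
  let P' : Sylow p W := Sylow.ofCard (Subgroup.zpowers ⟨y, hyW⟩)
    (by rw [hfac, pow_one, Nat.card_zpowers, Subgroup.orderOf_mk, hy])
  obtain ⟨⟨m, hmW⟩, hm⟩ := MulAction.exists_smul_eq W P' P
  have hmy : (⟨m, hmW⟩ * ⟨y, hyW⟩ * (⟨m, hmW⟩ : W)⁻¹) ∈ Subgroup.zpowers (⟨x, hxW⟩ : W) := by
    have h1 : ((⟨m, hmW⟩ : W) • P' : Sylow p W).toSubgroup = Subgroup.zpowers (⟨x, hxW⟩ : W) := by
      rw [hm]; rfl
    rw [← h1, Sylow.coe_subgroup_smul]
    exact Subgroup.smul_mem_pointwise_smul _ (MulAut.conj (⟨m, hmW⟩ : W)) _ (Subgroup.mem_zpowers _)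
  obtain ⟨k, hk⟩ := hmy
  have hk' : x ^ k = m * y * m⁻¹ := by
    simpa only [Subgroup.coe_zpow, Subgroup.coe_mul, InvMemClass.coe_inv] using congrArg Subtype.val hk
  obtain ⟨j, hj⟩ := Subgroup.mem_zpowers_iff.1 (Subgroup.mem_comap.1 hmW)
  have h1 : f x ^ k = f x ^ (1 : ℤ) := by
    rw [zpow_one, ← map_zpow, hk', map_mul, map_mul, map_inv, ← hxy, ← hj]; group
  have h2 : x ^ k = x ^ (1 : ℤ) := by
    rw [zpow_eq_zpow_iff_modEq, hx, ← hfx, ← zpow_eq_zpow_iff_modEq]; exact h1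
  exact ⟨m, by rw [← hk', h2, zpow_one]⟩

/-- The code word moved by a permutation. -/
def moved (ρ : M24) (d : golayCode) : golayCode :=
  ⟨fun i => (d : GolayPt → ZMod 2) ((ρ : Equiv.Perm GolayPt).symm i), comp_mem_golayCode (M24.inv_mem ρ.2) d.2⟩

theorem moved_add (ρ : M24) (a b : golayCode) : moved ρ (a + b) = moved ρ a + moved ρ b := rfl

theorem code_add_self (a : golayCode) : a + a = 0 :=
  Subtype.ext (funext fun i => CharTwo.add_self_eq_zero ((a : GolayPt → ZMod 2) i))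

theorem perm_mul_sign (ρ : M24) (d : golayCode) : permAut ρ * signAut d = signAut (moved ρ d) * permAut ρ :=
  permAut_mul_signAut ρ d

/-- The code word of the `n`-th power of `signAut d * permAut ρ`. -/
def powWord (ρ : M24) (d : golayCode) : ℕ → golayCode
  | 0 => 0
  | n + 1 => d + moved ρ (powWord ρ d n)

/-- The sum of the first `n` of these. -/
def sumWord (ρ : M24) (d : golayCode) : ℕ → golayCode
  | 0 => 0
  | n + 1 => sumWord ρ d n + powWord ρ d n

theorem pow_monomial (ρ : M24) (d : golayCode) : ∀ n,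
    (signAut d * permAut ρ) ^ n = signAut (powWord ρ d n) * permAut (ρ ^ n)
  | 0 => by rw [pow_zero, pow_zero, powWord, signAut_zero, ← permHom_apply, map_one, one_mul]
  | n + 1 => by
    have e : (signAut d * permAut ρ) * (signAut (powWord ρ d n) * permAut (ρ ^ n)) =
        signAut (d + moved ρ (powWord ρ d n)) * permAut (ρ * ρ ^ n) := by
      rw [← signAut_mul, show permAut (ρ * ρ ^ n) = permAut ρ * permAut (ρ ^ n) from map_mul permHom _ _,
        mul_assoc, ← mul_assoc (permAut ρ), perm_mul_sign]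
      simp only [mul_assoc]
    rw [pow_succ', pow_monomial ρ d n, e, ← pow_succ']
    rfl

/-- An element of odd order of the monomial group is conjugate to its permutation. -/
theorem exists_unsign {ρ : M24} {d : golayCode} {p : ℕ} (hp : p % 2 = 1)
    (h : (signAut d * permAut ρ) ^ p = 1) :
    ρ ^ p = 1 ∧ ∃ a : golayCode, signAut a * (signAut d * permAut ρ) * (signAut a)⁻¹ = permAut ρ := by
  rw [pow_monomial] at h
  have h' : signAut (powWord ρ d p) * permAut (ρ ^ p) = signAut 0 * permAut 1 := by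
    rw [h, signAut_zero, one_mul, ← permHom_apply, map_one]
  obtain ⟨hD, hρ⟩ := monomial_unique h'
  refine ⟨hρ, sumWord ρ d p, ?_⟩
  have key : ∀ n, n • d + moved ρ (sumWord ρ d n) = sumWord ρ d n + powWord ρ d n := by
    intro n
    induction n with
    | zero => rw [zero_smul, zero_add]; rfl
    | succ n ih =>
      simp only [sumWord, powWord, moved_add, succ_nsmul]
      rw [← ih]; abel
  have h1 := key p
  rw [hD, add_zero] at h1
  have hpd : p • d = d := by
    obtain ⟨j, rfl⟩ : ∃ j, p = 2 * j + 1 := ⟨p / 2, by omega⟩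
    rw [add_smul, mul_comm, mul_smul, two_smul, code_add_self, smul_zero, zero_add, one_smul]
  rw [hpd] at h1
  set a := sumWord ρ d p
  have hinv : (signAut a)⁻¹ = signAut a :=
    inv_eq_of_mul_eq_one_right (by rw [signAut_mul, code_add_self, signAut_zero])
  rw [hinv, mul_assoc, mul_assoc, perm_mul_sign, ← mul_assoc, ← mul_assoc, signAut_mul, signAut_mul]
  rw [show a + d + moved ρ a = 0 by rw [add_assoc, h1, code_add_self], signAut_zero, one_mul]

variable {G : Type*} [Group G] [Finite G] {z : G} {Q : Subgroup (Subgroup.centralizer ({z} : Set G))}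
  [Q.Normal] {e : (Subgroup.centralizer ({z} : Set G)) ⧸ Q ≃* Spor.Co1}
  {ψ : leechLattice → Q ⧸ Subgroup.center Q}

/-- The centraliser of `z` and `x`, inside the centraliser of `z`. -/
abbrev lSub (x : Q) : Subgroup (CC z) := Subgroup.centralizer ({(x : CC z)} : Set (CC z))

theorem xImage_iff {x : Q} {a : CC z ⧸ Q} : a ∈ xImage x ↔ ∃ l ∈ lSub x, QuotientGroup.mk l = a := by
  constructor
  · rintro ⟨l, hl, rfl⟩
    obtain ⟨-, h2⟩ := Subgroup.mem_subgroupOf.1 hl
    exact ⟨l, Subgroup.mem_centralizer_singleton_iff.2 (Subtype.ext (Subgroup.mem_centralizer_singleton_iff.1 h2)), rfl⟩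
  · rintro ⟨l, hl, rfl⟩
    exact ⟨l, Subgroup.mem_subgroupOf.2 ⟨l.2, Subgroup.mem_centralizer_singleton_iff.2
      (congrArg Subtype.val (Subgroup.mem_centralizer_singleton_iff.1 hl))⟩, rfl⟩

theorem coprime_ker_mk (hS : IsExtraspecialCentralizerSetting z Q 12) (W : Subgroup (CC z)) {p : ℕ}
    (hp : p % 2 = 1) : (Nat.card ((QuotientGroup.mk' Q).comp W.subtype).ker).Coprime p := by
  have hd : Nat.card ((QuotientGroup.mk' Q).comp W.subtype).ker ∣ 2 ^ 25 := by
    rw [← hS.2.2.2.1]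
    refine Subgroup.card_dvd_of_injective
      (MonoidHom.mk' (fun a => (⟨((a : W) : CC z), (QuotientGroup.eq_one_iff _).1 (MonoidHom.mem_ker.1 a.2)⟩ : Q))
        fun a a' => rfl) fun a a' h => Subtype.ext (Subtype.ext (congrArg Subtype.val h :))
  obtain ⟨k, -, hk⟩ := (Nat.dvd_prime_pow Nat.prime_two).1 hd
  rw [hk]
  exact Nat.Coprime.pow_left k (Nat.prime_two.coprime_iff_not_dvd.2 fun h => by omega)

/-- The target permutation class is reached by every suitable element of order `p`. -/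
def Reach (p : ℕ) (τ : M24) (Pr : M24 → Prop) : Prop :=
  ∀ ρ : M24, orderOf ρ = p → Pr ρ → ∃ (π : M24) (i : ℕ), π * ρ ^ i * π⁻¹ = τ

/-- The twisted identification: the class of `x` is the class of the axes and a generator lies over `permAut τ`. -/
theorem exists_normal (hS : IsExtraspecialCentralizerSetting z Q 12) (hψ : IsLeechModTwoIso Q e ψ) {x : Q}
    (hv : ψ vecA = QuotientGroup.mk x) {p : ℕ} (hp : p.Prime) (hodd : p % 2 = 1) {τ : M24} (hτp : orderOf τ = p)
    {Pr : M24 → Prop} (hR : Reach p τ Pr) {b : CC z} (hb : b ∈ lSub x) (hord : orderOf b = p)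
    (hPr : ∀ (d : golayCode) (ρ : M24), e (QuotientGroup.mk b) = QuotientGroup.mk (signAut d * permAut ρ) →
      orderOf ρ = p → Pr ρ) :
    ∃ (m : Co0) (i : ℕ), orderOf (b ^ i) = p ∧ CongTwo (m • vecA) vecA ∧
      (QuotientGroup.mk m : Spor.Co1) * e (QuotientGroup.mk (b ^ i)) * (QuotientGroup.mk m : Spor.Co1)⁻¹ =
        QuotientGroup.mk (permAut τ) := by
  have hpF := Fact.mk hp
  obtain ⟨g₀, hg₀⟩ := QuotientGroup.mk_surjective (e (QuotientGroup.mk b))
  have hfix : CongTwo (g₀ • vecA) vecA :=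
    congTwo_of_mem_xImage hψ hv (xImage_iff.2 ⟨b, hb, rfl⟩) hg₀
  have hneg : (QuotientGroup.mk negAut : Spor.Co1) = 1 := (QuotientGroup.eq_one_iff _).2 negAut_mem_center
  have hg₀p : g₀ ^ p = 1 ∨ g₀ ^ p = negAut := by
    have h1 : (QuotientGroup.mk (g₀ ^ p) : Spor.Co1) = QuotientGroup.mk 1 := by
      rw [QuotientGroup.mk_pow, hg₀, ← map_pow, ← QuotientGroup.mk_pow, ← hord, pow_orderOf_eq_one]
      exact map_one e
    rcases mk_eq_or h1 with r | r
    · exact Or.inl r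
    · exact Or.inr (r.trans (one_mul _))
  obtain ⟨g, hge, hgp, hgfix⟩ : ∃ g : Co0, (QuotientGroup.mk g : Spor.Co1) = e (QuotientGroup.mk b) ∧ g ^ p = 1 ∧
      CongTwo (g • vecA) vecA := by
    rcases hg₀p with r | r
    · exact ⟨g₀, hg₀, r, hfix⟩
    · refine ⟨g₀ * negAut, by rw [QuotientGroup.mk_mul, hneg, mul_one, hg₀], ?_, ?_⟩
      · rw [(show Commute g₀ negAut from Subgroup.mem_center_iff.1 negAut_mem_center g₀).mul_pow, r]
        obtain ⟨j, rfl⟩ : ∃ j, p = 2 * j + 1 := ⟨p / 2, by omega⟩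
        rw [pow_succ, pow_mul, pow_two,
          show negAut * negAut = (1 : Co0) from co0_ext fun v q => by
            rw [mul_smul, negAut_apply, negAut_apply, neg_neg, one_smul],
          one_pow, one_mul]
        exact co0_ext fun v q => by rw [mul_smul, negAut_apply, negAut_apply, neg_neg, one_smul]
      · rw [mul_smul, negAut_apply]
        exact ((congTwo_neg vecA).smul g₀).trans hfix
  obtain ⟨d, ρ, rfl⟩ := exists_monomial hgfix
  obtain ⟨hρp, a, ha⟩ := exists_unsign hodd hgp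
  have hne : QuotientGroup.mk b ≠ (1 : CC z ⧸ Q) := fun h => by
    have hd : orderOf b ∣ 2 ^ 25 := by
      rw [← hS.2.2.2.1, ← Subgroup.orderOf_mk b ((QuotientGroup.eq_one_iff b).1 h)]
      exact orderOf_dvd_natCard _
    rw [hord] at hd
    have := hp.dvd_of_dvd_pow hd
    rcases (Nat.dvd_prime Nat.prime_two).1 this with r | r
    · exact hp.ne_one r
    · omega
  have hρ1 : ρ ≠ 1 := by
    rintro rfl
    refine hne (e.injective ?_)
    rw [map_one, ← hge]
    have hd0 : signAut d * permAut 1 = 1 := by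
      have h1 : permAut (1 : M24) = 1 := map_one permHom
      rw [h1] at ha ⊢
      rw [mul_one] at ha ⊢
      have := congrArg (fun u => (signAut a)⁻¹ * u * signAut a) ha
      simpa [mul_assoc] using this
    rw [hd0, QuotientGroup.mk_one]
  have hρo : orderOf ρ = p := orderOf_eq_prime hρp hρ1
  obtain ⟨π, i, hπ⟩ := hR ρ hρo (hPr d ρ hge.symm hρo)
  refine ⟨permAut π * signAut a, i, ?_, ?_, ?_⟩
  · refine orderOf_eq_prime (by rw [← pow_mul, mul_comm, pow_mul, ← hord, pow_orderOf_eq_one, one_pow]) fun h => ?_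
    obtain ⟨j, rfl⟩ : p ∣ i := hord ▸ orderOf_dvd_of_pow_eq_one h
    rw [pow_mul, hρp, one_pow, mul_one, mul_inv_cancel] at hπ
    rw [← hπ, orderOf_one] at hτp
    exact hp.ne_one hτp.symm
  · rw [perm_mul_sign]; exact smul_vecA_monomial _ _
  · rw [QuotientGroup.mk_pow, map_pow, ← hge, ← QuotientGroup.mk_pow, ← QuotientGroup.mk_inv, ← QuotientGroup.mk_mul,
      ← QuotientGroup.mk_mul]
    congr 1
    have h2 : signAut a * (signAut d * permAut ρ) ^ i * (signAut a)⁻¹ = permAut ρ ^ i := by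
      rw [← conj_pow, ha]
    calc permAut π * signAut a * (signAut d * permAut ρ) ^ i * (permAut π * signAut a)⁻¹
        = permAut π * (signAut a * (signAut d * permAut ρ) ^ i * (signAut a)⁻¹) * (permAut π)⁻¹ := by group
      _ = permAut π * permAut ρ ^ i * (permAut π)⁻¹ := by rw [h2]
      _ = permAut τ := by
          rw [← hπ, ← permHom_apply, ← permHom_apply, ← permHom_apply, map_mul, map_mul, map_inv, map_pow]

/-- Twist so that the class of `x` becomes the class of the axes. -/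
theorem exists_twist_axis (hψ : IsLeechModTwoIso Q e ψ) (hS : IsExtraspecialCentralizerSetting z Q 12) {x : Q}
    (hc : IsConj z (qVal x)) (hne : qVal x ≠ z) :
    ∃ (e' : CC z ⧸ Q ≃* Spor.Co1) (ψ' : leechLattice → Q ⧸ Subgroup.center Q),
      IsLeechModTwoIso Q e' ψ' ∧ ψ' vecA = QuotientGroup.mk x := by
  obtain ⟨v, hv, hvx⟩ := (conj_iff_class hS hψ x).1 ⟨hc, hne⟩
  obtain ⟨g, hg⟩ := isAxisClass_norm64 v hv
  refine ⟨_, _, isLeechModTwoIso_twist hψ g, ?_⟩
  rw [(psi_eq_iff hψ).2 (hg.symm.smul g⁻¹), inv_smul_smul, hvx]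

/-- A `G`-conjugate `q ≠ z` of `z` in `Q` can be interchanged with `z`. -/
theorem exists_swap (hS : IsExtraspecialCentralizerSetting z Q 12) (hψ : IsLeechModTwoIso Q e ψ) {q : Q}
    (hc : IsConj z (qVal q)) (hne : qVal q ≠ z) :
    ∃ g : G, g * z * g⁻¹ = qVal q ∧ g * qVal q * g⁻¹ = z := by
  have F := settingFacts hS
  obtain ⟨g, hg⟩ := isConj_iff.1 hc
  have D : ConjData Q g q := ⟨hg.symm, hne⟩
  obtain ⟨z₀, hz₀, hz₀e⟩ := mem_conj_of_conj_mem F.extra F.centralizer_eq F.normalizes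
    (by rw [F.card_eq]; norm_num) F.mem_center F.ne_one (D.eq ▸ qVal_mem q) (fun h => D.ne (D.eq.trans h))
  obtain ⟨q', hq', rfl⟩ := hz₀
  change g * (q' : G) * g⁻¹ = z at hz₀e
  have hc' : IsConj z (qVal (⟨q', hq'⟩ : Q)) := isConj_iff.2 ⟨g⁻¹, by
    show g⁻¹ * z * g⁻¹⁻¹ = (q' : G)
    conv_lhs => rw [← hz₀e]
    group⟩
  have hne' : qVal (⟨q', hq'⟩ : Q) ≠ z := fun h => by
    change (q' : G) = z at h
    rw [h] at hz₀e
    exact hne (hg.symm.trans hz₀e)
  obtain ⟨v, hv, hvx⟩ := (conj_iff_class hS hψ q).1 ⟨hc, hne⟩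
  obtain ⟨w, hw, hwx⟩ := (conj_iff_class hS hψ _).1 ⟨hc', hne'⟩
  obtain ⟨h, hh, hhq⟩ := exists_conj_of_norm64 F hψ hv hw hvx hwx
  have hhz : h * z = z * h := Subgroup.mem_centralizer_singleton_iff.1 hh
  refine ⟨g * h, ?_, ?_⟩
  · calc g * h * z * (g * h)⁻¹ = g * (h * z * h⁻¹) * g⁻¹ := by group
      _ = qVal q := by rw [hhz, mul_inv_cancel_right, hg]
  · calc g * h * qVal q * (g * h)⁻¹ = g * (h * qVal q * h⁻¹) * g⁻¹ := by group
      _ = z := by rw [hhq]; exact hz₀e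

/-- A membership condition on `M24` attached to an element of `C(z) ∩ C(x)` of order `p`. -/
def PrOf (e : (Subgroup.centralizer ({z} : Set G)) ⧸ Q ≃* Spor.Co1) (ψ : leechLattice → Q ⧸ Subgroup.center Q)
    (x : Q) (Pr : M24 → Prop) (b : CC z) (p : ℕ) : Prop :=
  ψ vecA = QuotientGroup.mk x → ∀ (d : golayCode) (ρ : M24),
    e (QuotientGroup.mk b) = QuotientGroup.mk (signAut d * permAut ρ) → orderOf ρ = p → Pr ρ

variable {c : Data} {T : Type*} [Group T]

theorem mul_pow_conj (a u : G) (i : ℕ) : a * u ^ i * a⁻¹ = (a * u * a⁻¹) ^ i := (conj_pow).symm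

/-- The conjugates of `z` in `C_Q(B)` are conjugate to `z` under `C(B)`. -/
theorem exists_conj_fix (hp : c.p.Prime) (hτp : orderOf c.τ = c.p) {Pr : M24 → Prop} (hR : Reach c.p c.τ Pr)
    (r₀ : ℕ) (gAut : Co0) (hgAut : gAut * c.σ * gAut⁻¹ = c.σ ^ r₀)
    (hgen : ∀ r : ℕ, ¬ c.p ∣ r → ∃ n, r₀ ^ n % c.p = r % c.p)
    {b : CC z} (X : Loc e ψ c T b) (q : Q) (hq : q ∈ Loc.qFix b) (hc : IsConj z (qVal q)) (hne : qVal q ≠ z)
    (hPr : ∀ (e' : CC z ⧸ Q ≃* Spor.Co1) (ψ' : leechLattice → Q ⧸ Subgroup.center Q),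
      IsLeechModTwoIso Q e' ψ' → PrOf e' ψ' q Pr b c.p ∧
      ∀ b' : CC z, (∃ g : G, g * z * g⁻¹ = qVal q ∧ g * qVal q * g⁻¹ = z ∧ g * (b : G) * g⁻¹ = (b' : G)) →
        PrOf e' ψ' q Pr b' c.p) :
    ∃ h : G, h * (b : G) * h⁻¹ = (b : G) ∧ h * z * h⁻¹ = qVal q := by
  have hpF := Fact.mk hp
  have hodd := (Data.base_spec X.ok).1
  obtain ⟨g, hgz, hgq⟩ := exists_swap X.hS X.hψ hc hne
  have hbq : (b : G) * qVal q = qVal q * (b : G) := (congrArg Subtype.val (Loc.mem_qFix.1 hq)).symm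
  have hb'z : g * (b : G) * g⁻¹ * z = z * (g * (b : G) * g⁻¹) := by
    conv_lhs => arg 2; rw [← hgq]
    conv_rhs => arg 1; rw [← hgq]
    calc g * (b : G) * g⁻¹ * (g * qVal q * g⁻¹) = g * ((b : G) * qVal q) * g⁻¹ := by group
      _ = g * (qVal q * (b : G)) * g⁻¹ := by rw [hbq]
      _ = _ := by group
  have hb'q : g * (b : G) * g⁻¹ * qVal q = qVal q * (g * (b : G) * g⁻¹) := by
    have hbz : (b : G) * z = z * (b : G) := Subgroup.mem_centralizer_singleton_iff.1 b.2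
    conv_lhs => arg 2; rw [← hgz]
    conv_rhs => arg 1; rw [← hgz]
    calc g * (b : G) * g⁻¹ * (g * z * g⁻¹) = g * ((b : G) * z) * g⁻¹ := by group
      _ = g * (z * (b : G)) * g⁻¹ := by rw [hbz]
      _ = _ := by group
  set b' : CC z := ⟨g * (b : G) * g⁻¹, Subgroup.mem_centralizer_singleton_iff.2 hb'z⟩ with hb'
  have hb'ord : orderOf b' = c.p := by
    rw [← Subgroup.orderOf_coe]
    show orderOf (g * (b : G) * g⁻¹) = c.p
    rw [← MulAut.conj_apply, MulEquiv.orderOf_eq, Subgroup.orderOf_coe, X.order]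
  have hbL : b ∈ lSub q := Subgroup.mem_centralizer_singleton_iff.2 (Subtype.ext hbq)
  have hb'L : b' ∈ lSub q := Subgroup.mem_centralizer_singleton_iff.2 (Subtype.ext hb'q)
  obtain ⟨e₁, ψ₁, hψ₁, hv₁⟩ := exists_twist_axis X.hψ X.hS hc hne
  obtain ⟨hP1, hP2⟩ := hPr e₁ ψ₁ hψ₁
  obtain ⟨m₁, i₁, ho₁, hm₁, he₁⟩ := exists_normal X.hS hψ₁ hv₁ hp hodd hτp hR hbL X.order (hP1 hv₁)
  obtain ⟨m₂, i₂, ho₂, hm₂, he₂⟩ :=
    exists_normal X.hS hψ₁ hv₁ hp hodd hτp hR hb'L hb'ord (hP2 b' ⟨g, hgz, hgq, rfl⟩ hv₁)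
  have hm : CongTwo ((m₁⁻¹ * m₂) • vecA) vecA := by
    rw [mul_smul]
    have h1 := (hm₂.trans hm₁.symm).smul m₁⁻¹
    rwa [inv_smul_smul] at h1
  have hxc : q ∉ Subgroup.center Q := fun h => by
    rcases ((settingFacts X.hS).mem_center_iff q).1 h with r | r
    · obtain ⟨u, hu⟩ := isConj_iff.1 hc
      rw [r] at hu
      exact (settingFacts X.hS).ne_one (conj_eq_one_iff.1 hu)
    · exact hne r
  obtain ⟨l, hl, hle⟩ := xImage_iff.1 (mem_xImage_of_congTwo (settingFacts X.hS) hψ₁ hxc hv₁ hm)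
  have hel : e₁ (QuotientGroup.mk l) = QuotientGroup.mk (m₁⁻¹ * m₂) := by
    rw [hle, e₁.apply_symm_apply]
  set y := l * b' ^ i₂ * l⁻¹ with hy
  have hmap : (QuotientGroup.mk y : CC z ⧸ Q) = QuotientGroup.mk (b ^ i₁) := by
    apply e₁.injective
    rw [hy, QuotientGroup.mk_mul, QuotientGroup.mk_mul, QuotientGroup.mk_inv, map_mul, map_mul, map_inv, hel,
      QuotientGroup.mk_mul, QuotientGroup.mk_inv]
    have h3 := he₂.trans he₁.symm
    calc (QuotientGroup.mk m₁ : Spor.Co1)⁻¹ * QuotientGroup.mk m₂ * e₁ (QuotientGroup.mk (b' ^ i₂)) *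
          ((QuotientGroup.mk m₁ : Spor.Co1)⁻¹ * QuotientGroup.mk m₂)⁻¹
        = (QuotientGroup.mk m₁ : Spor.Co1)⁻¹ * (QuotientGroup.mk m₂ * e₁ (QuotientGroup.mk (b' ^ i₂)) *
            (QuotientGroup.mk m₂ : Spor.Co1)⁻¹) * QuotientGroup.mk m₁ := by group
      _ = e₁ (QuotientGroup.mk (b ^ i₁)) := by rw [h3]; group
  have hoy : orderOf y = c.p := by rw [hy, ← MulAut.conj_apply, MulEquiv.orderOf_eq, ho₂]
  have hyL : y ∈ lSub q := Subgroup.mul_mem _ (Subgroup.mul_mem _ hl (Subgroup.pow_mem _ hb'L _)) (Subgroup.inv_mem _ hl)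
  obtain ⟨⟨m, hmL⟩, hconj⟩ := conj_of_map_eq ((QuotientGroup.mk' Q).comp (lSub q).subtype) hp
    (coprime_ker_mk X.hS _ hodd) (x := ⟨b ^ i₁, Subgroup.pow_mem _ hbL _⟩) (y := ⟨y, hyL⟩)
    (by rw [Subgroup.orderOf_mk]; exact ho₁) (by rw [Subgroup.orderOf_mk]; exact hoy) hmap.symm
  have hconj' : m * y * m⁻¹ = b ^ i₁ := congrArg Subtype.val hconj
  set u : CC z := m * l
  have huG : (u : G) * g * (b : G) ^ i₂ * ((u : G) * g)⁻¹ = (b : G) ^ i₁ := by
    have h1 : u * b' ^ i₂ * u⁻¹ = b ^ i₁ := by rw [← hconj', hy]; simp only [u]; group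
    have h2 := congrArg Subtype.val h1
    simp only [Subgroup.coe_mul, InvMemClass.coe_inv, SubmonoidClass.coe_pow] at h2
    rw [← h2, hb', ← mul_pow_conj]
    group
  have hi₂ : ¬ c.p ∣ i₂ := by
    intro hd
    obtain ⟨j, rfl⟩ := hd
    have h0 : b' ^ (c.p * j) = 1 := by rw [pow_mul, ← hb'ord, pow_orderOf_eq_one, one_pow]
    rw [h0, orderOf_one] at ho₂
    exact hp.ne_one ho₂.symm
  obtain ⟨j₂, -, hj₂⟩ := Nat.exists_mul_mod_eq_one_of_coprime ((hp.coprime_iff_not_dvd.2 hi₂).symm) hp.one_lt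
  set k := i₁ * j₂
  have hbj : ((b : G) ^ i₂) ^ j₂ = b := by
    rw [← pow_mul, ← pow_mod_orderOf, Subgroup.orderOf_coe, X.order, hj₂, pow_one]
  have hub : (u : G) * g * (b : G) * ((u : G) * g)⁻¹ = (b : G) ^ k := by
    conv_lhs => rw [← hbj]
    rw [mul_pow_conj, huG, ← pow_mul]
  have hk : ¬ c.p ∣ k := by
    intro hd
    obtain ⟨j, hj⟩ := hd
    have h1 : (b : G) ^ k = 1 := by
      rw [hj, pow_mul, ← X.order, ← Subgroup.orderOf_coe, pow_orderOf_eq_one, one_pow]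
    rw [h1, conj_eq_one_iff] at hub
    have := X.order
    rw [show b = 1 from Subtype.ext hub, orderOf_one] at this
    exact hp.ne_one this.symm
  obtain ⟨n, hn⟩ := hgen k hk
  have hpowAut : gAut ^ n * c.σ * (gAut ^ n)⁻¹ = c.σ ^ r₀ ^ n := by
    clear hn
    induction n with
    | zero => simp
    | succ n ih =>
      calc gAut ^ (n + 1) * c.σ * (gAut ^ (n + 1))⁻¹ = gAut ^ n * (gAut * c.σ * gAut⁻¹) * (gAut ^ n)⁻¹ := by
            rw [pow_succ, mul_inv_rev]; simp only [mul_assoc]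
        _ = (gAut ^ n * c.σ * (gAut ^ n)⁻¹) ^ r₀ := by rw [hgAut, conj_pow]
        _ = _ := by rw [ih, ← pow_mul, ← pow_succ]
  have hσn : c.σ ^ r₀ ^ n ≠ 1 := by
    intro h
    have h1 := orderOf_dvd_of_pow_eq_one h
    rw [X.cent.order, Nat.dvd_iff_mod_eq_zero, hn, ← Nat.dvd_iff_mod_eq_zero] at h1
    exact hk h1
  obtain ⟨h', -, hh'b⟩ := X.exists_lift hσn hpowAut
  have hh'bG : (h' : G) * (b : G) * (h' : G)⁻¹ = (b : G) ^ k := by
    rw [← Subgroup.coe_mul, ← InvMemClass.coe_inv, ← Subgroup.coe_mul, hh'b, SubmonoidClass.coe_pow,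
      ← pow_mod_orderOf, Subgroup.orderOf_coe, X.order, hn]
    conv_rhs => rw [← pow_mod_orderOf, Subgroup.orderOf_coe, X.order]
  refine ⟨(u : G) * g * (h' : G)⁻¹ , ?_, ?_⟩
  · have hinv : ((h' : G))⁻¹ * (b : G) ^ k * (h' : G) = (b : G) := by rw [← hh'bG]; group
    have hkinv : ∀ a : G, a * (b : G) * a⁻¹ = (b : G) ^ k → a * ((h' : G)⁻¹ * (b : G) * (h' : G)) * a⁻¹ = b := by
      intro a ha
      obtain ⟨j, -, hj⟩ := Nat.exists_mul_mod_eq_one_of_coprime ((hp.coprime_iff_not_dvd.2 hk).symm) hp.one_lt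
      have e1 : (h' : G)⁻¹ * (b : G) * (h' : G) = (b : G) ^ j := by
        calc (h' : G)⁻¹ * (b : G) * (h' : G) = (h' : G)⁻¹ * ((b : G) ^ k) ^ j * ((h' : G)⁻¹)⁻¹ := by
              rw [← pow_mul, ← pow_mod_orderOf, Subgroup.orderOf_coe, X.order, hj, pow_one, inv_inv]
          _ = ((h' : G)⁻¹ * (b : G) ^ k * ((h' : G)⁻¹)⁻¹) ^ j := mul_pow_conj _ _ _
          _ = (b : G) ^ j := by rw [inv_inv, hinv]
      rw [e1, mul_pow_conj, ha, ← pow_mul, ← pow_mod_orderOf, Subgroup.orderOf_coe, X.order, hj, pow_one]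
    calc (u : G) * g * (h' : G)⁻¹ * (b : G) * ((u : G) * g * (h' : G)⁻¹)⁻¹
        = (u : G) * g * ((h' : G)⁻¹ * (b : G) * (h' : G)) * ((u : G) * g)⁻¹ := by group
      _ = (b : G) := hkinv _ hub
  · have huL : u ∈ lSub q := Subgroup.mul_mem _ hmL hl
    have huq : (u : G) * qVal q = qVal q * (u : G) :=
      congrArg Subtype.val (Subgroup.mem_centralizer_singleton_iff.1 huL)
    have hhz : (h' : G) * z = z * (h' : G) := Subgroup.mem_centralizer_singleton_iff.1 h'.2
    calc (u : G) * g * (h' : G)⁻¹ * z * ((u : G) * g * (h' : G)⁻¹)⁻¹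
        = (u : G) * (g * ((h' : G)⁻¹ * (z * (h' : G))) * g⁻¹) * (u : G)⁻¹ := by group
      _ = qVal q := by rw [← hhz, inv_mul_cancel_left, hgz, huq, mul_inv_cancel_right]

end CfsgLib.MonsterLocal
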