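import Cfsg.Agent.Lib.MonsterLocal.Forms
import Cfsg.Agent.Lib.Golay.M24

/-!
The centraliser of `z` and of a conjugate of `z` in `Q`, mapped onto `M24`.
-/

set_option autoImplicit false

namespace CfsgLib.MonsterLocal

open Cfsg CfsgLib.Fischer2 CfsgLib.Leech

variable {G : Type*} [Group G] [Finite G] {z : G} {Q : Subgroup (Subgroup.centralizer ({z} : Set G))}
  [Q.Normal] {e : (Subgroup.centralizer ({z} : Set G)) ⧸ Q ≃* Spor.Co1}
  {ψ : leechLattice → Q ⧸ Subgroup.center Q}

theorem mono_mk_unique {d d' : golayCode} {ρ ρ' : M24}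
    (h : (QuotientGroup.mk (signAut d * permAut ρ) : Spor.Co1) = QuotientGroup.mk (signAut d' * permAut ρ')) :
    ρ = ρ' := by
  rcases mk_eq_or h with r | r
  · exact (monomial_unique r).2
  · rw [Subgroup.mem_center_iff.1 negAut_mem_center, ← signAut_oneWord, ← mul_assoc, signAut_mul] at r
    exact (monomial_unique r).2

theorem mono_mul (d d' : golayCode) (ρ ρ' : M24) :
    signAut d * permAut ρ * (signAut d' * permAut ρ') = signAut (d + moved ρ d') * permAut (ρ * ρ') := by
  rw [mul_assoc, ← mul_assoc (permAut ρ), perm_mul_sign, mul_assoc (signAut (moved ρ d')), ← mul_assoc,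
    signAut_mul, show permAut (ρ * ρ') = permAut ρ * permAut ρ' from map_mul permHom _ _]

/-- The centraliser of `z` and `x` maps onto `M24`, with kernel a 2-group. -/
theorem exists_toM24 (hS : IsExtraspecialCentralizerSetting z Q 12) (hψ : IsLeechModTwoIso Q e ψ) {x : Q}
    (hxc : x ∉ Subgroup.center Q) (hv : ψ vecA = QuotientGroup.mk x) :
    ∃ f : lSub x →* M24, Function.Surjective f ∧ (∀ p : ℕ, p % 2 = 1 → (Nat.card f.ker).Coprime p) ∧
      ∀ (l : lSub x) (d : golayCode) (ρ : M24),
        e (QuotientGroup.mk (l : CC z)) = QuotientGroup.mk (signAut d * permAut ρ) → f l = ρ := by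
  have hex : ∀ l : lSub x, ∃ (d : golayCode) (ρ : M24),
      e (QuotientGroup.mk (l : CC z)) = QuotientGroup.mk (signAut d * permAut ρ) := by
    intro l
    obtain ⟨g, hg⟩ := QuotientGroup.mk_surjective (e (QuotientGroup.mk (l : CC z)))
    obtain ⟨d, ρ, rfl⟩ :=
      exists_monomial (congTwo_of_mem_xImage hψ hv (xImage_iff.2 ⟨(l : CC z), l.2, rfl⟩) hg)
    exact ⟨d, ρ, hg.symm⟩
  choose dd f hf using hex
  let F : lSub x →* M24 := MonoidHom.mk' f fun a b => mono_mk_unique (by
    rw [← hf, Subgroup.coe_mul, QuotientGroup.mk_mul, map_mul, hf, hf, ← QuotientGroup.mk_mul, mono_mul])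
  refine ⟨F, fun ρ => ?_, fun p hp => ?_, fun l d ρ h => mono_mk_unique ((hf l).symm.trans h)⟩
  · obtain ⟨l, hl, hle⟩ := xImage_iff.1 (mem_xImage_of_congTwo (settingFacts hS) hψ hxc hv
      (smul_vecA_monomial 0 ρ))
    exact ⟨⟨l, hl⟩, mono_mk_unique ((hf _).symm.trans (by rw [hle, e.apply_symm_apply]))⟩
  · have : Fact (Nat.Prime 2) := ⟨Nat.prime_two⟩
    have hQ : IsPGroup 2 Q := IsPGroup.of_card hS.2.2.2.1
    have hk : IsPGroup 2 F.ker := by
      intro a
      have ha : f (a : lSub x) = 1 := MonoidHom.mem_ker.1 a.2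
      have hA := hf (a : lSub x)
      rw [ha, show permAut (1 : M24) = 1 from map_one permHom, mul_one] at hA
      have h2 : ((a : lSub x) : CC z) * ((a : lSub x) : CC z) ∈ Q := by
        rw [← QuotientGroup.eq_one_iff, QuotientGroup.mk_mul]
        apply e.injective
        rw [map_mul, hA, ← QuotientGroup.mk_mul, signAut_mul, code_add_self, signAut_zero, map_one]
        rfl
      obtain ⟨k, hk⟩ := hQ ⟨_, h2⟩
      refine ⟨k + 1, Subtype.ext (Subtype.ext ?_)⟩
      rw [pow_succ', pow_mul, pow_two]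
      simpa only [SubmonoidClass.coe_pow, Subgroup.coe_mul, OneMemClass.coe_one] using congrArg Subtype.val hk
    obtain ⟨n, hn⟩ := IsPGroup.iff_card.1 hk
    rw [hn]
    exact Nat.Coprime.pow_left n (Nat.prime_two.coprime_iff_not_dvd.2 fun h => by omega)

theorem map_lSub (x : Q) :
    (lSub x).map (CC z).subtype = Subgroup.centralizer ({z, qVal x} : Set G) := by
  ext a
  constructor
  · rintro ⟨l, hl, rfl⟩
    refine Subgroup.mem_centralizer_iff.2 fun h hh => ?_
    rcases hh with rfl | rfl
    · exact (Subgroup.mem_centralizer_singleton_iff.1 l.2).symm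
    · exact (congrArg Subtype.val (Subgroup.mem_centralizer_singleton_iff.1 hl)).symm
  · intro ha
    have h := Subgroup.mem_centralizer_iff.1 ha
    refine ⟨⟨a, Subgroup.mem_centralizer_singleton_iff.2 (h z (Or.inl rfl)).symm⟩, ?_, rfl⟩
    exact Subgroup.mem_centralizer_singleton_iff.2 (Subtype.ext (h _ (Or.inr rfl)).symm)

/-- The order of a Sylow subgroup for an odd prime. -/
theorem factorization_lSub {p : ℕ} (hp : p.Prime) (hodd : p % 2 = 1) {x : Q} {f : lSub x →* M24}
    (hfs : Function.Surjective f) (hker : ∀ q : ℕ, q % 2 = 1 → (Nat.card f.ker).Coprime q) :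
    (Nat.card (Subgroup.centralizer ({z, qVal x} : Set G))).factorization p = (244823040 : ℕ).factorization p := by
  rw [← map_lSub x, Subgroup.card_map_of_injective (CC z).subtype_injective,
    ← Subgroup.card_mul_index f.ker, Subgroup.index_ker, MonoidHom.range_eq_top.2 hfs, Subgroup.card_top,
    CfsgLib.Golay.natCard_M24, Nat.factorization_mul Nat.card_pos.ne' (by norm_num), Finsupp.add_apply,
    Nat.factorization_eq_zero_of_not_dvd fun h => hp.ne_one (Nat.Coprime.eq_one_of_dvd (hker p hodd).symm h),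
    zero_add]

/-- Divisibility of centraliser orders passes through the map. -/
theorem dvd_centralizer_iff {p k : ℕ} (hp : p.Prime) {S H : Type*} [Group S] [Finite S] [Group H] [Finite H]
    (f : S →* H) (hfs : Function.Surjective f) (hker : (Nat.card f.ker).Coprime p) {b : S}
    (hb : orderOf b = p) :
    p ^ k ∣ Nat.card (Subgroup.centralizer ({f b} : Set H)) ↔
      p ^ k ∣ Nat.card (Subgroup.centralizer ({b} : Set S)) := by
  set C := Subgroup.centralizer ({b} : Set S)
  set φ := f.comp C.subtype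
  have hran : φ.range = Subgroup.centralizer ({f b} : Set H) := by
    refine le_antisymm ?_ fun h hh => ?_
    · rintro _ ⟨c, rfl⟩
      refine Subgroup.mem_centralizer_singleton_iff.2 ?_
      show f c * f b = f b * f c
      rw [← map_mul, ← map_mul, Subgroup.mem_centralizer_singleton_iff.1 c.2]
    · obtain ⟨l, rfl⟩ := hfs h
      have h2 := Subgroup.mem_centralizer_singleton_iff.1 hh
      set W := (Subgroup.zpowers (f b)).comap f
      have hbW : b ∈ W := Subgroup.mem_zpowers _
      have hy : f (l * b * l⁻¹) = f b := by rw [map_mul, map_mul, map_inv, h2, mul_inv_cancel_right]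
      have hyW : l * b * l⁻¹ ∈ W := by rw [Subgroup.mem_comap, hy]; exact Subgroup.mem_zpowers _
      have hkW : (Nat.card (f.comp W.subtype).ker).Coprime p := by
        refine Nat.Coprime.coprime_dvd_left (Subgroup.card_dvd_of_injective
          (MonoidHom.mk' (fun a => (⟨((a : W) : S), MonoidHom.mem_ker.2 (MonoidHom.mem_ker.1 a.2 :)⟩ : f.ker))
            fun a a' => rfl) fun a a' h => Subtype.ext (Subtype.ext (congrArg Subtype.val h :))) hker
      obtain ⟨⟨m, hmW⟩, hm⟩ := conj_of_map_eq (f.comp W.subtype) hp hkW (x := ⟨b, hbW⟩) (y := ⟨_, hyW⟩)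
        (by rw [Subgroup.orderOf_mk, hb])
        (by rw [Subgroup.orderOf_mk, ← MulAut.conj_apply, MulEquiv.orderOf_eq, hb]) hy.symm
      have hm' : m * (l * b * l⁻¹) * m⁻¹ = b := congrArg Subtype.val hm
      obtain ⟨j, hj⟩ := Subgroup.mem_zpowers_iff.1 (Subgroup.mem_comap.1 hmW)
      have hml : m * l * b = b * (m * l) := by
        refine mul_inv_eq_iff_eq_mul.1 ?_
        rw [mul_inv_rev]
        calc m * l * b * (l⁻¹ * m⁻¹) = m * (l * b * l⁻¹) * m⁻¹ := by group
          _ = b := hm'
      refine ⟨⟨b ^ (-j) * (m * l), Subgroup.mem_centralizer_singleton_iff.2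
        (((Commute.refl b).zpow_left (-j)).mul_left hml).eq⟩, ?_⟩
      show f (b ^ (-j) * (m * l)) = f l
      rw [map_mul, map_mul, map_zpow, ← hj, ← mul_assoc, ← zpow_add, neg_add_cancel, zpow_zero, one_mul]
  have hck : (Nat.card φ.ker).Coprime p := by
    refine Nat.Coprime.coprime_dvd_left (Subgroup.card_dvd_of_injective
      (MonoidHom.mk' (fun a => (⟨((a : C) : S), MonoidHom.mem_ker.2 (MonoidHom.mem_ker.1 a.2 :)⟩ : f.ker))
        fun a a' => rfl) fun a a' h => Subtype.ext (Subtype.ext (congrArg Subtype.val h :))) hker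
  rw [← Subgroup.card_mul_index φ.ker, Subgroup.index_ker, hran]
  exact ⟨fun h => h.mul_left _, fun h => (Nat.Coprime.pow_left k hck.symm).dvd_of_dvd_mul_left h⟩

/-- An element of prime order `p` with `p² ∤ |M24|` reaches every such element. -/
theorem reach_of_single {p : ℕ} (hp : p.Prime) (hf : (244823040 : ℕ).factorization p = 1) {τ : M24}
    (hτ : orderOf τ = p) : Reach p τ (fun _ => True) := by
  intro ρ hρ _
  have := Fact.mk hp
  have hc : (Nat.card M24).factorization p = 1 := by rw [CfsgLib.Golay.natCard_M24, hf]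
  let P : Sylow p M24 := Sylow.ofCard (Subgroup.zpowers τ) (by rw [hc, pow_one, Nat.card_zpowers, hτ])
  let P' : Sylow p M24 := Sylow.ofCard (Subgroup.zpowers ρ) (by rw [hc, pow_one, Nat.card_zpowers, hρ])
  obtain ⟨π, hπ⟩ := MulAction.exists_smul_eq M24 P' P
  have h1 : (π • P' : Sylow p M24).toSubgroup = Subgroup.zpowers τ := by rw [hπ]; rfl
  have h2 : τ ∈ (π • P' : Sylow p M24).toSubgroup := by rw [h1]; exact Subgroup.mem_zpowers _
  rw [Sylow.coe_subgroup_smul, Subgroup.mem_pointwise_smul_iff_inv_smul_mem] at h2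
  obtain ⟨i, hi⟩ := (mem_zpowers_iff_mem_range_orderOf.1 (show ((MulAut.conj π)⁻¹ • τ) ∈ Subgroup.zpowers ρ from h2) |>
    Finset.mem_image.1)
  refine ⟨π, i, ?_⟩
  rw [hi.2, MulAut.smul_def, MulAut.inv_apply, MulAut.conj_symm_apply]
  group

end CfsgLib.MonsterLocal
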