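import Cfsg.Agent.Lib.MonsterLocal.Cent

/-!
Matrices carrying one permutation to another.
-/

set_option autoImplicit false

namespace CfsgLib.MonsterLocal

open Cfsg CfsgLib.Fischer2 CfsgLib.Leech
open CfsgLib.Golay (idx pt idx_lt IsTbl tblAt)

/-- The matrix carries the permutation with table `t` to the one with table `u`. -/
def matIntertw (t u : ℕ) (M : List (List ℤ)) : Bool :=
  (List.range 24).all fun r => (List.range 24).all fun q =>
    (M.getD (tblAt u r) []).getD (tblAt t q) 0 == (M.getD r []).getD q 0

theorem matFn_intertw {t u : ℕ} {M : List (List ℤ)} {σ υ : M24}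
    (hσ : IsTbl (σ : Equiv.Perm GolayPt) t) (hυ : IsTbl (υ : Equiv.Perm GolayPt) u)
    (h : matOk M = true) (hc : matIntertw t u M = true) :
    matFn M * permAut σ = permAut υ * matFn M := by
  simp only [matIntertw, List.all_eq_true, List.mem_range, beq_iff_eq] at hc
  rw [matFn, dif_pos h]
  refine co0_ext fun v i => ?_
  obtain ⟨p, rfl⟩ := (υ : Equiv.Perm GolayPt).surjective i
  rw [mul_smul, mul_smul, coordVec_permAut, Equiv.symm_apply_apply, coordVec_matAut, coordVec_matAut,
    matAct, matAct, matApply, matApply]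
  congr 1
  simp only [dotInt, toVec]
  refine (Equiv.sum_comp (σ : Equiv.Perm GolayPt) _).symm.trans (Finset.sum_congr rfl fun q _ => ?_)
  rw [coordVec_permAut, Equiv.symm_apply_apply, hσ, hυ, hc _ (idx_lt p) _ (idx_lt q)]

end CfsgLib.MonsterLocal
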