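import Cfsg.Agent.Lib.MonsterLocal.ThreeFrame

/-!
An element of order 3 central in no Sylow 3-subgroup of the centraliser of `z` and `s`.
-/

set_option autoImplicit false

namespace CfsgLib.MonsterLocal.Three

open Cfsg CfsgLib.Fischer2 CfsgLib.Leech

variable {G : Type*} [Group G] [Finite G] {z : G} {Q : Subgroup (Subgroup.centralizer ({z} : Set G))}
  [Q.Normal] {e : (Subgroup.centralizer ({z} : Set G)) ⧸ Q ≃* Spor.Co1}
  {ψ : leechLattice → Q ⧸ Subgroup.center Q} {T : Type*} [Group T]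

theorem map_centralizer_subtype {H : Type*} [Group H] (K : Subgroup H) (a : K) :
    (Subgroup.centralizer ({a} : Set K)).map K.subtype = K ⊓ Subgroup.centralizer ({(a : H)} : Set H) := by
  ext u
  constructor
  · rintro ⟨k, hk, rfl⟩
    exact ⟨k.2, Subgroup.mem_centralizer_singleton_iff.2
      (congrArg Subtype.val (Subgroup.mem_centralizer_singleton_iff.1 hk))⟩
  · rintro ⟨hu, hc⟩
    exact ⟨⟨u, hu⟩, Subgroup.mem_centralizer_singleton_iff.2
      (Subtype.ext (Subgroup.mem_centralizer_singleton_iff.1 hc)), rfl⟩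

theorem card_cent_lSub {q : Q} (b : lSub q) :
    Nat.card (Subgroup.centralizer ({b} : Set (lSub q))) =
      Nat.card (Subgroup.centralizer ({z, qVal q} : Set G) ⊓
        Subgroup.centralizer ({((b : CC z) : G)} : Set G) : Subgroup G) := by
  rw [← Subgroup.card_map_of_injective (lSub q).subtype_injective, map_centralizer_subtype,
    ← Subgroup.card_map_of_injective (CC z).subtype_injective,
    Subgroup.map_inf _ _ _ (CC z).subtype_injective, map_lSub, map_centralizer_subtype, ← inf_assoc]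
  have h : Subgroup.centralizer ({z, qVal q} : Set G) ⊓ CC z = Subgroup.centralizer ({z, qVal q} : Set G) :=
    inf_of_le_left (Subgroup.centralizer_le (Set.singleton_subset_iff.2 (Or.inl rfl)))
  rw [h]

/-- Fixed points of the permutation and the centraliser in the joint centraliser. -/
theorem exists_perm (hS : IsExtraspecialCentralizerSetting z Q 12) (hψ : IsLeechModTwoIso Q e ψ) {q : Q}
    (hqc : q ∉ Subgroup.center Q) (hv : ψ vecA = QuotientGroup.mk q) {b : CC z} (hb : b ∈ lSub q)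
    (hord : orderOf b = 3) :
    ∃ (d : golayCode) (ρ : M24), e (QuotientGroup.mk b) = QuotientGroup.mk (signAut d * permAut ρ) ∧
      orderOf ρ = 3 ∧ (3 ^ 3 ∣ Nat.card (Subgroup.centralizer ({ρ} : Set M24)) ↔
        3 ^ 3 ∣ Nat.card (Subgroup.centralizer ({z, qVal q} : Set G) ⊓
          Subgroup.centralizer ({(b : G)} : Set G) : Subgroup G)) ∧
      ∀ (d' : golayCode) (ρ' : M24),
        e (QuotientGroup.mk b) = QuotientGroup.mk (signAut d' * permAut ρ') → ρ' = ρ := by
  have := Fact.mk Nat.prime_three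
  obtain ⟨f, hfs, hker, hf⟩ := exists_toM24 hS hψ hqc hv
  obtain ⟨g, hg⟩ := QuotientGroup.mk_surjective (e (QuotientGroup.mk b))
  obtain ⟨d, ρ, rfl⟩ := exists_monomial (congTwo_of_mem_xImage hψ hv (xImage_iff.2 ⟨b, hb, rfl⟩) hg)
  have hρ : f ⟨b, hb⟩ = ρ := hf ⟨b, hb⟩ d ρ hg.symm
  have hb3 : orderOf (⟨b, hb⟩ : lSub q) = 3 := by rw [Subgroup.orderOf_mk, hord]
  refine ⟨d, ρ, hg.symm, ?_, ?_, fun d' ρ' h => (hf ⟨b, hb⟩ d' ρ' h).symm.trans hρ⟩
  · rw [← hρ]
    refine orderOf_eq_prime (by rw [← map_pow, ← hb3, pow_orderOf_eq_one, map_one]) fun h1 => ?_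
    have hd : orderOf (⟨b, hb⟩ : lSub q) ∣ Nat.card f.ker :=
      Subgroup.orderOf_mk _ (MonoidHom.mem_ker.2 h1) ▸ orderOf_dvd_natCard _
    rw [hb3] at hd
    exact Nat.prime_three.ne_one (Nat.Coprime.eq_one_of_dvd (hker 3 rfl).symm hd)
  · rw [← hρ, dvd_centralizer_iff Nat.prime_three f hfs (hker 3 rfl) hb3, card_cent_lSub]

/-- In every frame: fixed-point-free. -/
theorem prOf_frames {e' : CC z ⧸ Q ≃* Spor.Co1} {ψ' : leechLattice → Q ⧸ Subgroup.center Q} {b : CC z}
    (X : Loc e ψ data T b) {q : Q} (hq : q ∈ Loc.qFix b) (hc : IsConj z (qVal q)) (hne : qVal q ≠ z)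
    (hψ' : IsLeechModTwoIso Q e' ψ') :
    PrOf e' ψ' q NoFix b 3 ∧
      ∀ b' : CC z, (∃ g : G, g * z * g⁻¹ = qVal q ∧ g * qVal q * g⁻¹ = z ∧ g * (b : G) * g⁻¹ = (b' : G)) →
        PrOf e' ψ' q NoFix b' 3 := by
  refine ⟨fun _ d ρ he hρ => noFix_of_loc X hψ' he hρ, ?_⟩
  rintro b' ⟨g, hgz, hgq, hgb⟩ hv d ρ he hρ
  by_contra hn
  have hqc := notMem_center_of_conj (settingFacts X.hS) hc hne
  have hbq : (b : G) * qVal q = qVal q * (b : G) := (congrArg Subtype.val (Loc.mem_qFix.1 hq)).symm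
  have hbz : (b : G) * z = z * (b : G) := Subgroup.mem_centralizer_singleton_iff.1 b.2
  have hbL : b ∈ lSub q := Subgroup.mem_centralizer_singleton_iff.2 (Subtype.ext hbq)
  have hb'L : b' ∈ lSub q := Subgroup.mem_centralizer_singleton_iff.2 (Subtype.ext (by
    show (b' : G) * qVal q = qVal q * (b' : G)
    conv_lhs => rw [← hgb, ← hgz]
    conv_rhs => rw [← hgb, ← hgz]
    calc g * (b : G) * g⁻¹ * (g * z * g⁻¹) = g * ((b : G) * z) * g⁻¹ := by group
      _ = g * (z * (b : G)) * g⁻¹ := by rw [hbz]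
      _ = _ := by group))
  have hb'o : orderOf b' = 3 := by
    rw [← Subgroup.orderOf_coe, ← hgb, ← MulAut.conj_apply, MulEquiv.orderOf_eq, Subgroup.orderOf_coe]
    exact X.order
  obtain ⟨d₀, ρ₀, he₀, hρ₀, hiff₀, -⟩ := exists_perm X.hS hψ' hqc hv hbL X.order
  obtain ⟨d₁, ρ₁, -, -, hiff₁, huni⟩ := exists_perm X.hS hψ' hqc hv hb'L hb'o
  rw [← huni d ρ he] at hiff₁
  refine not_noFix_of_dvd hρ₀ (hiff₀.2 ?_) (noFix_of_loc X hψ' he₀ hρ₀)
  have h27 := hiff₁.1 (dvd_of_not_noFix hρ hn)
  have hmap : (Subgroup.centralizer ({z, qVal q} : Set G) ⊓ Subgroup.centralizer ({(b : G)} : Set G)).map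
      (MulAut.conj g).toMonoidHom =
      Subgroup.centralizer ({z, qVal q} : Set G) ⊓ Subgroup.centralizer ({(b' : G)} : Set G) := by
    have key : ∀ a u : G, (g⁻¹ * u * g) * a = a * (g⁻¹ * u * g) ↔ u * (g * a * g⁻¹) = g * a * g⁻¹ * u := by
      intro a u
      constructor
      · intro h
        calc u * (g * a * g⁻¹) = g * (g⁻¹ * u * g * a) * g⁻¹ := by group
          _ = g * (a * (g⁻¹ * u * g)) * g⁻¹ := by rw [h]
          _ = _ := by group
      · intro h
        calc g⁻¹ * u * g * a = g⁻¹ * (u * (g * a * g⁻¹)) * g := by group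
          _ = g⁻¹ * (g * a * g⁻¹ * u) * g := by rw [h]
          _ = _ := by group
    ext u
    rw [Subgroup.mem_map_equiv, MulAut.conj_symm_apply, Subgroup.mem_inf, Subgroup.mem_inf,
      Subgroup.mem_centralizer_singleton_iff, Subgroup.mem_centralizer_singleton_iff, key, hgb]
    refine and_congr ?_ Iff.rfl
    have hpair : ∀ w : G, w ∈ Subgroup.centralizer ({z, qVal q} : Set G) ↔
        w * z = z * w ∧ w * qVal q = qVal q * w := fun w => by
      rw [Subgroup.mem_centralizer_iff]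
      simp only [Set.mem_insert_iff, Set.mem_singleton_iff, forall_eq_or_imp, forall_eq]
      exact and_congr eq_comm eq_comm
    rw [hpair, hpair, key, key, hgz, hgq]
    exact and_comm
  rwa [← hmap, Subgroup.card_map_of_injective (MulAut.conj g).injective] at h27

/-- An element central in no Sylow 3-subgroup of the joint centraliser is fixed-point-free. -/
theorem prOf_noncentral (hS : IsExtraspecialCentralizerSetting z Q 12) (hψ : IsLeechModTwoIso Q e ψ) {x : Q}
    (hc : IsConj z (qVal x)) (hne : qVal x ≠ z) (Y : Subgroup G)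
    (hY : Y ≤ Subgroup.centralizer ({z, qVal x} : Set G)) (hY3 : Nat.card Y = 3)
    (hnc : ∀ P : Sylow 3 ↥(Subgroup.centralizer ({z, qVal x} : Set G)),
      ¬ Y.subgroupOf (Subgroup.centralizer ({z, qVal x} : Set G)) ≤
        (Subgroup.center ↥(P : Subgroup ↥(Subgroup.centralizer ({z, qVal x} : Set G)))).map
          (P : Subgroup ↥(Subgroup.centralizer ({z, qVal x} : Set G))).subtype)
    {b : CC z} (hbY : (b : G) ∈ Y) (hbo : orderOf b = 3) : PrOf e ψ x NoFix b 3 := by
  intro hv d ρ he hρ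
  by_contra hn
  have := Fact.mk Nat.prime_three
  have hxc := notMem_center_of_conj (settingFacts hS) hc hne
  have hbL : b ∈ lSub x := Subgroup.mem_centralizer_singleton_iff.2
    (Subtype.ext (Subgroup.mem_centralizer_iff.1 (hY hbY) _ (Or.inr rfl)).symm)
  obtain ⟨d₀, ρ₀, -, -, hiff, huni⟩ := exists_perm hS hψ hxc hv hbL hbo
  rw [← huni d ρ he] at hiff
  have h27 := hiff.1 (dvd_of_not_noFix hρ hn)
  obtain ⟨f, hfs, hker, -⟩ := exists_toM24 hS hψ hxc hv
  set L := Subgroup.centralizer ({z, qVal x} : Set G)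
  set bL : L := ⟨(b : G), hY hbY⟩
  have hcard : Nat.card (Subgroup.centralizer ({bL} : Set L)) =
      Nat.card (L ⊓ Subgroup.centralizer ({(b : G)} : Set G) : Subgroup G) := by
    rw [← Subgroup.card_map_of_injective L.subtype_injective, map_centralizer_subtype]
  rw [← hcard] at h27
  obtain ⟨K, hK⟩ := Sylow.exists_subgroup_card_pow_prime 3 h27
  have hfac : (Nat.card L).factorization 3 = 3 := by
    rw [factorization_lSub Nat.prime_three rfl hfs hker, show (244823040 : ℕ) = 3 ^ 3 * 9067520 by norm_num,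
      Nat.factorization_mul (by norm_num) (by norm_num), Finsupp.add_apply,
      Nat.Prime.factorization_pow Nat.prime_three, Finsupp.single_eq_same,
      Nat.factorization_eq_zero_of_not_dvd (by norm_num)]
  let P : Sylow 3 L := Sylow.ofCard (K.map (Subgroup.centralizer ({bL} : Set L)).subtype)
    (by rw [Subgroup.card_map_of_injective (Subgroup.centralizer ({bL} : Set L)).subtype_injective, hK, hfac])
  have hcomm : ∀ u ∈ (P : Subgroup L), u * bL = bL * u := by
    rintro _ ⟨k, -, rfl⟩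
    exact Subgroup.mem_centralizer_singleton_iff.1 k.2
  have hbP : bL ∈ (P : Subgroup L) := by
    have hbp : IsPGroup 3 (Subgroup.zpowers bL) := IsPGroup.of_card (n := 1) (by
      rw [pow_one, Nat.card_zpowers, Subgroup.orderOf_mk, Subgroup.orderOf_coe, hbo])
    have hn : bL ∈ Subgroup.normalizer ((P : Subgroup L) : Set L) := by
      rw [Subgroup.mem_normalizer_iff]
      intro u
      constructor
      · intro hu; rwa [← hcomm u hu, mul_inv_cancel_right]
      · intro hu
        have h1 := hcomm _ hu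
        have h2 : bL * u * bL⁻¹ = u := by
          calc bL * u * bL⁻¹ = bL⁻¹ * (bL * (bL * u * bL⁻¹)) := by group
            _ = bL⁻¹ * (bL * u * bL⁻¹ * bL) := by rw [h1]
            _ = u := by group
        rwa [h2] at hu
    have h1 : bL ∈ Subgroup.zpowers bL ⊓ Subgroup.normalizer (P : Set L) :=
      ⟨Subgroup.mem_zpowers _, hn⟩
    rw [IsPGroup.inf_normalizer_sylow hbp P] at h1
    exact h1.2
  refine hnc P fun u hu => ?_
  have hYb : Y = Subgroup.zpowers (b : G) := (Subgroup.eq_of_le_of_card_ge (Subgroup.zpowers_le.2 hbY)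
    (by rw [hY3, Nat.card_zpowers, Subgroup.orderOf_coe, hbo])).symm
  rw [Subgroup.mem_subgroupOf, hYb, Subgroup.mem_zpowers_iff] at hu
  obtain ⟨k, hk⟩ := hu
  have hu' : u = bL ^ k := Subtype.ext (by rw [SubgroupClass.coe_zpow]; exact hk.symm)
  refine ⟨⟨u, hu' ▸ Subgroup.zpow_mem _ hbP k⟩, Subgroup.mem_center_iff.2 fun a => Subtype.ext ?_, rfl⟩
  show (a : L) * u = u * (a : L)
  rw [hu']
  exact ((show Commute (a : L) bL from hcomm _ a.2).zpow_right k).eq

end CfsgLib.MonsterLocal.Three
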