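import Cfsg.Agent.Lib.MonsterLocal.LargeHom
import Cfsg.Agent.Lib.MonsterLocal.ThreeJoint

/-!
Elements of order 3 central in a Sylow 3-subgroup of the centraliser of `z` and a conjugate, in every frame.
-/

set_option autoImplicit false
set_option maxRecDepth 20000

namespace CfsgLib.MonsterLocal.Large

open Cfsg CfsgLib.Fischer2 CfsgLib.Leech
open CfsgLib.Golay (IsTbl idx pt idx_lt idx_pt pt_idx tblAt)
open CfsgLib.MonsterLocal.Three (NoFix)

/-- Some point is fixed. -/
abbrev HasFix (ρ : M24) : Prop := ¬ NoFix ρ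

theorem tau_tbl : IsTbl (data.τ : Equiv.Perm GolayPt) data.t := (Data.base_spec ok).2.1

theorem tau_fix : ∃ i < 24, tblAt data.t i = i := by decide +kernel

theorem tau_hasFix : HasFix data.τ := fun h => by
  obtain ⟨i, hi, he⟩ := tau_fix
  refine h (pt i) (Golay.idx_injective ?_)
  rw [tau_tbl, idx_pt hi, he]

theorem orderOf_tau : orderOf data.τ = 3 := by rw [cent.orderOf_tau, p_eq]

theorem reach : Reach 3 data.τ HasFix := fun ρ hρ hn => by
  rcases Three.conj_cases hρ with ⟨h, -⟩ | ⟨-, π, r, hr, hπ⟩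
  · exact absurd h hn
  rcases Three.conj_cases orderOf_tau with ⟨h, -⟩ | ⟨-, π', r', hr', hπ'⟩
  · exact absurd h tau_hasFix
  have e : r' = r := Subtype.ext (hr'.ext hr)
  refine ⟨π'⁻¹ * π, 1, ?_⟩
  rw [pow_one, show π'⁻¹ * π * ρ * (π'⁻¹ * π)⁻¹ = π'⁻¹ * (π * ρ * π⁻¹) * π' by group, hπ, ← e, ← hπ']
  group

variable {G : Type*} [Group G] [Finite G] {z : G} {Q : Subgroup (Subgroup.centralizer ({z} : Set G))}
  [Q.Normal] {e e' : (Subgroup.centralizer ({z} : Set G)) ⧸ Q ≃* Spor.Co1}
  {ψ ψ' : leechLattice → Q ⧸ Subgroup.center Q} {T : Type*} [Group T] {b : CC z}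

theorem three_dim : 2 ^ Three.data.D.length = 256 ∧ 2 ^ data.D.length = 4096 := by decide +kernel

/-- An element over the class with fixed points has a fixed point in every frame. -/
theorem hasFix_of_loc (X : Loc e ψ data T b) (hψ' : IsLeechModTwoIso Q e' ψ') {d : golayCode} {ρ : M24}
    (he : e' (QuotientGroup.mk b) = QuotientGroup.mk (signAut d * permAut ρ)) (hρ : orderOf ρ = 3) :
    HasFix ρ := by
  intro hn
  rcases Three.conj_cases hρ with ⟨-, π, hπ⟩ | ⟨h, -⟩
  swap
  · exact h hn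
  have hb3 : orderOf b = 3 := X.order.trans p_eq
  have h3 : (signAut d * permAut ρ) ^ 3 = 1 ∨ (signAut (d + oneWord) * permAut ρ) ^ 3 = 1 := by
    have h1 : (QuotientGroup.mk ((signAut d * permAut ρ) ^ 3) : Spor.Co1) = QuotientGroup.mk 1 := by
      rw [QuotientGroup.mk_pow, ← he, ← map_pow, ← QuotientGroup.mk_pow, ← hb3,
        pow_orderOf_eq_one, QuotientGroup.mk_one, map_one]
      rfl
    rcases mk_eq_or h1 with r1 | r1
    · exact Or.inl r1
    · right
      have hn2 : negAut * negAut = (1 : Co0) := co0_ext fun v p => by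
        rw [mul_smul, negAut_apply, negAut_apply, neg_neg, one_smul]
      have hc : Commute negAut (signAut d * permAut ρ) :=
        (Subgroup.mem_center_iff.1 negAut_mem_center _).symm
      rw [← signAut_mul, signAut_oneWord, show signAut d * negAut * permAut ρ = negAut * (signAut d * permAut ρ) by
        rw [Subgroup.mem_center_iff.1 negAut_mem_center (signAut d), mul_assoc], hc.mul_pow, r1, one_mul,
        pow_succ negAut 2, pow_two, hn2, one_mul, hn2]
  obtain ⟨d', he', hd'⟩ : ∃ d', e' (QuotientGroup.mk b) = QuotientGroup.mk (signAut d' * permAut ρ) ∧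
      (signAut d' * permAut ρ) ^ 3 = 1 := by
    rcases h3 with h3 | h3
    · exact ⟨d, he, h3⟩
    · refine ⟨d + oneWord, ?_, h3⟩
      rw [he, ← signAut_mul, signAut_oneWord, Subgroup.mem_center_iff.1 negAut_mem_center (signAut d), mul_assoc,
        QuotientGroup.mk_mul _ negAut, (QuotientGroup.eq_one_iff negAut).2 negAut_mem_center, one_mul]
  obtain ⟨-, a, ha⟩ := exists_unsign (p := 3) (by norm_num) hd'
  set g := signAut d' * permAut ρ
  set m := permAut π * signAut a with hmdef
  have hm : m * g * m⁻¹ = Three.data.σ := by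
    calc m * g * m⁻¹ = permAut π * (signAut a * g * (signAut a)⁻¹) * (permAut π)⁻¹ := by rw [hmdef]; group
      _ = Three.data.σ := by
        rw [ha, Data.σ, ← hπ, ← permHom_apply, ← permHom_apply, ← permHom_apply, map_mul, map_mul, map_inv]
  obtain ⟨hp3, -, hti3, hd3, hn3, -⟩ := Data.base_spec Three.ok
  have hex : ∀ x : Fin (2 ^ data.D.length), ∃ (v : leechLattice) (y : Fin (2 ^ Three.data.D.length)),
      ψ' v = ψ (combV data.B x) ∧ CongTwo (m • v) (combV Three.data.B y) := by
    intro x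
    obtain ⟨v, hv⟩ := hψ'.2.1 (ψ (combV data.B x))
    set q := liftVec ψ (combV data.B x) with hq
    have hv' : ψ' v = QuotientGroup.mk q := hv.trans (mk_liftVec _).symm
    have hfixq : Loc.bConj b q = q := by
      refine Subtype.ext ?_
      show b * (q : CC z) * b⁻¹ = q
      rw [← Loc.mem_qFix.1 (X.liftVec_mem x), mul_inv_cancel_right]
    have h1 := hψ'.2.2.2 b g he'.symm v q hv'
    have h2 : ψ' (g • v) = ψ' v := by
      rw [h1, hv']
      exact congrArg QuotientGroup.mk hfixq
    have h3 : CongTwo (Three.data.σ • (m • v)) (m • v) := by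
      rw [← mul_smul, ← hm, inv_mul_cancel_right, mul_smul]
      exact ((psi_eq_iff hψ').1 h2).smul m
    exact ⟨v, ⟨codeV Three.data.D (m • v), codeV_lt _ _⟩, hv, exists_comb hti3 hp3 hd3 hn3 h3⟩
  choose v f hfv hfm using hex
  have hinj : Function.Injective f := fun x y h => by
    have h1 := (hfm x).trans (h ▸ (hfm y).symm)
    have h2 := h1.smul m⁻¹
    rw [inv_smul_smul, inv_smul_smul] at h2
    have h4 : ψ (combV data.B x) = ψ (combV data.B y) := by
      rw [← hfv x, ← hfv y]; exact (psi_eq_iff hψ').2 h2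
    exact Fin.ext (eq_of_congTwo_combV dual_ok x.2 y.2 ((psi_eq_iff X.hψ).1 h4))
  have h := Nat.card_le_card_of_injective f hinj
  rw [Nat.card_fin, Nat.card_fin, three_dim.1, three_dim.2] at h
  norm_num at h

theorem card_joint_conj {g w b b' : G} (hgz : g * z * g⁻¹ = w) (hgw : g * w * g⁻¹ = z) (hgb : g * b * g⁻¹ = b') :
    Nat.card (Subgroup.centralizer ({z, w} : Set G) ⊓ Subgroup.centralizer ({b'} : Set G) : Subgroup G) =
      Nat.card (Subgroup.centralizer ({z, w} : Set G) ⊓ Subgroup.centralizer ({b} : Set G) : Subgroup G) := by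
  have key : ∀ a u : G, (g⁻¹ * u * g) * a = a * (g⁻¹ * u * g) ↔ u * (g * a * g⁻¹) = g * a * g⁻¹ * u := by
    intro a u
    constructor
    · intro h
      calc u * (g * a * g⁻¹) = g * (g⁻¹ * u * g * a) * g⁻¹ := by group
        _ = g * (a * (g⁻¹ * u * g)) * g⁻¹ := by rw [h]
        _ = _ := by group
    · intro h
      calc g⁻¹ * u * g * a = g⁻¹ * (u * (g * a * g⁻¹)) * g := by group
        _ = g⁻¹ * (g * a * g⁻¹ * u) * g := by rw [h]
        _ = _ := by group
  have hpair : ∀ u : G, u ∈ Subgroup.centralizer ({z, w} : Set G) ↔ u * z = z * u ∧ u * w = w * u := fun u => by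
    rw [Subgroup.mem_centralizer_iff]
    simp only [Set.mem_insert_iff, Set.mem_singleton_iff, forall_eq_or_imp, forall_eq]
    exact and_congr eq_comm eq_comm
  have hmap : (Subgroup.centralizer ({z, w} : Set G) ⊓ Subgroup.centralizer ({b} : Set G)).map
      (MulAut.conj g).toMonoidHom =
      Subgroup.centralizer ({z, w} : Set G) ⊓ Subgroup.centralizer ({b'} : Set G) := by
    ext u
    rw [Subgroup.mem_map_equiv, MulAut.conj_symm_apply, Subgroup.mem_inf, Subgroup.mem_inf,
      Subgroup.mem_centralizer_singleton_iff, Subgroup.mem_centralizer_singleton_iff, key, hgb]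
    refine and_congr ?_ Iff.rfl
    rw [hpair, hpair, key, key, hgz, hgw]
    exact and_comm
  rw [← hmap, Subgroup.card_map_of_injective (MulAut.conj g).injective]

/-- In every frame: a fixed point. -/
theorem prOf_frames (X : Loc e ψ data T b) {q : Q} (hq : q ∈ Loc.qFix b) (hc : IsConj z (qVal q)) (hne : qVal q ≠ z)
    (hψ' : IsLeechModTwoIso Q e' ψ') :
    PrOf e' ψ' q HasFix b 3 ∧
      ∀ b' : CC z, (∃ g : G, g * z * g⁻¹ = qVal q ∧ g * qVal q * g⁻¹ = z ∧ g * (b : G) * g⁻¹ = (b' : G)) →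
        PrOf e' ψ' q HasFix b' 3 := by
  refine ⟨fun _ d ρ he hρ => hasFix_of_loc X hψ' he hρ, ?_⟩
  rintro b' ⟨g, hgz, hgq, hgb⟩ hv d ρ he hρ
  have hqc := notMem_center_of_conj (settingFacts X.hS) hc hne
  have hbo : orderOf b = 3 := X.order.trans p_eq
  have hbq : (b : G) * qVal q = qVal q * (b : G) := (congrArg Subtype.val (Loc.mem_qFix.1 hq)).symm
  have hbz : (b : G) * z = z * (b : G) := Subgroup.mem_centralizer_singleton_iff.1 b.2
  have hbL : b ∈ lSub q := Subgroup.mem_centralizer_singleton_iff.2 (Subtype.ext hbq)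
  have hb'L : b' ∈ lSub q := Subgroup.mem_centralizer_singleton_iff.2 (Subtype.ext (by
    show (b' : G) * qVal q = qVal q * (b' : G)
    conv_lhs => rw [← hgb, ← hgz]
    conv_rhs => rw [← hgb, ← hgz]
    calc g * (b : G) * g⁻¹ * (g * z * g⁻¹) = g * ((b : G) * z) * g⁻¹ := by group
      _ = g * (z * (b : G)) * g⁻¹ := by rw [hbz]
      _ = _ := by group))
  have hb'o : orderOf b' = 3 := by
    rw [← Subgroup.orderOf_coe, ← hgb, ← MulAut.conj_apply, MulEquiv.orderOf_eq, Subgroup.orderOf_coe, hbo]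
  obtain ⟨d₀, ρ₀, he₀, hρ₀, hiff₀, -⟩ := Three.exists_perm X.hS hψ' hqc hv hbL hbo
  obtain ⟨d₁, ρ₁, -, -, hiff₁, huni⟩ := Three.exists_perm X.hS hψ' hqc hv hb'L hb'o
  rw [← huni d ρ he, card_joint_conj hgz hgq hgb] at hiff₁
  exact Three.not_noFix_of_dvd hρ
    (hiff₁.2 (hiff₀.1 (Three.dvd_of_not_noFix hρ₀ (hasFix_of_loc X hψ' he₀ hρ₀))))

/-- An element central in a Sylow 3-subgroup of the joint centraliser has a fixed point. -/
theorem prOf_central (hS : IsExtraspecialCentralizerSetting z Q 12) (hψ : IsLeechModTwoIso Q e ψ) {x : Q}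
    (hc : IsConj z (qVal x)) (hne : qVal x ≠ z) (Y : Subgroup G)
    (hY : Y ≤ Subgroup.centralizer ({z, qVal x} : Set G))
    (hcen : ∃ P : Sylow 3 ↥(Subgroup.centralizer ({z, qVal x} : Set G)),
      Y.subgroupOf (Subgroup.centralizer ({z, qVal x} : Set G)) ≤
        (Subgroup.center ↥(P : Subgroup ↥(Subgroup.centralizer ({z, qVal x} : Set G)))).map
          (P : Subgroup ↥(Subgroup.centralizer ({z, qVal x} : Set G))).subtype)
    {b : CC z} (hbY : (b : G) ∈ Y) (hbo : orderOf b = 3) : PrOf e ψ x HasFix b 3 := by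
  intro hv d ρ he hρ
  have := Fact.mk Nat.prime_three
  have hxc := notMem_center_of_conj (settingFacts hS) hc hne
  have hbL : b ∈ lSub x := Subgroup.mem_centralizer_singleton_iff.2
    (Subtype.ext (Subgroup.mem_centralizer_iff.1 (hY hbY) _ (Or.inr rfl)).symm)
  obtain ⟨d₀, ρ₀, -, -, hiff, huni⟩ := Three.exists_perm hS hψ hxc hv hbL hbo
  rw [← huni d ρ he] at hiff
  refine Three.not_noFix_of_dvd hρ (hiff.2 ?_)
  obtain ⟨f, hfs, hker, -⟩ := exists_toM24 hS hψ hxc hv
  set L := Subgroup.centralizer ({z, qVal x} : Set G) with hLdef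
  obtain ⟨P, hP⟩ := hcen
  set bL : L := ⟨(b : G), hY hbY⟩
  have hcard : Nat.card (Subgroup.centralizer ({bL} : Set L)) =
      Nat.card (L ⊓ Subgroup.centralizer ({(b : G)} : Set G) : Subgroup G) := by
    rw [← Subgroup.card_map_of_injective L.subtype_injective, Three.map_centralizer_subtype]
  rw [← hcard]
  obtain ⟨c', hc', hce⟩ := hP (show bL ∈ Y.subgroupOf L from hbY)
  have hle : (P : Subgroup L) ≤ Subgroup.centralizer ({bL} : Set L) := fun u hu => by
    refine Subgroup.mem_centralizer_singleton_iff.2 ?_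
    have h1 := congrArg Subtype.val (Subgroup.mem_center_iff.1 hc' ⟨u, hu⟩)
    rw [← hce]
    exact h1
  have hfac : (Nat.card L).factorization 3 = 3 := by
    rw [factorization_lSub Nat.prime_three rfl hfs hker, show (244823040 : ℕ) = 3 ^ 3 * 9067520 by norm_num,
      Nat.factorization_mul (by norm_num) (by norm_num), Finsupp.add_apply,
      Nat.Prime.factorization_pow Nat.prime_three, Finsupp.single_eq_same,
      Nat.factorization_eq_zero_of_not_dvd (by norm_num)]
  have h27 : 3 ^ 3 ∣ Nat.card (P : Subgroup L) := by rw [P.card_eq_multiplicity, hfac]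
  exact h27.trans (Subgroup.card_dvd_of_le hle)

end CfsgLib.MonsterLocal.Large
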