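import Cfsg.Agent.Lib.Leech.UnitaryTable
import Mathlib

/-!
Permutations given by packed tables, and lower bounds for the groups they generate.
-/

set_option autoImplicit false

namespace CfsgLib.MonsterLocal

open CfsgLib.Leech (tab)

variable {n : ℕ}

/-- The map with packed table `T`. -/
def tabFun (n w T : ℕ) (i : Fin n) : Fin n := ⟨tab w T i % n, Nat.mod_lt _ i.pos⟩

/-- Two tables are inverse to each other. -/
def tabInvOk (n w T Ti : ℕ) : Bool :=
  (List.finRange n).all fun i => tabFun n w T (tabFun n w Ti i) == i && tabFun n w Ti (tabFun n w T i) == i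

/-- The permutation with a table. -/
def tabPerm (n w T Ti : ℕ) (h : tabInvOk n w T Ti = true) : Equiv.Perm (Fin n) where
  toFun := tabFun n w T
  invFun := tabFun n w Ti
  left_inv i := by
    simp only [tabInvOk, List.all_eq_true, Bool.and_eq_true, beq_iff_eq, List.mem_finRange, forall_const] at h
    exact (h i).2
  right_inv i := by
    simp only [tabInvOk, List.all_eq_true, Bool.and_eq_true, beq_iff_eq, List.mem_finRange, forall_const] at h
    exact (h i).1

/-- The table describes the permutation. -/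
def IsTab (w T : ℕ) (ρ : Equiv.Perm (Fin n)) : Prop := ∀ i, ρ i = tabFun n w T i

/-- A step: `0` names a generator, `1` a product and `2` an inverse of earlier entries. -/
def stepOk (n w : ℕ) (gens : List ℕ) (prev : ℕ → ℕ) (k : ℕ) (e : (ℕ × ℕ × ℕ) × ℕ) : Bool :=
  match e.1 with
  | (0, g, _) => decide (g < gens.length) && e.2 == gens.getD g 0
  | (1, a, b) => decide (a < k) && decide (b < k) &&
      (List.finRange n).all fun i => tabFun n w e.2 i == tabFun n w (prev a) (tabFun n w (prev b) i)
  | (_, a, _) => decide (a < k) &&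
      (List.finRange n).all fun i => tabFun n w e.2 (tabFun n w (prev a) i) == i

/-- All steps. -/
def stepsOk (n w : ℕ) (gens : List ℕ) (prog : List ((ℕ × ℕ × ℕ) × ℕ)) : Bool :=
  (List.range prog.length).all fun k =>
    stepOk n w gens (fun a => (prog.getD a ((0, 0, 0), 0)).2) k (prog.getD k ((0, 0, 0), 0))

theorem exists_of_stepsOk {w : ℕ} {gens : List ℕ} {prog : List ((ℕ × ℕ × ℕ) × ℕ)}
    (h : stepsOk n w gens prog = true) (K : Subgroup (Equiv.Perm (Fin n)))
    (hg : ∀ T ∈ gens, ∃ ρ ∈ K, IsTab w T ρ) :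
    ∀ k < prog.length, ∃ ρ ∈ K, IsTab w (prog.getD k ((0, 0, 0), 0)).2 ρ := by
  simp only [stepsOk, List.all_eq_true, List.mem_range] at h
  intro k
  induction k using Nat.strong_induction_on with
  | h k ih =>
    intro hk
    have h1 := h k hk
    generalize hee : prog.getD k ((0, 0, 0), 0) = e at h1 ⊢
    obtain ⟨⟨op, a, b⟩, T⟩ := e
    match op with
    | 0 =>
      simp only [stepOk, Bool.and_eq_true, decide_eq_true_eq, beq_iff_eq] at h1
      rw [List.getD_eq_getElem _ _ h1.1] at h1
      exact h1.2 ▸ hg _ (List.getElem_mem h1.1)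
    | 1 =>
      simp only [stepOk, Bool.and_eq_true, decide_eq_true_eq, List.all_eq_true, beq_iff_eq, List.mem_finRange,
        forall_const] at h1
      obtain ⟨ρ, hρ, hρe⟩ := ih a h1.1.1 (h1.1.1.trans hk)
      obtain ⟨κ, hκ, hκe⟩ := ih b h1.1.2 (h1.1.2.trans hk)
      exact ⟨ρ * κ, K.mul_mem hρ hκ, fun i => by rw [Equiv.Perm.mul_apply, hκe, hρe, h1.2]⟩
    | m + 2 =>
      simp only [stepOk, Bool.and_eq_true, decide_eq_true_eq, List.all_eq_true, beq_iff_eq, List.mem_finRange,
        forall_const] at h1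
      obtain ⟨ρ, hρ, hρe⟩ := ih a h1.1 (h1.1.trans hk)
      refine ⟨ρ⁻¹, K.inv_mem hρ, fun i => ?_⟩
      have h2 := h1.2 (ρ⁻¹ i)
      rw [← hρe, ← Equiv.Perm.mul_apply, mul_inv_cancel, Equiv.Perm.one_apply] at h2
      exact h2.symm

/-- The transversals: the entries at each level fix the earlier base points and move the base point differently. -/
def levelsOk (n w : ℕ) (T : ℕ → ℕ) (len : ℕ) : List (Fin n) → List (Fin n × List ℕ) → Bool
  | _, [] => true
  | bs, l :: ls => (l.2.all fun k => decide (k < len) && bs.all fun b => tabFun n w (T k) b == b) &&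
      decide (l.2.map fun k => tabFun n w (T k) l.1).Nodup && levelsOk n w T len (bs ++ [l.1]) ls

theorem le_card_of_levelsOk {w : ℕ} {T : ℕ → ℕ} {len : ℕ} :
    ∀ (ls : List (Fin n × List ℕ)) (bs : List (Fin n)) (K : Subgroup (Equiv.Perm (Fin n))),
      levelsOk n w T len bs ls = true →
      (∀ k < len, (∀ b ∈ bs, tabFun n w (T k) b = b) → ∃ ρ ∈ K, IsTab w (T k) ρ) →
      (ls.map fun l => l.2.length).prod ≤ Nat.card K
  | [], _, K, _, _ => by rw [List.map_nil, List.prod_nil]; exact Nat.card_pos
  | l :: ls, bs, K, h, hK => by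
    simp only [levelsOk, Bool.and_eq_true, List.all_eq_true, decide_eq_true_eq, beq_iff_eq] at h
    obtain ⟨⟨hfix, hnd⟩, hrec⟩ := h
    set S := K ⊓ MulAction.stabilizer (Equiv.Perm (Fin n)) l.1 with hS
    have ih : (ls.map fun l => l.2.length).prod ≤ Nat.card S :=
      le_card_of_levelsOk ls (bs ++ [l.1]) S hrec fun k hk hb => by
        obtain ⟨ρ, hρ, he⟩ := hK k hk fun b hb' => hb b (List.mem_append_left _ hb')
        refine ⟨ρ, ⟨hρ, ?_⟩, he⟩
        show ρ • l.1 = l.1
        rw [Equiv.Perm.smul_def, he]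
        exact hb _ (List.mem_append_right _ (List.mem_singleton_self _))
    choose f hf hfe using fun i : Fin l.2.length =>
      hK (l.2[i]) (hfix _ (List.getElem_mem i.2)).1 (hfix _ (List.getElem_mem i.2)).2
    rw [List.map_cons, List.prod_cons]
    refine le_trans (Nat.mul_le_mul le_rfl ih) ?_
    rw [← Nat.card_fin l.2.length, ← Nat.card_prod]
    refine Nat.card_le_card_of_injective
      (fun x : Fin l.2.length × S => (⟨f x.1 * x.2, K.mul_mem (hf x.1) x.2.2.1⟩ : K)) ?_
    rintro ⟨i, s⟩ ⟨j, t⟩ e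
    have e' : f i * (s : Equiv.Perm (Fin n)) = f j * (t : Equiv.Perm (Fin n)) := congrArg Subtype.val e
    have hs : ∀ s : S, (s : Equiv.Perm (Fin n)) l.1 = l.1 := fun s => s.2.2
    have h1 := congrArg (fun ρ : Equiv.Perm (Fin n) => ρ l.1) e'
    simp only [Equiv.Perm.mul_apply, hs] at h1
    rw [hfe i l.1, hfe j l.1] at h1
    have hij : i = j := by
      refine Fin.ext ((List.Nodup.getElem_inj_iff hnd (hi := by simp) (hj := by simp)).1 ?_)
      rw [List.getElem_map, List.getElem_map]
      exact h1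
    subst hij
    rw [mul_right_inj] at e'
    exact Prod.ext rfl (Subtype.ext e')

end CfsgLib.MonsterLocal
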