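import Cfsg.Agent.Lib.MonsterLocal.DataLarge
import Cfsg.Agent.Lib.MonsterLocal.TabPerm
import Cfsg.Agent.Lib.SchurMult.U43.Model

/-!
The isometries of six squares over three elements on the 126 lines of norm one.
-/

set_option autoImplicit false
set_option maxRecDepth 20000

namespace CfsgLib.MonsterLocal.Large

open CfsgLib.Leech (tab)
open CfsgLib.ClassicalForms CfsgLib.SchurMult.U43 QuadraticMap

/-- The vector with a code. -/
def decV (c : ℕ) : V6 := fun i => ((c / 3 ^ (i : ℕ) % 3 : ℕ) : K)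

/-- The code of a vector. -/
def encV (x : V6) : ℕ :=
  (x 0).val + 3 * (x 1).val + 9 * (x 2).val + 27 * (x 3).val + 81 * (x 4).val + 243 * (x 5).val

/-- The representatives. -/
def ptV (k : Fin 126) : V6 := decV (tab 10 ptsTbl k)

/-- The number of a line. -/
def lineNo (x : V6) : Fin 126 := ⟨tab 7 lineTbl (encV x) % 126, Nat.mod_lt _ (by norm_num)⟩

theorem decV_encV : ∀ x : V6, decV (encV x) = x := by decide +kernel

theorem line_spec : ∀ x : V6, dt x x = 1 →
    (ptV (lineNo x) = x ∨ ptV (lineNo x) = -x) ∧ lineNo (-x) = lineNo x := by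
  decide +kernel

theorem pt_spec : ∀ k : Fin 126, dt (ptV k) (ptV k) = 1 ∧ lineNo (ptV k) = k := by decide +kernel

theorem dt_apply (g : O6) (x : V6) : dt ((g : V6 ≃ₗ[K] V6) x) ((g : V6 ≃ₗ[K] V6) x) = dt x x := by
  rw [← Q6_apply, ← Q6_apply, orth_apply]

theorem lineNo_mul (g h : O6) (k : Fin 126) :
    lineNo ((g : V6 ≃ₗ[K] V6) (ptV (lineNo ((h : V6 ≃ₗ[K] V6) (ptV k))))) =
      lineNo (((g * h : O6) : V6 ≃ₗ[K] V6) (ptV k)) := by
  rw [orth_mul_apply]
  have h1 : dt ((h : V6 ≃ₗ[K] V6) (ptV k)) ((h : V6 ≃ₗ[K] V6) (ptV k)) = 1 := by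
    rw [dt_apply]; exact (pt_spec k).1
  rcases (line_spec _ h1).1 with e | e <;> rw [e]
  rw [map_neg]
  exact (line_spec _ (by rw [dt_apply]; exact h1)).2

/-- The permutation of the lines. -/
def linePerm (g : O6) : Equiv.Perm (Fin 126) where
  toFun k := lineNo ((g : V6 ≃ₗ[K] V6) (ptV k))
  invFun k := lineNo (((g⁻¹ : O6) : V6 ≃ₗ[K] V6) (ptV k))
  left_inv k := by
    show lineNo _ = k
    rw [lineNo_mul, inv_mul_cancel, orth_one_apply]
    exact (pt_spec k).2
  right_inv k := by
    show lineNo _ = k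
    rw [lineNo_mul, mul_inv_cancel, orth_one_apply]
    exact (pt_spec k).2

theorem linePerm_apply (g : O6) (k : Fin 126) : linePerm g k = lineNo ((g : V6 ≃ₗ[K] V6) (ptV k)) := rfl

/-- The action on the lines. -/
def lineHom : O6 →* Equiv.Perm (Fin 126) := MonoidHom.mk' linePerm fun g h => Equiv.ext fun k => by
  rw [Equiv.Perm.mul_apply, linePerm_apply, linePerm_apply, linePerm_apply, lineNo_mul]

theorem lineHom_apply (g : O6) (k : Fin 126) : lineHom g k = lineNo ((g : V6 ≃ₗ[K] V6) (ptV k)) := rfl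

/-- The formula of a reflection in a vector of norm two. -/
def reflV (u x : V6) : V6 := x + (2 * dt x u) • u

theorem refl_two {u : V6} (hu : Q6 u ≠ 0) (h : dt u u = 2) (x : V6) :
    (refl Q6 u hu : V6 ≃ₗ[K] V6) x = reflV u x := by
  rw [refl_apply, Q6_apply, h, polar_Q6, show (2 : K)⁻¹ = 2 from inv_eq_of_mul_eq_one_right (by decide), mul_neg, neg_smul, sub_neg_eq_add]
  rfl

/-- A pair of reflections with a code. -/
def pairOk (p : ℕ × ℕ) : Bool :=
  decide (dt (decV p.1) (decV p.1) = 2) && decide (dt (decV p.2) (decV p.2) = 2) &&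
    decide (dt (decV p.1 - decV p.2) (decV p.1 - decV p.2) ≠ 0)

theorem exists_pair {p : ℕ × ℕ} (h : pairOk p = true) :
    ∃ g : O6, g ∈ Om6 ∧ ∀ x, (g : V6 ≃ₗ[K] V6) x = reflV (decV p.1) (reflV (decV p.2) x) := by
  simp only [pairOk, Bool.and_eq_true, decide_eq_true_eq] at h
  obtain ⟨⟨h1, h2⟩, h3⟩ := h
  have ha : Q6 (decV p.1) ≠ 0 := by rw [Q6_apply, h1]; decide
  have hb : Q6 (decV p.2) ≠ 0 := by rw [Q6_apply, h2]; decide
  refine ⟨refl Q6 _ ha * refl Q6 _ hb,
    pair_mem ha hb (by rw [Q6_apply, Q6_apply, h1, h2]) (by rw [Q6_apply]; exact h3), fun x => ?_⟩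
  rw [orth_mul_apply, refl_two ha h1, refl_two hb h2]

/-- The image of a vector under the pairs of a word and the extra reflection. -/
def wordV (w : List (ℕ × ℕ) × ℕ) (x : V6) : V6 :=
  w.1.foldr (fun p y => reflV (decV p.1) (reflV (decV p.2) y)) (if w.2 = 1 then reflV (decV refBase) x else x)

/-- The subgroup of the lines given by `Om6`. -/
def aSub : Subgroup (Equiv.Perm (Fin 126)) := Om6.map lineHom

theorem base_norm : dt (decV refBase) (decV refBase) = 2 := by decide +kernel

/-- The extra reflection. -/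
def baseRefl : O6 := refl Q6 (decV refBase) (by rw [Q6_apply, base_norm]; decide)

theorem exists_word {w : List (ℕ × ℕ) × ℕ} (h : w.1.all pairOk = true) (h2 : w.2 ≤ 1) :
    ∃ a ∈ Om6, ∀ x, ((a * baseRefl ^ w.2 : O6) : V6 ≃ₗ[K] V6) x = wordV w x := by
  obtain ⟨l, o⟩ := w
  induction l with
  | nil =>
    refine ⟨1, one_mem _, fun x => ?_⟩
    rcases Nat.le_one_iff_eq_zero_or_eq_one.1 h2 with r | r <;> simp only at r <;> subst r
    · rw [pow_zero, mul_one, orth_one_apply]; rfl
    · rw [pow_one, one_mul, baseRefl, refl_two _ base_norm]; rfl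
  | cons p l ih =>
    simp only [List.all_cons, Bool.and_eq_true] at h
    obtain ⟨a, ha, hae⟩ := ih h.2 h2
    obtain ⟨g, hg, hge⟩ := exists_pair h.1
    refine ⟨g * a, mul_mem hg ha, fun x => ?_⟩
    rw [mul_assoc, orth_mul_apply, hge, hae]
    rfl

/-- `Om6` acting on the lines. -/
def omLine : Om6 →* Equiv.Perm (Fin 126) := lineHom.comp Om6.subtype

theorem omLine_range : omLine.range = aSub := by
  rw [omLine, MonoidHom.range_comp, Subgroup.range_subtype, aSub]

theorem center_le_ker : Subgroup.center Om6 ≤ omLine.ker := fun z hz => by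
  rw [MonoidHom.mem_ker]
  rcases mem_center.1 hz with rfl | rfl
  · exact map_one _
  · refine Equiv.ext fun k => ?_
    show lineNo ((minus.1 : V6 ≃ₗ[K] V6) (ptV k)) = k
    rw [minus_apply, (line_spec _ (pt_spec k).1).2]
    exact (pt_spec k).2

/-- The pair used to see that the action is not trivial. -/
def somePair : ℕ × ℕ := ((refWords.getD 0 ([], 0)).1.getD 0 (0, 0))

theorem somePair_ok : pairOk somePair = true := by decide +kernel

theorem somePair_moves : ∃ k : Fin 126,
    lineNo (reflV (decV somePair.1) (reflV (decV somePair.2) (ptV k))) ≠ k := by decide +kernel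

theorem nonempty_equiv : Nonempty (G0 ≃* aSub) := by
  haveI := isSimpleGroup_G0
  set f := QuotientGroup.lift _ omLine center_le_ker with hf
  have hr : f.range = aSub := by
    rw [← omLine_range]
    ext x
    constructor
    · rintro ⟨q, rfl⟩
      obtain ⟨g, rfl⟩ := QuotientGroup.mk_surjective q
      exact ⟨g, rfl⟩
    · rintro ⟨g, rfl⟩
      exact ⟨QuotientGroup.mk g, rfl⟩
  have hinj : Function.Injective f := by
    rw [← MonoidHom.ker_eq_bot_iff]
    refine (Subgroup.Normal.eq_bot_or_eq_top (H := f.ker) inferInstance).resolve_right fun h => ?_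
    obtain ⟨g, hg, hge⟩ := exists_pair somePair_ok
    obtain ⟨k, hk⟩ := somePair_moves
    have h1 : f (QuotientGroup.mk ⟨g, hg⟩) = 1 := MonoidHom.mem_ker.1 (h ▸ Subgroup.mem_top _)
    have h2 := congrArg (fun ρ : Equiv.Perm (Fin 126) => ρ k) h1
    change lineNo ((g : V6 ≃ₗ[K] V6) (ptV k)) = k at h2
    rw [hge] at h2
    exact hk h2
  exact ⟨(MonoidHom.ofInjective hinj).trans (MulEquiv.subgroupCongr hr)⟩

theorem card_aSub : Nat.card aSub = 3265920 := by
  obtain ⟨e⟩ := nonempty_equiv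
  rw [← Nat.card_congr e.toEquiv, card_G0]

theorem isSimpleGroup_aSub : IsSimpleGroup aSub := by
  haveI := isSimpleGroup_G0
  obtain ⟨e⟩ := nonempty_equiv
  exact e.symm.isSimpleGroup

theorem conj_mem_aSub (g : O6) {a : Equiv.Perm (Fin 126)} (ha : a ∈ aSub) :
    lineHom g * a * (lineHom g)⁻¹ ∈ aSub := by
  obtain ⟨b, hb, rfl⟩ := ha
  rw [← map_inv, ← map_mul, ← map_mul]
  exact ⟨_, (inferInstance : Om6.Normal).conj_mem b hb g, rfl⟩

end CfsgLib.MonsterLocal.Large
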