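import Cfsg.Agent.Lib.MonsterLocal.LargeRest
import Cfsg.Agent.Lib.MonsterLocal.LargeLines

/-!
The centraliser of the element with six fixed points modulo its kernel: `3.U₄(3).2`.
-/

set_option autoImplicit false
set_option maxRecDepth 20000
set_option maxHeartbeats 1000000

namespace CfsgLib.MonsterLocal.Large

open Cfsg CfsgLib.Fischer2 CfsgLib.Leech
open CfsgLib.SchurMult.U43 (Om6 O6 G0)

theorem gens_ok : ∀ e ∈ genTbls, tabInvOk 378 9 e.1.1 e.1.2 = true ∧ tabInvOk 126 7 e.2.1 e.2.2 = true := by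
  decide +kernel

/-- The generators on the classes and on the triples. -/
def genPairs : List (Equiv.Perm (Fin 378) × Equiv.Perm (Fin 126)) :=
  genTbls.attach.map fun e =>
    (tabPerm 378 9 e.1.1.1 e.1.1.2 (gens_ok e.1 e.2).1, tabPerm 126 7 e.1.2.1 e.1.2.2 (gens_ok e.1 e.2).2)

/-- The group. -/
def TT : Subgroup (Equiv.Perm (Fin 378) × Equiv.Perm (Fin 126)) := Subgroup.closure {p | p ∈ genPairs}

/-- The triple of a class. -/
def blk (i : Fin 378) : Fin 126 := ⟨tab 7 blkTbl i % 126, Nat.mod_lt _ (by norm_num)⟩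

/-- A class in a triple. -/
def rep (k : Fin 126) : Fin 378 := ⟨tab 9 repTbl k % 378, Nat.mod_lt _ (by norm_num)⟩

theorem blk_rep : ∀ k, blk (rep k) = k := by decide +kernel

theorem genPairs_blk_all : (genPairs.all fun p => (List.finRange 378).all fun i => blk (p.1 i) == p.2 (blk i)) = true := by
  decide +kernel

theorem genPairs_blk : ∀ p ∈ genPairs, ∀ i, blk (p.1 i) = p.2 (blk i) := fun p hp i =>
  beq_iff_eq.1 (List.all_eq_true.1 (List.all_eq_true.1 genPairs_blk_all p hp) i (List.mem_finRange i))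

theorem blk_of_mem {p : Equiv.Perm (Fin 378) × Equiv.Perm (Fin 126)} (hp : p ∈ TT) :
    ∀ i, blk (p.1 i) = p.2 (blk i) := by
  induction hp using Subgroup.closure_induction with
  | mem p hp => exact genPairs_blk p hp
  | one => exact fun i => rfl
  | mul a b _ _ ha hb =>
    intro i
    rw [Prod.fst_mul, Prod.snd_mul, Equiv.Perm.mul_apply, Equiv.Perm.mul_apply, ha, hb]
  | inv a _ ha =>
    intro i
    rw [Prod.fst_inv, Prod.snd_inv, Equiv.Perm.eq_inv_iff_eq, ← ha, ← Equiv.Perm.mul_apply, mul_inv_cancel,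
      Equiv.Perm.one_apply]

/-- The action on the classes. -/
def fT : TT →* Equiv.Perm (Fin 378) := (MonoidHom.fst _ _).comp TT.subtype

/-- The action on the triples. -/
def qT : TT →* Equiv.Perm (Fin 126) := (MonoidHom.snd _ _).comp TT.subtype

theorem fT_injective : Function.Injective fT := by
  refine (injective_iff_map_eq_one _).2 fun p hp => Subtype.ext (Prod.ext hp (Equiv.ext fun k => ?_))
  have h := blk_of_mem p.2 (rep k)
  rw [show (p : Equiv.Perm (Fin 378) × Equiv.Perm (Fin 126)).1 = 1 from hp, Equiv.Perm.one_apply, blk_rep] at h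
  exact h.symm

/-- The action data. -/
def act : ActData 378 where
  objs i := [tab 12 objTbl i]
  perms := genPairs.map Prod.fst

theorem act_ok : actOk data act = true := by decide +kernel

theorem act_gen : Subgroup.closure {ρ | ρ ∈ act.perms} = fT.range := by
  rw [fT, MonoidHom.range_comp, Subgroup.range_subtype, TT, MonoidHom.map_closure]
  congr 1
  ext ρ
  simp [act]

theorem qT_range : qT.range = Subgroup.closure {ρ | ρ ∈ genPairs.map Prod.snd} := by
  rw [qT, MonoidHom.range_comp, Subgroup.range_subtype, TT, MonoidHom.map_closure]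
  congr 1
  ext ρ
  simp

/-! ### The image -/

/-- The table of an entry. -/
def nodeTbl (k : ℕ) : ℕ := (nodes.getD k ((0, 0, 0), 0)).2

/-- The base and transversals. -/
def levelsF : List (Fin 126 × List ℕ) := levels.map fun l => (⟨l.1 % 126, Nat.mod_lt _ (by norm_num)⟩, l.2)

theorem steps_ok : stepsOk 126 7 (genTbls.map fun e => e.2.1) nodes = true := by decide +kernel

theorem levels_ok : levelsOk 126 7 nodeTbl nodes.length [] levelsF = true ∧
    (levelsF.map fun l => l.2.length).prod = 6531840 := by decide +kernel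

theorem exists_node {k : ℕ} (hk : k < nodes.length) : ∃ ρ ∈ qT.range, IsTab 7 (nodeTbl k) ρ := by
  refine exists_of_stepsOk steps_ok qT.range (fun T hT => ?_) k hk
  obtain ⟨e, he, rfl⟩ := List.mem_map.1 hT
  refine ⟨tabPerm 126 7 e.2.1 e.2.2 (gens_ok e he).2, qT_range ▸ Subgroup.subset_closure ?_, fun i => rfl⟩
  exact List.mem_map.2 ⟨_, List.mem_map.2 ⟨⟨e, he⟩, List.mem_attach _ _, rfl⟩, rfl⟩

theorem card_range_ge : 6531840 ≤ Nat.card qT.range := by
  rw [← levels_ok.2]
  exact le_card_of_levelsOk levelsF [] qT.range levels_ok.1 fun k hk _ => exists_node hk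

theorem words_ok : (refWords.all fun w => w.1.all pairOk && decide (w.2 ≤ 1)) = true ∧
    refWords.length = genPairs.length ∧
    ∀ m < genPairs.length, ∀ k : Fin 126,
      (genPairs.getD m 1).2 k = lineNo (wordV (refWords.getD m ([], 0)) (ptV k)) := by decide +kernel

/-- The image of the extra reflection. -/
def r0 : Equiv.Perm (Fin 126) := lineHom baseRefl

theorem r0_inv : r0⁻¹ = r0 := by
  rw [r0, ← map_inv, baseRefl, CfsgLib.ClassicalForms.refl_inv]

theorem r0_conj {a : Equiv.Perm (Fin 126)} (ha : a ∈ aSub) (i : ℕ) : r0 ^ i * a * (r0 ^ i)⁻¹ ∈ aSub := by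
  rw [r0, ← map_pow]; exact conj_mem_aSub _ ha

theorem coset_of_mem {ρ : Equiv.Perm (Fin 126)} (h : ρ ∈ qT.range) :
    ∃ a ∈ aSub, ∃ i : ℕ, ρ = a * r0 ^ i := by
  rw [qT_range] at h
  induction h using Subgroup.closure_induction with
  | mem ρ hρ =>
    obtain ⟨p, hp, rfl⟩ := List.mem_map.1 hρ
    obtain ⟨m, hm, rfl⟩ := List.getElem_of_mem hp
    obtain ⟨hw, hlen, hperm⟩ := words_ok
    have hm' : m < refWords.length := hlen ▸ hm
    have h1 := List.all_eq_true.1 hw _ (List.getElem_mem hm')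
    simp only [Bool.and_eq_true, decide_eq_true_eq] at h1
    obtain ⟨a, ha, hae⟩ := exists_word h1.1 h1.2
    refine ⟨lineHom a, ⟨a, ha, rfl⟩, refWords[m].2, ?_⟩
    rw [r0, ← map_pow, ← map_mul]
    refine Equiv.ext fun k => ?_
    rw [lineHom_apply, hae]
    have h2 := hperm m hm k
    rwa [List.getD_eq_getElem _ _ hm, List.getD_eq_getElem _ _ hm'] at h2
  | one => exact ⟨1, one_mem _, 0, by simp⟩
  | mul x y _ _ hx hy =>
    obtain ⟨a, ha, i, rfl⟩ := hx
    obtain ⟨a', ha', j, rfl⟩ := hy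
    exact ⟨a * (r0 ^ i * a' * (r0 ^ i)⁻¹), mul_mem ha (r0_conj ha' i), i + j, by rw [pow_add]; group⟩
  | inv x _ hx =>
    obtain ⟨a, ha, i, rfl⟩ := hx
    refine ⟨r0 ^ i * a⁻¹ * (r0 ^ i)⁻¹, r0_conj (inv_mem ha) i, i, ?_⟩
    rw [inv_mul_cancel_right, mul_inv_rev, ← inv_pow, r0_inv]

theorem r0_pow (i : ℕ) : r0 ^ i = r0 ^ (i % 2) := by
  have h : r0 ^ 2 = 1 := by
    rw [pow_two]; nth_rewrite 1 [← r0_inv]; exact inv_mul_cancel _
  conv_lhs => rw [← Nat.div_add_mod i 2, pow_add, pow_mul, h, one_pow, one_mul]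

/-- The two cosets. -/
def cosets : Set (Equiv.Perm (Fin 126)) := (fun x : aSub × Fin 2 => (x.1 : Equiv.Perm (Fin 126)) * r0 ^ (x.2 : ℕ)) '' Set.univ

theorem ncard_cosets_le : cosets.ncard ≤ 6531840 := by
  refine le_trans (Set.ncard_image_le (Set.toFinite _)) ?_
  rw [Set.ncard_univ, Nat.card_prod, card_aSub, Nat.card_fin]

theorem range_eq : (qT.range : Set (Equiv.Perm (Fin 126))) = cosets := by
  refine Set.eq_of_subset_of_ncard_le (fun ρ hρ => ?_) ?_ (Set.toFinite _)
  · obtain ⟨a, ha, i, rfl⟩ := coset_of_mem hρ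
    exact ⟨(⟨a, ha⟩, ⟨i % 2, Nat.mod_lt _ (by norm_num)⟩), trivial, by
      show a * r0 ^ (i % 2) = a * r0 ^ i
      rw [← r0_pow]⟩
  · refine ncard_cosets_le.trans (card_range_ge.trans ?_)
    rw [← Nat.card_coe_set_eq]
    rfl

theorem aSub_le_range : aSub ≤ qT.range := fun a ha => by
  have h : a ∈ cosets := ⟨(⟨a, ha⟩, 0), trivial, by simp⟩
  rw [← range_eq] at h
  exact h

theorem card_range : Nat.card qT.range = 6531840 := by
  refine le_antisymm ?_ card_range_ge
  refine le_trans ?_ ncard_cosets_le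
  rw [← range_eq, ← Nat.card_coe_set_eq]
  rfl

/-! ### The kernel -/

/-- The product of generators along the word. -/
def omega : Equiv.Perm (Fin 378) × Equiv.Perm (Fin 126) := (omegaWord.map fun m => genPairs.getD m 1).prod

theorem omega_mem : omega ∈ TT := by
  refine Subgroup.list_prod_mem _ fun p hp => ?_
  obtain ⟨m, -, rfl⟩ := List.mem_map.1 hp
  by_cases hm : m < genPairs.length
  · rw [List.getD_eq_getElem _ _ hm]; exact Subgroup.subset_closure (List.getElem_mem hm)
  · rw [List.getD_eq_default _ _ (not_lt.1 hm)]; exact one_mem _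

theorem omega_checks : (∀ k : Fin 126, omega.2 k = k) ∧ (∃ i : Fin 378, omega.1 i ≠ i) ∧
    ∀ i : Fin 378, omega.1 (omega.1 (omega.1 i)) = i := by decide +kernel

theorem card_ker_ge : 3 ≤ Nat.card qT.ker := by
  obtain ⟨h1, ⟨i, hi⟩, h3⟩ := omega_checks
  have hk : (⟨omega, omega_mem⟩ : TT) ∈ qT.ker := Equiv.ext h1
  have hfact := Fact.mk Nat.prime_three
  have ho : orderOf (⟨omega, omega_mem⟩ : TT) = 3 := by
    refine orderOf_eq_prime (fT_injective ?_) fun h => hi ?_
    · rw [map_pow, map_one]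
      exact Equiv.ext h3
    · have := congrArg (fun p : TT => fT p i) h
      simpa [fT] using this
  calc 3 = Nat.card (Subgroup.zpowers (⟨omega, omega_mem⟩ : TT)) := by rw [Nat.card_zpowers, ho]
    _ ≤ _ := Subgroup.card_le_of_le (Subgroup.zpowers_le.2 hk)

theorem card_TT_eq : Nat.card TT = Nat.card qT.ker * Nat.card qT.range := by
  rw [← Subgroup.card_mul_index qT.ker, Subgroup.index_ker]

theorem p_eq : data.p = 3 := by rw [data]

theorem count_eq : data.orb.length * 2 ^ data.fb.length * data.perms.length = 117573120 := by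
  rw [orb_len, perms_len]; decide +kernel

theorem cent : CentHom data TT :=
  centHom ok (fun h hh x hx => rest_spec h hh x hx) Nat.prime_three pow_ok not_id act act_ok fT fT_injective
    act_gen (by
      rw [count_eq, card_TT_eq, card_range]
      have := card_ker_ge
      rw [p_eq]
      omega)

theorem card_TT : Nat.card TT = 19595520 := by
  have hlow : 19595520 ≤ Nat.card TT := by
    rw [card_TT_eq, card_range]; have := card_ker_ge; omega
  refine le_antisymm ?_ hlow
  have := finite_Co0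
  set C := Subgroup.centralizer ({data.σ} : Set Co0) with hCdef
  obtain ⟨π, hπs, hπk, -⟩ := cent.exists_hom
  have hC : Nat.card C ≤ 117573120 := count_eq ▸ le_trans
    (Subgroup.card_le_of_le fun g hg => Data.mem_gen ok (fun h hh => rest_spec h hh)
      (Subgroup.mem_centralizer_singleton_iff.1 hg))
    (Data.card_gen_le ok fun h hh => rest_spec h hh)
  have hneg1 : negAut ≠ (1 : Co0) := fun e => by
    have := congrArg (fun g : Co0 => coordVec (g • axisVec none) none) e
    simp only [coordVec_negAut, one_smul, coordVec_axisVec, if_true] at this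
    norm_num at this
  have hneg2 : negAut ^ 2 = (1 : Co0) := co0_ext fun v p => by
    rw [pow_two, mul_smul, negAut_apply, negAut_apply, neg_neg, one_smul]
  have hcu : Commute data.σ negAut := Subgroup.mem_center_iff.1 negAut_mem_center data.σ
  have hfact := Fact.mk Nat.prime_two
  have hordu : orderOf (data.σ * negAut) = 6 := by
    rw [Commute.orderOf_mul_eq_mul_orderOf_of_coprime hcu, cent.order, orderOf_eq_prime hneg2 hneg1]
    · rw [p_eq]
    · rw [cent.order, orderOf_eq_prime hneg2 hneg1, p_eq]; decide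
  have hu : data.σ * negAut ∈ C := Subgroup.mem_centralizer_singleton_iff.2 (by
    rw [mul_assoc, ← hcu.eq])
  have hk : 6 ≤ Nat.card π.ker := by
    rw [← hordu, ← Subgroup.orderOf_mk (H := Subgroup.centralizer ({data.σ} : Set Co0)) _ hu, ← Nat.card_zpowers]
    refine Subgroup.card_le_of_le (Subgroup.zpowers_le.2 (MonoidHom.mem_ker.2 ?_))
    exact (hπk _).2 ⟨1, Or.inr (by rw [pow_one])⟩
  have h1 := Subgroup.card_mul_index π.ker
  rw [Subgroup.index_ker, MonoidHom.range_eq_top.2 hπs, Subgroup.card_top] at h1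
  nlinarith

theorem card_ker : Nat.card qT.ker = 3 := by
  have h := card_TT_eq
  rw [card_TT, card_range] at h
  omega

/-- The preimage of `U₄(3)`. -/
def MM : Subgroup TT := aSub.comap qT

theorem normal_MM : MM.Normal := ⟨fun n hn g => by
  obtain ⟨a, ha, i, he⟩ := coset_of_mem ⟨g, rfl⟩
  show qT (g * n * g⁻¹) ∈ aSub
  rw [map_mul, map_mul, map_inv, he]
  have h : r0 ^ i * qT n * (r0 ^ i)⁻¹ ∈ aSub := r0_conj hn i
  have e : a * r0 ^ i * qT n * (a * r0 ^ i)⁻¹ = a * (r0 ^ i * qT n * (r0 ^ i)⁻¹) * a⁻¹ := by group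
  rw [e]
  exact mul_mem (mul_mem ha h) (inv_mem ha)⟩

theorem index_MM : MM.index = 2 := by
  rw [MM, Subgroup.index_comap, Subgroup.relIndex]
  have h := Subgroup.card_mul_index (aSub.subgroupOf qT.range)
  rw [Nat.card_congr (Subgroup.subgroupOfEquivOfLe aSub_le_range).toEquiv, card_aSub, card_range] at h
  omega

/-- The map onto `U₄(3)`. -/
def mMap : MM →* aSub := (qT.comp MM.subtype).codRestrict aSub fun g => g.2

theorem mMap_surjective : Function.Surjective mMap := by
  rintro ⟨a, ha⟩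
  obtain ⟨g, hg⟩ := aSub_le_range ha
  exact ⟨⟨g, show qT g ∈ aSub by rw [hg]; exact ha⟩, Subtype.ext hg⟩

theorem mMap_eq_one {g : MM} : mMap g = 1 ↔ qT (g : TT) = 1 := Subtype.ext_iff

/-! ### No normal 2-subgroup -/

theorem move_checks : (∀ k : Fin 126, (levelsF.getD 0 (0, [])).2.any fun n => decide (n < nodes.length) &&
      tabFun 126 7 (nodeTbl n) 0 == k) ∧
    (fixers.all fun n => decide (n < nodes.length) && tabFun 126 7 (nodeTbl n) 0 == 0) = true ∧
    ∀ k : Fin 126, (fixers.all fun n => tabFun 126 7 (nodeTbl n) k == k) = true → k = 0 := by decide +kernel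

theorem eq_one_of_commute {x : Equiv.Perm (Fin 126)} (h : ∀ g ∈ qT.range, g * x = x * g) : x = 1 := by
  obtain ⟨hmove, hfix, honly⟩ := move_checks
  simp only [List.all_eq_true, Bool.and_eq_true, decide_eq_true_eq, beq_iff_eq] at hfix
  have h0 : x 0 = 0 := honly _ (by
    simp only [List.all_eq_true, beq_iff_eq]
    intro n hn
    obtain ⟨h1, h2⟩ := hfix n hn
    obtain ⟨ρ, hρ, hρe⟩ := exists_node h1
    have h3 := congrArg (fun q : Equiv.Perm (Fin 126) => q 0) (h ρ hρ)
    simp only [Equiv.Perm.mul_apply] at h3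
    rw [hρe (x 0), hρe 0, h2] at h3
    exact h3)
  refine Equiv.ext fun k => ?_
  have hk := hmove k
  simp only [List.any_eq_true, Bool.and_eq_true, decide_eq_true_eq, beq_iff_eq] at hk
  obtain ⟨n, -, hn, hk⟩ := hk
  obtain ⟨ρ, hρ, hρe⟩ := exists_node hn
  rw [← hρe 0] at hk
  rw [Equiv.Perm.one_apply, ← hk, ← Equiv.Perm.mul_apply, ← h ρ hρ, Equiv.Perm.mul_apply, h0]

theorem no_normal_two (N : Subgroup TT) [N.Normal] (hN : IsPGroup 2 N) : N = ⊥ := by
  have hfact2 := Fact.mk Nat.prime_two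
  set K := N.map qT with hK
  have hKp : IsPGroup 2 K := hN.map qT
  have hKn : ∀ g ∈ qT.range, ∀ x ∈ K, g * x * g⁻¹ ∈ K := by
    rintro _ ⟨t, rfl⟩ _ ⟨n, hn, rfl⟩
    rw [← map_inv, ← map_mul, ← map_mul]
    exact ⟨_, (inferInstance : N.Normal).conj_mem n hn t, rfl⟩
  haveI := isSimpleGroup_aSub
  set L := K.subgroupOf aSub with hL
  have hLn : L.Normal := ⟨fun n hn g => hKn _ (aSub_le_range g.2) _ hn⟩
  have hKA : ∀ x ∈ K, x ∈ aSub → x = 1 := by
    intro x hx hxa
    rcases hLn.eq_bot_or_eq_top with h | h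
    · have : (⟨x, hxa⟩ : aSub) ∈ L := hx
      rw [h, Subgroup.mem_bot] at this
      exact congrArg Subtype.val this
    · exfalso
      have hLp : IsPGroup 2 L := hKp.comap_of_injective aSub.subtype Subtype.val_injective
      obtain ⟨k, hk⟩ := IsPGroup.iff_card.1 hLp
      rw [h, Subgroup.card_top, card_aSub] at hk
      have h3 : 3 ∣ 2 ^ k := hk ▸ by norm_num
      exact absurd (Nat.prime_three.dvd_of_dvd_pow h3) (by norm_num)
  have hK1 : ∀ x ∈ K, x = 1 := by
    intro x hx
    by_contra hx1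
    refine hx1 (eq_one_of_commute fun g hg => ?_)
    have hxr : ∀ y ∈ K, y ∈ qT.range := fun y hy => by
      obtain ⟨n, -, rfl⟩ := hy; exact ⟨n, rfl⟩
    obtain ⟨a, ha, i, hxe⟩ := coset_of_mem (hxr x hx)
    have hy := hKn g hg x hx
    obtain ⟨a', ha', j, hye⟩ := coset_of_mem (hxr _ hy)
    rw [r0_pow] at hxe hye
    have hy1 : g * x * g⁻¹ ≠ 1 := fun h => hx1 (conj_eq_one_iff.1 h)
    have hi : i % 2 = 1 := by
      by_contra h
      rw [show i % 2 = 0 by omega, pow_zero, mul_one] at hxe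
      exact hx1 (hKA x hx (hxe ▸ ha))
    have hj : j % 2 = 1 := by
      by_contra h
      rw [show j % 2 = 0 by omega, pow_zero, mul_one] at hye
      exact hy1 (hKA _ hy (hye ▸ ha'))
    rw [hi] at hxe
    rw [hj] at hye
    have h1 : g * x * g⁻¹ * x⁻¹ ∈ aSub := by
      rw [hye, hxe, mul_inv_rev, mul_assoc, ← mul_assoc (r0 ^ 1), mul_inv_cancel, one_mul]
      exact mul_mem ha' (inv_mem ha)
    exact mul_inv_eq_iff_eq_mul.1 (mul_inv_eq_one.1 (hKA _ (mul_mem hy (inv_mem hx)) h1))
  rw [eq_bot_iff]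
  intro n hn
  have hker : N ≤ qT.ker := fun m hm => hK1 _ ⟨m, hm, rfl⟩
  obtain ⟨k, hk⟩ := IsPGroup.iff_card.1 hN
  have hdvd := Subgroup.card_dvd_of_le hker
  rw [hk, card_ker] at hdvd
  rcases (Nat.dvd_prime Nat.prime_three).1 hdvd with h | h
  · rw [Subgroup.card_eq_one.1 (hk.trans h)] at hn
    exact hn
  · exfalso
    rcases Nat.eq_zero_or_pos k with rfl | hk0
    · norm_num at h
    · have h2 : 2 ∣ 3 := h ▸ dvd_pow_self 2 hk0.ne'
      norm_num at h2

end CfsgLib.MonsterLocal.Large
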