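import Cfsg.Agent.Lib.MonsterLocal.DataLarge

/-!
The kernel checks for the element with six fixed points: the three orbits of classes.
-/

set_option autoImplicit false
set_option Elab.async false
set_option maxRecDepth 20000

namespace CfsgLib.MonsterLocal.Large

open CfsgLib.Leech (tab memTest dotL)

/-- The classes of a table form part of one orbit. -/
def seqOk (O G P len : ℕ) : Bool :=
  (List.range len).all fun i => i == 0 ||
    (decide (tab 11 P i < i) && decide (tab 4 G i < data.ops.length) &&
      xorImg (data.imgs.getD (tab 4 G i) []) (tab 12 O (tab 11 P i)) == tab 12 O i)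

theorem orb_seq : seqOk orbTbl orbGen orbPrev 1701 = true := by decide +kernel

theorem min_seq : seqOk minOrbTbl minOrbGen minOrbPrev 378 = true := by decide +kernel

theorem mid_seq : seqOk midOrbTbl midOrbGen midOrbPrev 2016 = true := by decide +kernel

/-- The set of a list as the bits of a number. -/
def bitsSet (l : List ℕ) : ℕ := l.foldr (fun x a => a ||| 2 ^ x) 0

theorem mem_of_testBit_bitsSet {j : ℕ} : ∀ {l : List ℕ}, (bitsSet l).testBit j = true → j ∈ l
  | [], h => by simp [bitsSet] at h
  | a :: l, h => by
    have e : bitsSet (a :: l) = bitsSet l ||| 2 ^ a := rfl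
    rw [e, Nat.testBit_or, Bool.or_eq_true, Nat.testBit_two_pow, decide_eq_true_eq] at h
    rcases h with h | h
    · exact List.mem_cons_of_mem _ (mem_of_testBit_bitsSet h)
    · exact h ▸ List.mem_cons_self

theorem cover_ok : bitsSet (data.orb ++ data.rest) = 2 ^ 4096 - 1 := by decide +kernel

theorem orb_bound : (data.orb.all fun x => decide (x < 4096)) = true := by decide +kernel

theorem orb_head : sameClass Data.axisL (combL data.B (tab 12 orbTbl 0)) = true := by decide +kernel

theorem orb_len : data.orb.length = 1701 := by rw [data]; simp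

theorem orb_get {i : ℕ} (hi : i < 1701) : data.orb.getD i 0 = tab 12 orbTbl i := by
  rw [List.getD_eq_getElem _ _ (by rw [orb_len]; exact hi)]
  simp [data]

theorem orbPar_get {i : ℕ} (hi : i < 1701) :
    data.orbPar.getD i (0, 0) = (tab 4 orbGen i, tab 11 orbPrev i) := by
  rw [List.getD_eq_getElem _ _ (by simp [data, hi])]
  simp [data]

theorem dlen : 2 ^ data.D.length = 4096 := by decide +kernel

theorem orb_ok : data.orbOk = true := by
  have hb := orb_bound
  have hs := orb_seq
  simp only [seqOk, List.all_eq_true, List.mem_range, Bool.or_eq_true, decide_eq_true_eq, beq_iff_eq,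
    Bool.and_eq_true] at hb hs
  simp only [Data.orbOk, orb_len, dlen, Bool.and_eq_true, List.all_eq_true, List.mem_range, Bool.or_eq_true,
    decide_eq_true_eq, beq_iff_eq, List.contains_iff_mem]
  refine ⟨⟨⟨⟨⟨by norm_num, ?_⟩, hb⟩, fun i hi => ?_⟩, ?_⟩, fun x hx => ?_⟩
  · rw [orb_get (by norm_num)]; exact orb_head
  · rcases hs i hi with r | ⟨⟨r1, r2⟩, r3⟩
    · exact Or.inl r
    · refine Or.inr ?_
      rw [orbPar_get hi, orb_get hi, orb_get (r1.trans hi)]
      exact ⟨⟨r1, r2⟩, r3⟩
  · intro v hv
    exact absurd hv (by rw [data]; exact List.not_mem_nil)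
  · refine Or.inl (List.mem_append.1 (mem_of_testBit_bitsSet ?_))
    rw [cover_ok, Nat.testBit_two_pow_sub_one]
    exact decide_eq_true hx

end CfsgLib.MonsterLocal.Large
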