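import Cfsg.Agent.Lib.MonsterLocal.DataLarge

/-!
The kernel checks for the element with six fixed points: its centraliser in the permutation group.
-/

set_option autoImplicit false
set_option Elab.async false
set_option maxRecDepth 20000

namespace CfsgLib.MonsterLocal.Large

open CfsgLib.Leech (tab)
open CfsgLib.Golay (isIdTbl isCompTbl)

theorem perms_head : (isIdTbl (tab 120 permTbl 0) && (List.range 1080).all fun i => i == 0 ||
    (decide (tab 11 parPrev i < i) && decide (tab 4 parGen i < data.gts.length) &&
      isCompTbl (tab 120 permTbl i) (data.gts.getD (tab 4 parGen i) (0, 0)).1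
        (tab 120 permTbl (tab 11 parPrev i)))) = true := by decide +kernel

theorem perms_succ : ((List.range data.gts.length).all fun g => (List.range 1080).all fun i =>
    decide (tab 11 (succTbl.getD g 0) i < 1080) &&
      isCompTbl (tab 120 permTbl (tab 11 (succTbl.getD g 0) i)) (data.gts.getD g (0, 0)).1
        (tab 120 permTbl i)) = true := by decide +kernel

theorem succ_length : succTbl.length = data.gts.length := by decide +kernel

theorem perms_len : data.perms.length = 1080 := by rw [data]; simp

theorem perms_get {i : ℕ} (hi : i < 1080) : data.perms.getD i 0 = tab 120 permTbl i := by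
  rw [List.getD_eq_getElem _ _ (by rw [perms_len]; exact hi)]
  simp [data]

theorem parents_get {i : ℕ} (hi : i < 1080) :
    data.parents.getD i (0, 0) = (tab 4 parGen i, tab 11 parPrev i) := by
  rw [List.getD_eq_getElem _ _ (by simp [data, hi])]
  simp [data]

theorem succ_get {g i : ℕ} (hg : g < succTbl.length) (hi : i < 1080) :
    (data.succ.getD g []).getD i 0 = tab 11 (succTbl.getD g 0) i := by
  rw [List.getD_eq_getElem (l := succTbl) _ hg,
    List.getD_eq_getElem (l := data.succ) _ (by simp [data, hg])]
  simp [data, hi]

theorem perms_ok : data.permsOk = true := by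
  have h1 := perms_head
  have h2 := perms_succ
  simp only [Bool.and_eq_true, List.all_eq_true, List.mem_range, Bool.or_eq_true, decide_eq_true_eq,
    beq_iff_eq] at h1 h2
  simp only [Data.permsOk, perms_len, Bool.and_eq_true, List.all_eq_true, List.mem_range, Bool.or_eq_true,
    decide_eq_true_eq, beq_iff_eq]
  refine ⟨⟨⟨?_, by norm_num⟩, fun i hi => ?_⟩, fun g hg i hi => ?_⟩
  · rw [perms_get (by norm_num)]; exact h1.1
  · rcases h1.2 i hi with r | ⟨⟨r1, r2⟩, r3⟩
    · exact Or.inl r
    · refine Or.inr ?_
      rw [parents_get hi, perms_get hi, perms_get (r1.trans hi)]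
      exact ⟨⟨r1, r2⟩, r3⟩
  · obtain ⟨r1, r2⟩ := h2 g hg i hi
    rw [succ_get (succ_length ▸ hg) hi, perms_get r1, perms_get hi]
    exact ⟨r1, r2⟩

theorem chains_ok : data.chainsOk = true := by decide +kernel

end CfsgLib.MonsterLocal.Large
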