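import Cfsg.Agent.Lib.MonsterLocal.OkLargeBase
import Cfsg.Agent.Lib.MonsterLocal.OkLargePerms
import Cfsg.Agent.Lib.MonsterLocal.OkLargeOrb

/-!
The remaining classes contain short vectors up to the centraliser, so are not classes of axes.
-/

set_option autoImplicit false
set_option maxRecDepth 20000

namespace CfsgLib.MonsterLocal.Large

open Cfsg CfsgLib.Fischer2 CfsgLib.Leech

theorem ok : data.Ok := ⟨base_ok, norm_ok, mats_ok, imgs_ok, perms_ok, chains_ok, code_ok, orb_ok⟩

/-- A short vector in a class. -/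
def shortOk (v : List ℤ) (x : ℕ) : Bool :=
  memTest v && decide (dotL v v < 64) && sameClass v (combL data.B x)

theorem rep_checks : shortOk (unp minOrbRep) (tab 12 minOrbTbl 0) = true ∧
    shortOk (unp midOrbRep) (tab 12 midOrbTbl 0) = true ∧ shortOk zeroL 0 = true := by decide +kernel

theorem not_short {h : Co0} {v : List ℤ} {x : ℕ} (hv : shortOk v x = true) :
    ¬ CongTwo (h • vecA) (combV data.B x) := by
  intro hc
  simp only [shortOk, Bool.and_eq_true, decide_eq_true_eq] at hv
  obtain ⟨⟨hm, hn64⟩, hsc⟩ := hv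
  obtain ⟨hB, -⟩ := dualOk_spec dual_ok
  have hl : v.length = 24 := by
    simp only [memTest, Bool.and_eq_true, decide_eq_true_eq] at hm
    exact hm.1
  obtain ⟨c1, c2⟩ := combL_spec hB x
  have h2 := congTwo_of_sameClass hl c1 (coordVec_vecOf hm).symm c2 hsc
  have hA : sqNorm (coordVec (h • vecA)) = 64 := by rw [sqNorm_smul', sqNorm_vecA]
  have hV : sqNorm (coordVec (vecOf v)) < 64 := by
    rw [coordVec_vecOf hm, ← dotInt_self, dotInt_toVec hl hl]; exact hn64
  rcases congTwo_cases (hc.trans h2.symm) (le_of_eq hA) hV.le with r | r | ⟨-, r, -⟩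
  · rw [r] at hA; omega
  · rw [r] at hA
    have : sqNorm (coordVec (-vecOf v)) = sqNorm (coordVec (vecOf v)) :=
      Finset.sum_congr rfl fun p _ => neg_sq _
    omega
  · omega

theorem exists_reach {O GT P len : ℕ} (h : seqOk O GT P len = true) :
    ∀ i < len, ∃ g : Co0, CongTwo (g • combV data.B (tab 12 O 0)) (combV data.B (tab 12 O i)) := by
  simp only [seqOk, List.all_eq_true, List.mem_range, Bool.or_eq_true, decide_eq_true_eq, beq_iff_eq,
    Bool.and_eq_true] at h
  intro i
  induction i using Nat.strong_induction_on with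
  | h i ih =>
    intro hi
    rcases h i hi with r | ⟨⟨r1, r2⟩, r3⟩
    · subst r; exact ⟨1, by rw [one_smul]; exact CongTwo.refl _⟩
    · obtain ⟨g, hg⟩ := ih _ r1 (r1.trans hi)
      refine ⟨(data.ops[tab 4 GT i]).el * g, ?_⟩
      rw [mul_smul, ← r3]
      exact (hg.smul _).trans (Data.smul_op ok r2 _)

theorem rest_spec (h : Co0) (_hcomm : h * data.σ = data.σ * h) :
    ∀ x ∈ data.rest, ¬ CongTwo (h • vecA) (combV data.B x) := by
  intro x hx hc
  have key : ∀ {O GT P len : ℕ} {v : List ℤ}, seqOk O GT P len = true → shortOk v (tab 12 O 0) = true →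
      ∀ i < len, x ≠ tab 12 O i := by
    intro O GT P len v hs hv i hi he
    obtain ⟨g, hg⟩ := exists_reach hs i hi
    refine not_short (h := g⁻¹ * h) hv ?_
    rw [mul_smul]
    have := (hc.trans (by rw [he]; exact hg.symm)).smul g⁻¹
    rwa [inv_smul_smul] at this
  have hx' : x ∈ (List.range 378).map (fun i => tab 12 minOrbTbl i) ++
      (List.range 2016).map (fun i => tab 12 midOrbTbl i) ++ [0] := hx
  rcases List.mem_append.1 hx' with hx' | hx'
  · rcases List.mem_append.1 hx' with hx' | hx' <;> obtain ⟨i, hi, rfl⟩ := List.mem_map.1 hx'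
    · exact key min_seq rep_checks.1 i (List.mem_range.1 hi) rfl
    · exact key mid_seq rep_checks.2.1 i (List.mem_range.1 hi) rfl
  · rw [List.mem_singleton] at hx'
    exact not_short (h := h) rep_checks.2.2 (hx' ▸ hc)

end CfsgLib.MonsterLocal.Large
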