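import Cfsg.Agent.Lib.MonsterLocal.LargeFrame

/-!
The normal subgroups of an extension by `3.U₄(3).2`.
-/

set_option autoImplicit false

namespace CfsgLib.MonsterLocal.Large

open Cfsg

theorem exists_normals {D : Type*} [Group D] [Finite D] (R : Subgroup D) [R.Normal] (ε : D ⧸ R ≃* TT) :
    ∃ (N M : Subgroup D) (_ : N.Normal) (_ : M.Normal),
      R ≤ N ∧ N ≤ M ∧ Nat.card N = 3 * Nat.card R ∧
      (∃ (K : Type) (_ : Field K) (_ : Fintype K), Fintype.card K = 9 ∧
        Nonempty (M ⧸ N.subgroupOf M ≃* PSU 4 K 3)) ∧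
      M.index = 2 := by
  set φ : D →* TT := ε.toMonoidHom.comp (QuotientGroup.mk' R) with hφ
  have hφs : Function.Surjective φ := ε.surjective.comp (QuotientGroup.mk'_surjective R)
  have hφk : ∀ d, φ d = 1 ↔ d ∈ R := fun d => by
    rw [hφ, MonoidHom.comp_apply, MulEquiv.coe_toMonoidHom, ← map_one ε, ε.injective.eq_iff,
      QuotientGroup.mk'_apply, QuotientGroup.eq_one_iff]
  haveI := normal_MM
  set N := qT.ker.comap φ with hN
  set M := MM.comap φ with hM
  have hNM : N ≤ M := fun d hd => by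
    show qT (φ d) ∈ aSub
    rw [show qT (φ d) = 1 from hd]; exact one_mem _
  have hcard : Nat.card N = 3 * Nat.card R := by
    let f : N →* qT.ker := (φ.comp N.subtype).codRestrict qT.ker fun d => d.2
    have hfs : Function.Surjective f := by
      rintro ⟨t, ht⟩
      obtain ⟨d, rfl⟩ := hφs t
      exact ⟨⟨d, ht⟩, rfl⟩
    have hfk : Nat.card f.ker = Nat.card R := by
      refine Nat.card_eq_of_bijective (fun a => ⟨((a : N) : D), (hφk _).1
        (congrArg Subtype.val (MonoidHom.mem_ker.1 a.2) :)⟩)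
        ⟨fun a a' h => Subtype.ext (Subtype.ext (congrArg Subtype.val h :)), ?_⟩
      rintro ⟨d, hd⟩
      exact ⟨⟨⟨d, show φ d ∈ qT.ker by rw [(hφk d).2 hd]; exact one_mem _⟩,
        MonoidHom.mem_ker.2 (Subtype.ext ((hφk d).2 hd))⟩, rfl⟩
    rw [← Subgroup.card_mul_index f.ker, Subgroup.index_ker, MonoidHom.range_eq_top.2 hfs, Subgroup.card_top,
      card_ker, hfk, mul_comm]
  haveI := Fintype.ofFinite (GaloisField 3 2)
  refine ⟨N, M, inferInstance, inferInstance, fun d hd => ?_, hNM, hcard,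
    ⟨GaloisField 3 2, inferInstance, inferInstance, SchurMult.U43.card_nine, ?_⟩, ?_⟩
  · show φ d ∈ qT.ker
    rw [(hφk d).2 hd]; exact one_mem _
  · obtain ⟨e₁⟩ := SchurMult.U43.nonempty_psu (F := GaloisField 3 2) SchurMult.U43.card_nine
    obtain ⟨e₂⟩ := nonempty_equiv
    let g : M →* aSub := mMap.comp ((φ.comp M.subtype).codRestrict MM fun d => d.2)
    have hgs : Function.Surjective g := fun a => by
      obtain ⟨⟨t, ht⟩, hta⟩ := mMap_surjective a
      obtain ⟨d, rfl⟩ := hφs t
      exact ⟨⟨d, ht⟩, hta⟩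
    have hgk : g.ker = N.subgroupOf M := by
      ext d
      rw [MonoidHom.mem_ker, Subgroup.mem_subgroupOf]
      exact mMap_eq_one
    exact ⟨((QuotientGroup.quotientMulEquivOfEq hgk.symm).trans
      (QuotientGroup.quotientKerEquivOfSurjective g hgs)).trans (e₂.symm.trans e₁)⟩
  · rw [hM, Subgroup.index_comap_of_surjective _ hφs, index_MM]

end CfsgLib.MonsterLocal.Large
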