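import Cfsg.Agent.Lib.MonsterLocal.Act
import Cfsg.Agent.Lib.Fischer2.BabyMonster

/-!
In a group of Monster type: the centraliser in `C/Q` and in `Q` of an element `b` of odd prime
order of `C` lying over a known element of `Co0`, and the centraliser of `z` in `C(⟨b⟩)/⟨b⟩`.
-/

set_option autoImplicit false

namespace CfsgLib.MonsterLocal

open Cfsg CfsgLib.Fischer2 CfsgLib.Leech

variable {G : Type*} [Group G] [Finite G] {z : G}

/-- The centraliser of `z`. -/
abbrev CC (z : G) : Subgroup G := Subgroup.centralizer ({z} : Set G)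

variable {Q : Subgroup (Subgroup.centralizer ({z} : Set G))}
  [Q.Normal] {e : (Subgroup.centralizer ({z} : Set G)) ⧸ Q ≃* Spor.Co1}
  {ψ : leechLattice → Q ⧸ Subgroup.center Q} {c : Data} {T : Type*} [Group T] {b : CC z}

theorem mk_eq_or {g g' : Co0} (h : (QuotientGroup.mk g : Spor.Co1) = QuotientGroup.mk g') :
    g = g' ∨ g = g' * negAut := by
  rw [QuotientGroup.eq] at h
  rcases center_co0 h with r | r
  · exact Or.inl (inv_mul_eq_one.1 r)
  · right
    have e2 : g' = g * negAut := inv_mul_eq_iff_eq_mul.1 r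
    have hn : negAut * negAut = (1 : Co0) := co0_ext fun v p => by
      rw [mul_smul, negAut_apply, negAut_apply, neg_neg, one_smul]
    rw [e2, mul_assoc, hn, mul_one]

/-- The hypotheses: `b` lies over the element of the data. -/
structure Loc (e : (Subgroup.centralizer ({z} : Set G)) ⧸ Q ≃* Spor.Co1)
    (ψ : leechLattice → Q ⧸ Subgroup.center Q) (c : Data) (T : Type*) [Group T] (b : CC z) : Prop where
  hS : IsExtraspecialCentralizerSetting z Q 12
  hψ : IsLeechModTwoIso Q e ψ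
  ok : c.Ok
  prime : c.p.Prime
  cent : CentHom c T
  order : orderOf b = c.p
  img : e (QuotientGroup.mk b) = QuotientGroup.mk c.σ

namespace Loc

theorem mk_sigma_ne_one (X : Loc e ψ c T b) : (QuotientGroup.mk c.σ : Spor.Co1) ≠ 1 := by
  intro h
  have h1 := orderOf_dvd_of_pow_eq_one (x := c.σ) (n := 2) (by
    rcases center_co0 ((QuotientGroup.eq_one_iff _).1 h) with r | r <;> rw [r]
    · exact one_pow _
    · exact co0_ext fun v p => by rw [pow_two, mul_smul, negAut_apply, negAut_apply, neg_neg, one_smul])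
  rw [X.cent.order] at h1
  have := (Data.base_spec X.ok).1
  rcases (Nat.dvd_prime Nat.prime_two).1 h1 with h2 | h2
  · exact X.prime.ne_one h2
  · omega

theorem card_Q (X : Loc e ψ c T b) : Nat.card Q = 2 ^ 25 := X.hS.2.2.2.1

theorem order_mk (X : Loc e ψ c T b) : orderOf (QuotientGroup.mk b : CC z ⧸ Q) = c.p := by
  have := Fact.mk X.prime
  refine orderOf_eq_prime ?_ fun h => X.mk_sigma_ne_one ?_
  · rw [← QuotientGroup.mk_pow, ← X.order, pow_orderOf_eq_one, QuotientGroup.mk_one]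
  · rw [← X.img, h, map_one]

/-- An element of `Co0` carrying `σ` to a power lifts to an element carrying `b` to that power. -/
theorem exists_lift (X : Loc e ψ c T b) {g : Co0} {r : ℕ} (hr : c.σ ^ r ≠ 1)
    (hg : g * c.σ * g⁻¹ = c.σ ^ r) :
    ∃ h : CC z, e (QuotientGroup.mk h) = QuotientGroup.mk g ∧ h * b * h⁻¹ = b ^ r := by
  have hp := Fact.mk X.prime
  obtain ⟨h₀, hh₀⟩ := QuotientGroup.mk_surjective (e.symm (QuotientGroup.mk g))
  have he₀ : e (QuotientGroup.mk h₀) = QuotientGroup.mk g := by rw [hh₀, e.apply_symm_apply]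
  have hcop : r.Coprime c.p := by
    refine ((Nat.Prime.coprime_iff_not_dvd X.prime).2 fun hd => hr ?_).symm
    obtain ⟨k, rfl⟩ := hd
    rw [pow_mul, ← X.cent.order, pow_orderOf_eq_one, one_pow]
  set x := b ^ r with hx
  set y := h₀ * b * h₀⁻¹ with hy
  have hxy : (QuotientGroup.mk y : CC z ⧸ Q) = QuotientGroup.mk x := by
    apply e.injective
    rw [hy, hx, QuotientGroup.mk_mul, QuotientGroup.mk_mul, QuotientGroup.mk_inv, QuotientGroup.mk_pow,
      map_mul, map_mul, map_inv, map_pow, X.img, he₀, ← QuotientGroup.mk_inv, ← QuotientGroup.mk_mul,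
      ← QuotientGroup.mk_mul, hg, QuotientGroup.mk_pow]
  have hox : orderOf x = c.p := by
    rw [hx, Nat.Coprime.orderOf_pow (by rw [X.order]; exact hcop.symm), X.order]
  have hoy : orderOf y = c.p := by
    rw [hy, ← MulAut.conj_apply, MulEquiv.orderOf_eq, X.order]
  have homx : orderOf (QuotientGroup.mk x : CC z ⧸ Q) = c.p := by
    rw [hx, QuotientGroup.mk_pow, Nat.Coprime.orderOf_pow (by rw [X.order_mk]; exact hcop.symm), X.order_mk]
  set S := (Subgroup.zpowers (QuotientGroup.mk x : CC z ⧸ Q)).comap (QuotientGroup.mk' Q) with hSdef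
  have hxS : x ∈ S := Subgroup.mem_zpowers _
  have hyS : y ∈ S := by
    rw [hSdef, Subgroup.mem_comap, QuotientGroup.mk'_apply, hxy]; exact Subgroup.mem_zpowers _
  have hScard : Nat.card S = 2 ^ 25 * c.p := by
    have h1 := Subgroup.card_mul_index S
    rw [hSdef, Subgroup.index_comap_of_surjective _ (QuotientGroup.mk'_surjective Q)] at h1
    have h2 := Subgroup.card_mul_index (Subgroup.zpowers (QuotientGroup.mk x : CC z ⧸ Q))
    have h3 := Subgroup.card_eq_card_quotient_mul_card_subgroup Q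
    rw [Nat.card_zpowers, homx] at h2
    rw [X.card_Q, ← h2] at h3
    have hi : 0 < (Subgroup.zpowers (QuotientGroup.mk x : CC z ⧸ Q)).index :=
      Nat.pos_of_ne_zero Subgroup.index_ne_zero_of_finite
    rw [h3] at h1
    refine mul_right_cancel₀ hi.ne' ?_
    rw [h1]; ring
  have hfac : (Nat.card S).factorization c.p = 1 := by
    rw [hScard, Nat.factorization_mul (by norm_num) X.prime.ne_zero, Finsupp.add_apply,
      Nat.Prime.factorization_self X.prime, Nat.Prime.factorization_pow Nat.prime_two, Finsupp.single_apply,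
      if_neg (by have := (Data.base_spec X.ok).1; omega)]
  let P : Sylow c.p S := Sylow.ofCard (Subgroup.zpowers ⟨x, hxS⟩)
    (by rw [hfac, pow_one, Nat.card_zpowers, Subgroup.orderOf_mk, hox])
  let P' : Sylow c.p S := Sylow.ofCard (Subgroup.zpowers ⟨y, hyS⟩)
    (by rw [hfac, pow_one, Nat.card_zpowers, Subgroup.orderOf_mk, hoy])
  obtain ⟨⟨m, hmS⟩, hm⟩ := MulAction.exists_smul_eq S P' P
  have hmy : (⟨m, hmS⟩ * ⟨y, hyS⟩ * (⟨m, hmS⟩ : S)⁻¹) ∈ Subgroup.zpowers (⟨x, hxS⟩ : S) := by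
    have h1 : ((⟨m, hmS⟩ : S) • P' : Sylow c.p S).toSubgroup = Subgroup.zpowers (⟨x, hxS⟩ : S) := by
      rw [hm]; rfl
    rw [← h1, Sylow.coe_subgroup_smul]
    exact Subgroup.smul_mem_pointwise_smul _ (MulAut.conj (⟨m, hmS⟩ : S)) _ (Subgroup.mem_zpowers _)
  obtain ⟨k, hk⟩ := hmy
  have hk' : x ^ k = m * y * m⁻¹ := by
    simpa only [Subgroup.coe_zpow, Subgroup.coe_mul, InvMemClass.coe_inv] using congrArg Subtype.val hk
  obtain ⟨j, hj⟩ := hmS
  have hmk : (QuotientGroup.mk (m * y * m⁻¹) : CC z ⧸ Q) = QuotientGroup.mk x := by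
    rw [QuotientGroup.mk_mul, QuotientGroup.mk_mul, QuotientGroup.mk_inv, hxy,
      show (QuotientGroup.mk m : CC z ⧸ Q) = (QuotientGroup.mk x) ^ j from hj.symm]
    group
  have hxk : x ^ k = x := by
    have h1 : (QuotientGroup.mk x : CC z ⧸ Q) ^ k = (QuotientGroup.mk x) ^ (1 : ℤ) := by
      rw [zpow_one, ← QuotientGroup.mk_zpow, hk', hmk]
    have h2 : x ^ k = x ^ (1 : ℤ) := by
      rw [zpow_eq_zpow_iff_modEq, hox, ← homx, ← zpow_eq_zpow_iff_modEq]
      exact h1
    rwa [zpow_one] at h2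
  have hq : x ^ (-j) * m ∈ Q := by
    rw [← QuotientGroup.eq_one_iff, QuotientGroup.mk_mul,
      show (QuotientGroup.mk m : CC z ⧸ Q) = (QuotientGroup.mk x) ^ j from hj.symm, QuotientGroup.mk_zpow,
      ← zpow_add, neg_add_cancel, zpow_zero]
  refine ⟨x ^ (-j) * m * h₀, ?_, ?_⟩
  · rw [QuotientGroup.mk_mul, (QuotientGroup.eq_one_iff _).2 hq, one_mul, he₀]
  · calc x ^ (-j) * m * h₀ * b * (x ^ (-j) * m * h₀)⁻¹ = x ^ (-j) * (m * y * m⁻¹) * (x ^ (-j))⁻¹ := by
          rw [hy]; group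
      _ = x ^ (-j) * x * (x ^ (-j))⁻¹ := by rw [← hk', hxk]
      _ = b ^ r := by rw [← hx]; group

/-- The centraliser of `b` in `C`. -/
abbrev cb (b : CC z) : Subgroup (CC z) := Subgroup.centralizer ({b} : Set (CC z))

theorem exists_rep (X : Loc e ψ c T b) (k : cb b) :
    ∃ g : Subgroup.centralizer ({c.σ} : Set Co0),
      (QuotientGroup.mk (g : Co0) : Spor.Co1) = e (QuotientGroup.mk (k : CC z)) := by
  obtain ⟨g, hg⟩ := QuotientGroup.mk_surjective (e (QuotientGroup.mk (k : CC z)))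
  refine ⟨⟨g, Subgroup.mem_centralizer_singleton_iff.2 ?_⟩, hg⟩
  have hk : (k : CC z) * b = b * (k : CC z) := Subgroup.mem_centralizer_singleton_iff.1 k.2
  have h1 : (QuotientGroup.mk (g * c.σ) : Spor.Co1) = QuotientGroup.mk (c.σ * g) := by
    rw [QuotientGroup.mk_mul, QuotientGroup.mk_mul, hg, ← X.img, ← map_mul, ← map_mul, ← QuotientGroup.mk_mul,
      ← QuotientGroup.mk_mul, hk]
  rcases mk_eq_or h1 with h2 | h2
  · exact h2
  · exfalso
    have hneg : c.σ * negAut = g * c.σ * g⁻¹ := by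
      have hn : negAut * g⁻¹ = g⁻¹ * negAut := (Subgroup.mem_center_iff.1 negAut_mem_center g⁻¹).symm
      rw [h2, mul_assoc (c.σ * g), hn, ← mul_assoc (c.σ * g), mul_inv_cancel_right]
    have h3 : (c.σ * negAut) ^ c.p = 1 := by
      rw [hneg, conj_pow, ← X.cent.order, pow_orderOf_eq_one, mul_one, mul_inv_cancel]
    rw [(show Commute c.σ negAut from Subgroup.mem_center_iff.1 negAut_mem_center c.σ).mul_pow,
      ← X.cent.order, pow_orderOf_eq_one, one_mul, X.cent.order] at h3
    have hn2 : negAut * negAut = (1 : Co0) := co0_ext fun v p => by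
      rw [mul_smul, negAut_apply, negAut_apply, neg_neg, one_smul]
    obtain ⟨q, hq⟩ : ∃ q, c.p = 2 * q + 1 := ⟨c.p / 2, by have := (Data.base_spec X.ok).1; omega⟩
    rw [hq, pow_succ, pow_mul, pow_two, hn2, one_pow, one_mul] at h3
    have := congrArg (fun g : Co0 => coordVec (g • axisVec none) none) h3
    simp only [coordVec_negAut, one_smul, coordVec_axisVec, if_true] at this
    norm_num at this

/-- The map to `T`, with its properties. -/
theorem exists_map (X : Loc e ψ c T b) :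
    ∃ Φ : cb b →* T, Function.Surjective Φ ∧
      (∀ k, Φ k = 1 ↔ ∃ i : ℕ, (k : CC z) * (b ^ i)⁻¹ ∈ Q) ∧
      ∀ k : cb b, (∀ g : Co0, (QuotientGroup.mk g : Spor.Co1) = e (QuotientGroup.mk (k : CC z)) →
        ∀ x < 2 ^ c.D.length, CongTwo (g • combV c.B x) (combV c.B x)) → Φ k = 1 := by
  obtain ⟨π, hπs, hπk, hπt⟩ := X.cent.exists_hom
  have hneg : ∀ g g' : Subgroup.centralizer ({c.σ} : Set Co0),
      (g : Co0) = (g' : Co0) * negAut → π g = π g' := by
    intro g g' h
    have h1 : π (g'⁻¹ * g) = 1 := (hπk _).2 ⟨0, Or.inr (by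
      simp only [Subgroup.coe_mul, InvMemClass.coe_inv, h, inv_mul_cancel_left, pow_zero, one_mul])⟩
    rw [map_mul, map_inv, inv_mul_eq_one] at h1
    exact h1.symm
  have hwd : ∀ g g' : Subgroup.centralizer ({c.σ} : Set Co0),
      (QuotientGroup.mk (g : Co0) : Spor.Co1) = QuotientGroup.mk (g' : Co0) → π g = π g' := by
    intro g g' h
    rcases mk_eq_or h with r | r
    · rw [show g = g' from Subtype.ext r]
    · exact hneg g g' r
  choose f hf using X.exists_rep
  let Φ : cb b →* T := MonoidHom.mk' (fun k => π (f k)) fun k l => by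
    rw [← map_mul]
    refine hwd _ _ ?_
    rw [hf, Subgroup.coe_mul, Subgroup.coe_mul, QuotientGroup.mk_mul, QuotientGroup.mk_mul, map_mul, hf, hf]
  refine ⟨Φ, fun t => ?_, fun k => ?_, fun k hk => hπt _ (hk _ (hf k))⟩
  · obtain ⟨g, rfl⟩ := hπs t
    have hg := Subgroup.mem_centralizer_singleton_iff.1 g.2
    obtain ⟨h, he, hb⟩ := X.exists_lift (g := (g : Co0)) (r := 1) (by
        rw [pow_one]; intro h1
        exact X.mk_sigma_ne_one (by rw [h1, QuotientGroup.mk_one]))
      (by rw [pow_one, hg, mul_inv_cancel_right])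
    rw [pow_one] at hb
    exact ⟨⟨h, Subgroup.mem_centralizer_singleton_iff.2 (mul_inv_eq_iff_eq_mul.1 hb)⟩,
      hwd _ _ ((hf _).trans he)⟩
  · show π (f k) = 1 ↔ _
    rw [hπk]
    constructor
    · rintro ⟨i, hi⟩
      refine ⟨i, ?_⟩
      rw [← QuotientGroup.eq_one_iff, QuotientGroup.mk_mul, QuotientGroup.mk_inv, QuotientGroup.mk_pow,
        mul_inv_eq_one]
      apply e.injective
      rw [← hf, map_pow, X.img]
      rcases hi with hi | hi <;> rw [hi]
      · rw [QuotientGroup.mk_pow]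
      · rw [QuotientGroup.mk_mul, (QuotientGroup.eq_one_iff negAut).2 negAut_mem_center, mul_one,
          QuotientGroup.mk_pow]
    · rintro ⟨i, hi⟩
      refine ⟨i, mk_eq_or ?_⟩
      rw [← QuotientGroup.eq_one_iff, QuotientGroup.mk_mul, QuotientGroup.mk_inv, QuotientGroup.mk_pow,
        mul_inv_eq_one] at hi
      rw [hf, hi, map_pow, X.img, QuotientGroup.mk_pow]

/-- The centraliser of `b` in `Q`. -/
def qFix (b : CC z) : Subgroup Q := (cb b).comap Q.subtype

theorem mem_qFix {q : Q} : q ∈ qFix (Q := Q) b ↔ (q : CC z) * b = b * (q : CC z) :=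
  Subgroup.mem_centralizer_singleton_iff

/-- Conjugation of `Q` by `b`. -/
def bConj (b : CC z) (q : Q) : Q :=
  ⟨b * (q : CC z) * b⁻¹, (inferInstance : Q.Normal).conj_mem (q : CC z) q.2 b⟩

theorem bConj_class (X : Loc e ψ c T b) {v : leechLattice} {q : Q} (h : ψ v = QuotientGroup.mk q) :
    ψ (c.σ • v) = QuotientGroup.mk (bConj b q) :=
  X.hψ.2.2.2 b c.σ X.img.symm v q h

/-- An element over a fixed class is fixed. -/
theorem mem_qFix_of_class (X : Loc e ψ c T b) {v : leechLattice} {q : Q} (h : ψ v = QuotientGroup.mk q)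
    (hv : CongTwo (c.σ • v) v) : q ∈ qFix b := by
  have F := settingFacts X.hS
  have h1 : (QuotientGroup.mk (bConj b q) : Q ⧸ Subgroup.center Q) = QuotientGroup.mk q := by
    rw [← X.bConj_class h, (psi_eq_iff X.hψ).2 hv, h]
  rw [QuotientGroup.eq, F.mem_center_iff] at h1
  rw [mem_qFix]
  rcases h1 with h1 | h1
  · have h2 : bConj b q = q := qVal_injective (inv_mul_eq_one.1 h1)
    have h3 : b * (q : CC z) * b⁻¹ = q := congrArg Subtype.val h2
    exact (mul_inv_eq_iff_eq_mul.1 h3).symm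
  · exfalso
    simp only [qVal, bConj, Subgroup.coe_mul, InvMemClass.coe_inv] at h1
    set B' := ((b : CC z) : G) with hB'
    set q' := ((q : CC z) : G) with hq'
    have hzq : z * q' = q' * z := (Subgroup.mem_centralizer_singleton_iff.1 (q : CC z).2).symm
    have hzb : z * B' = B' * z := (Subgroup.mem_centralizer_singleton_iff.1 b.2).symm
    have hstep : B' * q' * B'⁻¹ = q' * z := by
      have e1 : B' * q'⁻¹ * B'⁻¹ * q' = z := by rw [← h1]; group
      have e2 : B' * q' * B'⁻¹ = q' * z⁻¹ := by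
        rw [← e1]; group
      rw [e2, show z⁻¹ = z from inv_eq_of_mul_eq_one_right F.sq]
    have key : ∀ n : ℕ, B' ^ n * q' * (B' ^ n)⁻¹ = q' * z ^ n := by
      intro n
      induction n with
      | zero => simp
      | succ n ih =>
        calc B' ^ (n + 1) * q' * (B' ^ (n + 1))⁻¹ = B' * (B' ^ n * q' * (B' ^ n)⁻¹) * B'⁻¹ := by group
          _ = B' * q' * B'⁻¹ * (B' * z ^ n * B'⁻¹) := by rw [ih]; group
          _ = q' * z * z ^ n := by
            rw [hstep, show B' * z ^ n * B'⁻¹ = z ^ n by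
              rw [((show Commute B' z from hzb.symm).pow_right n).eq, mul_inv_cancel_right]]
          _ = _ := by rw [mul_assoc, ← pow_succ']
    have h3 := key c.p
    rw [show B' ^ c.p = 1 by
      rw [hB', ← SubmonoidClass.coe_pow, ← X.order, pow_orderOf_eq_one, OneMemClass.coe_one],
      one_mul, inv_one, mul_one, left_eq_mul] at h3
    obtain ⟨j, hj⟩ : ∃ j, c.p = 2 * j + 1 := ⟨c.p / 2, by have := (Data.base_spec X.ok).1; omega⟩
    rw [hj, pow_succ, pow_mul, pow_two, F.sq, one_pow, one_mul] at h3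
    exact F.ne_one h3

theorem class_of_mem_qFix (X : Loc e ψ c T b) {v : leechLattice} {q : Q} (h : ψ v = QuotientGroup.mk q)
    (hq : q ∈ qFix b) : CongTwo (c.σ • v) v := by
  rw [← psi_eq_iff X.hψ, X.bConj_class h, h]
  congr 1
  refine Subtype.ext ?_
  show b * (q : CC z) * b⁻¹ = q
  rw [← mem_qFix.1 hq, mul_inv_cancel_right]

theorem exists_code (X : Loc e ψ c T b) {q : Q} (hq : q ∈ qFix b) :
    ∃ x < 2 ^ c.D.length, ψ (combV c.B x) = QuotientGroup.mk q := by
  obtain ⟨v, hv⟩ := X.hψ.2.1 (QuotientGroup.mk q)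
  obtain ⟨hp, -, hti, hd, hn, -⟩ := Data.base_spec X.ok
  refine ⟨_, codeV_lt c.D v, ?_⟩
  rw [← hv]
  exact (psi_eq_iff X.hψ).2 (exists_comb hti hp hd hn (X.class_of_mem_qFix hv hq)).symm

theorem liftVec_mem (X : Loc e ψ c T b) (x : ℕ) : liftVec ψ (combV c.B x) ∈ qFix b :=
  X.mem_qFix_of_class (mk_liftVec _).symm (Data.smul_comb_fixed X.ok x)

theorem center_le_qFix (X : Loc e ψ c T b) {q : Q} (hq : q ∈ Subgroup.center Q) : q ∈ qFix b :=
  X.mem_qFix_of_class (v := 0) (by rw [psi_zero X.hψ, (QuotientGroup.eq_one_iff q).2 hq])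
    (by rw [smul_zero_co0]; exact CongTwo.refl _)

theorem card_qFix (X : Loc e ψ c T b) : Nat.card (qFix (Q := Q) b) = 2 ^ (c.D.length + 1) := by
  obtain ⟨-, -, -, hd, -⟩ := Data.base_spec X.ok
  let f : qFix (Q := Q) b →* Q ⧸ Subgroup.center Q := (QuotientGroup.mk' _).comp (qFix b).subtype
  have hr : Nat.card f.range = 2 ^ c.D.length := by
    rw [← Nat.card_fin (2 ^ c.D.length)]
    symm
    refine Nat.card_eq_of_bijective (fun x : Fin (2 ^ c.D.length) =>
      ⟨ψ (combV c.B x), ⟨⟨_, X.liftVec_mem x⟩, mk_liftVec _⟩⟩) ⟨fun x y h => ?_, ?_⟩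
    · exact Fin.ext (eq_of_congTwo_combV hd x.2 y.2 ((psi_eq_iff X.hψ).1 (congrArg Subtype.val h)))
    · rintro ⟨_, ⟨q, hq⟩, rfl⟩
      obtain ⟨x, hx, hxe⟩ := X.exists_code hq
      exact ⟨⟨x, hx⟩, Subtype.ext hxe⟩
  have hk : Nat.card f.ker = 2 := by
    rw [← X.hS.2.2.1.2]
    refine Nat.card_eq_of_bijective (fun a => ⟨((a : qFix (Q := Q) b) : Q),
      (QuotientGroup.eq_one_iff _).1 (MonoidHom.mem_ker.1 a.2)⟩) ⟨fun a a' h => ?_, ?_⟩
    · exact Subtype.ext (Subtype.ext (congrArg Subtype.val h :))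
    · rintro ⟨q, hq⟩
      exact ⟨⟨⟨q, X.center_le_qFix hq⟩, MonoidHom.mem_ker.2 ((QuotientGroup.eq_one_iff q).2 hq)⟩, rfl⟩
  have h1 := Subgroup.card_mul_index f.ker
  rw [Subgroup.index_ker, hr, hk] at h1
  rw [← h1, pow_succ']

/-- The product of the first `n` conjugates. -/
def avg (b : CC z) : ℕ → Q → Q
  | 0, _ => 1
  | n + 1, y => y * bConj b (avg b n y)

theorem avg_class (X : Loc e ψ c T b) {w : leechLattice} {y : Q} (h : ψ w = QuotientGroup.mk y) :
    ∀ n, ψ (normV c.σ n w) = QuotientGroup.mk (avg b n y)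
  | 0 => by rw [normV, psi_zero X.hψ, avg, QuotientGroup.mk_one]
  | n + 1 => by
    simp only [normV, avg, X.hψ.1, h, QuotientGroup.mk_mul, X.bConj_class (X.avg_class h n)]

theorem normV_shift (g : Co0) : ∀ (n : ℕ) (w : leechLattice),
    normV g n w + g ^ n • w = w + g • normV g n w
  | 0, w => by simp [normV, smul_zero_co0]
  | n + 1, w => by
    simp only [normV]
    rw [pow_succ', mul_smul, add_assoc, ← smul_add_co0, normV_shift g n w]

theorem avg_mem (X : Loc e ψ c T b) (y : Q) : avg b c.p y ∈ qFix b := by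
  obtain ⟨w, hw⟩ := X.hψ.2.1 (QuotientGroup.mk y)
  refine X.mem_qFix_of_class (X.avg_class hw c.p) ?_
  have h := normV_shift c.σ c.p w
  rw [← X.cent.order, pow_orderOf_eq_one, one_smul, X.cent.order, add_comm] at h
  rw [← add_left_cancel h]
  exact CongTwo.refl _

theorem center_qFix (X : Loc e ψ c T b) {q : qFix (Q := Q) b}
    (hq : q ∈ Subgroup.center (qFix (Q := Q) b)) : (q : Q) ∈ Subgroup.center Q := by
  have hQ := X.hS.2.2.1
  rw [Subgroup.mem_center_iff]
  intro y
  by_contra hne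
  set x : Q := (q : Q)
  have hcomm : ∀ a : Q, x * a * x⁻¹ * a⁻¹ ∈ Subgroup.center Q := fun a => comm_mem_center hQ x a
  obtain ⟨zQ, hz, hz1, hall⟩ : ∃ zQ : Q, zQ ∈ Subgroup.center Q ∧ zQ ≠ 1 ∧
      ∀ a ∈ Subgroup.center Q, a = 1 ∨ a = zQ := by
    have h0 : x * y * x⁻¹ * y⁻¹ ≠ 1 := fun h => hne
      (mul_inv_eq_iff_eq_mul.1 (mul_inv_eq_one.1 h)).symm
    exact ⟨_, hcomm y, h0, fun a ha => center_eq_or hQ.2 (hcomm y) ha h0⟩
  have hyc : x * y * x⁻¹ = y * zQ := by
    rcases hall _ (hcomm y) with h | h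
    · exact absurd (mul_inv_eq_iff_eq_mul.1 (mul_inv_eq_one.1 h)).symm hne
    · rw [mul_inv_eq_iff_eq_mul] at h
      rw [h, Subgroup.mem_center_iff.1 hz y]
  have hzfix : bConj b zQ = zQ := by
    refine Subtype.ext ?_
    show b * (zQ : CC z) * b⁻¹ = zQ
    rw [← mem_qFix.1 (X.center_le_qFix hz), mul_inv_cancel_right]
  have hxfix : bConj b x = x := by
    refine Subtype.ext ?_
    show b * (x : CC z) * b⁻¹ = x
    rw [← mem_qFix.1 q.2, mul_inv_cancel_right]
  have hmul : ∀ a a' : Q, bConj b (a * a') = bConj b a * bConj b a' := fun a a' => Subtype.ext (by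
    show b * ((a : CC z) * a') * b⁻¹ = b * (a : CC z) * b⁻¹ * (b * (a' : CC z) * b⁻¹)
    group)
  have hinv : ∀ a : Q, bConj b a⁻¹ = (bConj b a)⁻¹ := fun a => Subtype.ext (by
    show b * (a : CC z)⁻¹ * b⁻¹ = (b * (a : CC z) * b⁻¹)⁻¹
    group)
  have key : ∀ n, x * avg b n y * x⁻¹ = avg b n y * zQ ^ n := by
    intro n
    induction n with
    | zero => simp [avg]
    | succ n ih =>
      have h1 : x * bConj b (avg b n y) * x⁻¹ = bConj b (avg b n y) * zQ ^ n := by
        have h0 := congrArg (bConj b) ih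
        rw [hmul, hmul, hinv, hxfix, hmul] at h0
        rw [h0]
        congr 1
        clear h0 ih
        induction n with
        | zero => rw [pow_zero]; exact Subtype.ext (by show b * (1 : CC z) * b⁻¹ = 1; group)
        | succ n ih => rw [pow_succ, hmul, ih, hzfix]
      calc x * avg b (n + 1) y * x⁻¹ = (x * y * x⁻¹) * (x * bConj b (avg b n y) * x⁻¹) := by
            simp only [avg]; group
        _ = y * (zQ * bConj b (avg b n y)) * zQ ^ n := by rw [hyc, h1]; group
        _ = y * (bConj b (avg b n y) * zQ) * zQ ^ n := by rw [(Subgroup.mem_center_iff.1 hz (bConj b (avg b n y))).symm]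
        _ = _ := by simp only [avg, pow_succ', mul_assoc]
  have h1 := key c.p
  have h2 : x * avg b c.p y = avg b c.p y * x :=
    (congrArg Subtype.val (Subgroup.mem_center_iff.1 hq ⟨_, X.avg_mem y⟩)).symm
  rw [h2, mul_inv_cancel_right, left_eq_mul] at h1
  have hsq : zQ * zQ = 1 := by
    rcases hall _ ((Subgroup.center Q).mul_mem hz hz) with h | h
    · exact h
    · exact absurd (mul_eq_left.1 h) hz1
  obtain ⟨j, hj⟩ : ∃ j, c.p = 2 * j + 1 := ⟨c.p / 2, by have := (Data.base_spec X.ok).1; omega⟩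
  rw [hj, pow_succ, pow_mul, pow_two, hsq, one_pow, one_mul] at h1
  exact hz1 h1

theorem isExtraspecial_qFix (X : Loc e ψ c T b) (hk : 0 < c.D.length) :
    IsExtraspecial 2 (qFix (Q := Q) b) := by
  have hQ := X.hS.2.2.1
  have hcen : ∀ q : qFix (Q := Q) b, q ∈ Subgroup.center (qFix (Q := Q) b) ↔ (q : Q) ∈ Subgroup.center Q :=
    fun q => ⟨X.center_qFix, fun h => Subgroup.mem_center_iff.2 fun a => Subtype.ext (Subgroup.mem_center_iff.1 h a)⟩
  have hc2 : Nat.card (Subgroup.center (qFix (Q := Q) b)) = 2 := by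
    rw [← hQ.2]
    refine Nat.card_eq_of_bijective (fun a => ⟨((a : qFix (Q := Q) b) : Q), (hcen _).1 a.2⟩) ⟨fun a a' h => ?_, ?_⟩
    · exact Subtype.ext (Subtype.ext (congrArg Subtype.val h :))
    · rintro ⟨q, hq⟩
      exact ⟨⟨⟨q, X.center_le_qFix hq⟩, (hcen _).2 hq⟩, rfl⟩
  have hp2 : IsPGroup 2 (qFix (Q := Q) b) := IsPGroup.of_card X.card_qFix
  have : Fact (Nat.Prime 2) := ⟨Nat.prime_two⟩
  have hcle : commutator (qFix (Q := Q) b) ≤ Subgroup.center (qFix (Q := Q) b) := by
    rw [commutator_def, Subgroup.commutator_le]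
    intro a _ a' _
    rw [hcen, commutatorElement_def]
    exact comm_mem_center hQ (a : Q) (a' : Q)
  have hsq : ∀ a : qFix (Q := Q) b, a ^ 2 ∈ Subgroup.center (qFix (Q := Q) b) := fun a => by
    rw [hcen, pow_two]; exact sq_mem_center hQ (a : Q)
  have hceq : commutator (qFix (Q := Q) b) = Subgroup.center (qFix (Q := Q) b) := by
    refine Subgroup.eq_of_le_of_card_ge hcle ?_
    by_contra hlt
    have h2 : Nat.card (commutator (qFix (Q := Q) b)) ∣ 2 := hc2 ▸ Subgroup.card_dvd_of_le hcle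
    rcases (Nat.dvd_prime Nat.prime_two).1 h2 with h | h
    · have htop : Subgroup.center (qFix (Q := Q) b) = ⊤ :=
        eq_top_iff.2 fun a _ => Subgroup.mem_center_iff.2 fun a' => by
          refine commutatorElement_eq_one_iff_mul_comm.1 ?_
          rw [← Subgroup.mem_bot, ← Subgroup.card_eq_one.1 h, commutator_def]
          exact Subgroup.commutator_mem_commutator (Subgroup.mem_top _) (Subgroup.mem_top _)
      rw [htop, Subgroup.card_top, X.card_qFix] at hc2
      have : 2 ^ (c.D.length + 1) ≥ 2 ^ 2 := Nat.pow_le_pow_right (by norm_num) (by omega)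
      omega
    · exact hlt (by rw [h, hc2])
  exact ⟨⟨hp2, le_antisymm (CfsgLib.PGroups.frattini_le_of hcle hsq)
    (hceq ▸ CfsgLib.PGroups.commutator_le_frattini hp2), hceq⟩, hc2⟩

end Loc

end CfsgLib.MonsterLocal
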