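import Cfsg.Agent.Lib.MonsterLocal.Frame

/-!
From a group of prime order in the centraliser of `z` and `s` to the centraliser setting of its quotient.
-/

set_option autoImplicit false

namespace CfsgLib.MonsterLocal

open Cfsg CfsgLib.Fischer2 CfsgLib.Leech
open CfsgLib.Golay (IsTbl)

variable {G : Type*} [Group G] [Finite G] {z : G} {Q : Subgroup (Subgroup.centralizer ({z} : Set G))}
  [Q.Normal] {e : (Subgroup.centralizer ({z} : Set G)) ⧸ Q ≃* Spor.Co1}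
  {ψ : leechLattice → Q ⧸ Subgroup.center Q} {c : Data} {T : Type*} [Group T]

theorem permHom_injective : Function.Injective permHom := fun a b h => by
  have h' : signAut 0 * permAut a = signAut 0 * permAut b := congrArg (fun u => signAut 0 * u) h
  exact (monomial_unique h').2

theorem CentHom.orderOf_tau (X : CentHom c T) : orderOf c.τ = c.p := by
  rw [← X.order, Data.σ, ← permHom_apply, orderOf_injective _ permHom_injective]

theorem notMem_center_of_conj (F : SettingFacts Q) {x : Q} (hc : IsConj z (qVal x)) (hne : qVal x ≠ z) :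
    x ∉ Subgroup.center Q := fun h => by
  rcases (F.mem_center_iff x).1 h with r | r
  · obtain ⟨u, hu⟩ := isConj_iff.1 hc
    rw [r] at hu
    exact F.ne_one (conj_eq_one_iff.1 hu)
  · exact hne r

theorem factorization_joint (hS : IsExtraspecialCentralizerSetting z Q 12) (hψ : IsLeechModTwoIso Q e ψ) {x : Q}
    (hc : IsConj z (qVal x)) (hne : qVal x ≠ z) {p : ℕ} (hp : p.Prime) (hodd : p % 2 = 1) :
    (Nat.card (Subgroup.centralizer ({z, qVal x} : Set G))).factorization p = (244823040 : ℕ).factorization p := by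
  obtain ⟨e₁, ψ₁, hψ₁, hv₁⟩ := exists_twist_axis hψ hS hc hne
  obtain ⟨f, hfs, hker, -⟩ := exists_toM24 hS hψ₁ (notMem_center_of_conj (settingFacts hS) hc hne) hv₁
  exact factorization_lSub hp hodd hfs hker

/-- A generator of a subgroup of order `p` of the centraliser of `z` and `x`, in normal position. -/
theorem exists_loc (hS : IsExtraspecialCentralizerSetting z Q 12) (hψ : IsLeechModTwoIso Q e ψ) (ok : c.Ok)
    (hp : c.p.Prime) (cent : CentHom c T) {Pr : M24 → Prop} (hR : Reach c.p c.τ Pr) {x : Q}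
    (hc : IsConj z (qVal x)) (hne : qVal x ≠ z) (B : Subgroup G)
    (hBL : B ≤ Subgroup.centralizer ({z, qVal x} : Set G)) (hBp : Nat.card B = c.p)
    (hPr : ∀ (e' : CC z ⧸ Q ≃* Spor.Co1) (ψ' : leechLattice → Q ⧸ Subgroup.center Q),
      IsLeechModTwoIso Q e' ψ' → ∀ b : CC z, (b : G) ∈ B → orderOf b = c.p → PrOf e' ψ' x Pr b c.p) :
    ∃ (e' : CC z ⧸ Q ≃* Spor.Co1) (ψ' : leechLattice → Q ⧸ Subgroup.center Q) (b : CC z),
      Loc e' ψ' c T b ∧ B = Subgroup.zpowers (b : G) ∧ x ∈ Loc.qFix b := by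
  have := Fact.mk hp
  obtain ⟨b₀, hb₀B, hb₀1⟩ := (Subgroup.ne_bot_iff_exists_ne_one.1 (fun h => by
    rw [h, Subgroup.card_bot] at hBp; exact hp.ne_one hBp.symm) : ∃ b : B, b ≠ 1) |>
      fun ⟨b, hb⟩ => (⟨b, b.2, fun h => hb (Subtype.ext h)⟩ : ∃ b : G, b ∈ B ∧ b ≠ 1)
  have hz₀ := Subgroup.mem_centralizer_iff.1 (hBL hb₀B)
  set b : CC z := ⟨b₀, Subgroup.mem_centralizer_singleton_iff.2 (hz₀ z (Or.inl rfl)).symm⟩
  have hbL : b ∈ lSub x := Subgroup.mem_centralizer_singleton_iff.2 (Subtype.ext (hz₀ _ (Or.inr rfl)).symm)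
  have hbo : orderOf b = c.p := by
    refine orderOf_eq_prime (Subtype.ext ?_) fun h => hb₀1 (congrArg Subtype.val h)
    have h1 : (⟨b₀, hb₀B⟩ : B) ^ Nat.card B = 1 := pow_card_eq_one'
    rw [hBp] at h1
    simpa only [SubmonoidClass.coe_pow, OneMemClass.coe_one] using congrArg Subtype.val h1
  obtain ⟨e₁, ψ₁, hψ₁, hv₁⟩ := exists_twist_axis hψ hS hc hne
  obtain ⟨m, i, ho, hm, he⟩ := exists_normal hS hψ₁ hv₁ hp (Data.base_spec ok).1 cent.orderOf_tau hR hbL hbo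
    (hPr e₁ ψ₁ hψ₁ b hb₀B hbo hv₁)
  refine ⟨_, _, b ^ i, ⟨hS, isLeechModTwoIso_twist hψ₁ m, ok, hp, cent, ho, he⟩, ?_, ?_⟩
  · refine ((Subgroup.eq_of_le_of_card_ge (Subgroup.zpowers_le.2 ?_) ?_)).symm
    · rw [SubmonoidClass.coe_pow]; exact Subgroup.pow_mem _ hb₀B _
    · rw [hBp, Nat.card_zpowers, Subgroup.orderOf_coe, ho]
  · refine Loc.mem_qFix.2 ?_
    exact (((show Commute b (x : CC z) from Subgroup.mem_centralizer_singleton_iff.1 hbL).pow_left i).symm).eq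

/-- The setting for the quotient of the centraliser of `B`. -/
theorem exists_setting (hS : IsExtraspecialCentralizerSetting z Q 12) (hψ : IsLeechModTwoIso Q e ψ) (ok : c.Ok)
    (hp : c.p.Prime) (cent : CentHom c T) {Pr : M24 → Prop} (hR : Reach c.p c.τ Pr) {w : ℕ}
    (hw : c.D.length = 2 * w) (hw0 : 0 < w)
    (hO2 : ∀ N : Subgroup T, N.Normal → IsPGroup 2 N → N = ⊥)
    (r₀ : ℕ) (gAut : Co0) (hgAut : gAut * c.σ * gAut⁻¹ = c.σ ^ r₀)
    (hgen : ∀ r : ℕ, ¬ c.p ∣ r → ∃ n, r₀ ^ n % c.p = r % c.p) {x : Q}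
    (hc : IsConj z (qVal x)) (hne : qVal x ≠ z) (B : Subgroup G)
    (hBL : B ≤ Subgroup.centralizer ({z, qVal x} : Set G)) (hBp : Nat.card B = c.p)
    (hPr : ∀ (e' : CC z ⧸ Q ≃* Spor.Co1) (ψ' : leechLattice → Q ⧸ Subgroup.center Q),
      IsLeechModTwoIso Q e' ψ' → ∀ b : CC z, (b : G) ∈ B → orderOf b = c.p → PrOf e' ψ' x Pr b c.p)
    (hPr' : ∀ (e₀ : CC z ⧸ Q ≃* Spor.Co1) (ψ₀ : leechLattice → Q ⧸ Subgroup.center Q) (b : CC z),
      Loc e₀ ψ₀ c T b → ∀ q : Q, q ∈ Loc.qFix b → IsConj z (qVal q) → qVal q ≠ z →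
      ∀ (e' : CC z ⧸ Q ≃* Spor.Co1) (ψ' : leechLattice → Q ⧸ Subgroup.center Q),
      IsLeechModTwoIso Q e' ψ' → PrOf e' ψ' q Pr b c.p ∧
      ∀ b' : CC z, (∃ g : G, g * z * g⁻¹ = qVal q ∧ g * qVal q * g⁻¹ = z ∧ g * (b : G) * g⁻¹ = (b' : G)) →
        PrOf e' ψ' q Pr b' c.p)
    [hn : (B.subgroupOf (Subgroup.centralizer (B : Set G))).Normal] :
    ∃ (e' : CC z ⧸ Q ≃* Spor.Co1) (ψ' : leechLattice → Q ⧸ Subgroup.center Q) (b : CC z),
      Loc e' ψ' c T b ∧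
    ∃ (zb : ↥(Subgroup.centralizer (B : Set G)) ⧸ B.subgroupOf (Subgroup.centralizer (B : Set G)))
      (R : Subgroup (Subgroup.centralizer ({zb} : Set _))) (_ : R.Normal),
      IsExtraspecialCentralizerSetting zb R w ∧
      Nonempty ((Subgroup.centralizer ({zb} : Set _)) ⧸ R ≃* T) ∧
      Set.ncard {a : Subgroup.centralizer ({zb} : Set _) | a ∈ R ∧ IsConj zb (a : _)} =
        Set.ncard {q : Loc.qFix (Q := Q) b | IsConj z (qVal (q : Q))} := by
  obtain ⟨e', ψ', b, X, hB, hxq⟩ := exists_loc hS hψ ok hp cent hR hc hne B hBL hBp hPr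
  obtain ⟨zb, R, hRn, -, h⟩ := X.setting hw hw0 hO2 (fun q hq hqc hqz => exists_conj_fix hp cent.orderOf_tau hR r₀
    gAut hgAut hgen X q hq hqc hqz (hPr' e' ψ' b X q hq hqc hqz)) ⟨x, hxq, hc, hne⟩ B hB
  exact ⟨e', ψ', b, X, zb, R, hRn, h⟩

/-- A power of the element realised by a permutation. -/
theorem exists_sq (ok : c.Ok) {π u : ℕ} (h1 : CfsgLib.Golay.inM24 π = true)
    (h2 : CfsgLib.Golay.isCompTbl u c.t c.t = true) (h3 : CfsgLib.Golay.conjTbl π c.t u = true) :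
    ∃ g : Co0, g * c.σ * g⁻¹ = c.σ ^ 2 := by
  obtain ⟨-, hτ, -⟩ := Data.base_spec ok
  obtain ⟨ρ, hρ⟩ := exists_elem h1
  refine ⟨permAut ρ, ?_⟩
  have he : ρ * c.τ * ρ⁻¹ = c.τ * c.τ := Subtype.ext (hρ.conj hτ (hτ.mul hτ h2) h3)
  rw [Data.σ, ← permHom_apply, ← permHom_apply, ← map_inv, ← map_mul, ← map_mul, he, pow_two, ← map_mul]

end CfsgLib.MonsterLocal
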