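import Cfsg.Agent.Lib.MonsterLocal.DataFive

/-!
The kernel checks of the certificates.
-/

set_option autoImplicit false
set_option Elab.async false

namespace CfsgLib.MonsterLocal.Five

theorem base_ok : data.baseOk = true := by decide +kernel

theorem norm_ok : normOk data.ti data.p data.B data.D = true := by decide +kernel

theorem mats_ok : data.matsOk = true := by decide +kernel

theorem imgs_ok : data.imgsOk = true := by decide +kernel

theorem perms_ok : data.permsOk = true := by decide +kernel

theorem chains_ok : data.chainsOk = true := by decide +kernel

theorem code_ok : data.codeOk = true := by decide +kernel

theorem orb_ok : data.orbOk = true := by decide +kernel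

theorem ok : data.Ok := ⟨base_ok, norm_ok, mats_ok, imgs_ok, perms_ok, chains_ok, code_ok, orb_ok⟩

theorem act_ok : actOk data act = true := by decide +kernel

theorem pow_ok : powOk data = true := by decide +kernel

theorem not_id : CfsgLib.Golay.isIdTbl data.t = false := by decide +kernel

end CfsgLib.MonsterLocal.Five
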