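import Cfsg.Agent.Lib.MonsterLocal.DataLarge
import Cfsg.Agent.Lib.MonsterLocal.DualCert

/-!
The kernel checks for the element with six fixed points: the basis and the monomial part.
-/

set_option autoImplicit false
set_option Elab.async false
set_option maxRecDepth 20000

namespace CfsgLib.MonsterLocal.Large

open CfsgLib.Fischer2 CfsgLib.Leech
open CfsgLib.Golay (inM24 tblAt imgMask)

theorem basis_mem : (data.B.all memTest && data.D.all memTest && decide (data.B.length = data.D.length)) = true := by
  decide +kernel

theorem basis_codes : data.B.map (codeL data.D) = (List.range 12).map (2 ^ ·) := by decide +kernel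

theorem basis_xor : ((List.range 4096).all fun c => xorImg ((List.range 12).map (2 ^ ·)) c == c) = true := by
  decide +kernel

theorem dim_eq : 2 ^ data.D.length = 4096 := by decide +kernel

theorem dual_ok : dualOk data.B data.D = true := by
  have h := basis_mem
  simp only [Bool.and_eq_true, decide_eq_true_eq] at h
  refine dualOk_of_basis h.1.1 h.1.2 h.2 fun c hc => ?_
  have h2 := basis_xor
  simp only [List.all_eq_true, List.mem_range, beq_iff_eq] at h2
  rw [basis_codes, h2 c (dim_eq ▸ hc)]

theorem base_rest : (decide (data.p % 2 = 1) && inM24 data.t && Data.invTblOk data.t data.ti &&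
    data.B.all (fun b => sameClass (shiftL data.ti b) b) &&
    (data.gts.all fun g => inM24 g.1 && Data.invTblOk g.1 g.2 && Golay.conjTbl g.1 data.t data.t) &&
    data.fb.all fun m => Golay.inCode m &&
      (List.range 24).all fun i => m.testBit (tblAt data.t i) == m.testBit i) = true := by decide +kernel

theorem base_ok : data.baseOk = true := by
  have h := base_rest
  simp only [Bool.and_eq_true] at h
  simp only [Data.baseOk, Bool.and_eq_true]
  obtain ⟨⟨⟨⟨⟨h1, h2⟩, h3⟩, h4⟩, h5⟩, h6⟩ := h
  exact ⟨⟨⟨⟨⟨⟨h1, h2⟩, h3⟩, dual_ok⟩, h4⟩, h5⟩, h6⟩

theorem norm_ok : normOk data.ti data.p data.B data.D = true := by decide +kernel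

theorem mats_ok : data.matsOk = true := by decide +kernel

theorem imgs_ok : data.imgsOk = true := by decide +kernel

theorem code_ok : data.codeOk = true := by decide +kernel

theorem pow_ok : powOk data = true := by decide +kernel

theorem not_id : CfsgLib.Golay.isIdTbl data.t = false := by decide +kernel

end CfsgLib.MonsterLocal.Large
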