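import Cfsg.Agent.Lib.MonsterLocal.Local

/-!
The centraliser of `z` in `C(B)/B`, for `B = ⟨b⟩`.
-/

set_option autoImplicit false

namespace CfsgLib.MonsterLocal

open Cfsg CfsgLib.Fischer2 CfsgLib.Leech

variable {G : Type*} [Group G] [Finite G] {z : G} {Q : Subgroup (Subgroup.centralizer ({z} : Set G))}
  [Q.Normal] {e : (Subgroup.centralizer ({z} : Set G)) ⧸ Q ≃* Spor.Co1}
  {ψ : leechLattice → Q ⧸ Subgroup.center Q} {c : Data} {T : Type*} [Group T] {b : CC z}

set_option maxHeartbeats 1600000 in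
theorem Loc.setting (X : Loc e ψ c T b) {w : ℕ} (hw : c.D.length = 2 * w) (hw0 : 0 < w)
    (hO2 : ∀ N : Subgroup T, N.Normal → IsPGroup 2 N → N = ⊥)
    (hconj : ∀ q : Q, q ∈ Loc.qFix b → IsConj z (qVal q) → qVal q ≠ z →
      ∃ h : G, h * (b : G) * h⁻¹ = (b : G) ∧ h * z * h⁻¹ = qVal q)
    (hex : ∃ q : Q, q ∈ Loc.qFix b ∧ IsConj z (qVal q) ∧ qVal q ≠ z)
    (B : Subgroup G) (hB : B = Subgroup.zpowers (b : G))
    [hn : (B.subgroupOf (Subgroup.centralizer (B : Set G))).Normal] :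
    ∃ (zb : ↥(Subgroup.centralizer (B : Set G)) ⧸ B.subgroupOf (Subgroup.centralizer (B : Set G)))
      (R : Subgroup (Subgroup.centralizer ({zb} : Set _))) (_ : R.Normal),
      (∀ hzH : z ∈ Subgroup.centralizer (B : Set G), zb = QuotientGroup.mk ⟨z, hzH⟩) ∧
      IsExtraspecialCentralizerSetting zb R w ∧
      Nonempty ((Subgroup.centralizer ({zb} : Set _)) ⧸ R ≃* T) ∧
      Set.ncard {x : Subgroup.centralizer ({zb} : Set _) | x ∈ R ∧ IsConj zb (x : _)} =
        Set.ncard {q : Loc.qFix (Q := Q) b | IsConj z (qVal (q : Q))} := by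
  classical
  subst hB
  have F := settingFacts X.hS
  obtain ⟨Φ, hΦs, hΦk, hΦt⟩ := X.exists_map
  set H := Subgroup.centralizer ((Subgroup.zpowers (b : G) : Subgroup G) : Set G) with hHdef
  set K := (Subgroup.zpowers (b : G)).subgroupOf H with hKdef
  have hmemH : ∀ a : G, a ∈ H ↔ a * (b : G) = (b : G) * a := fun a => by
    rw [hHdef, Subgroup.mem_centralizer_iff]
    constructor
    · exact fun h => (h _ (Subgroup.mem_zpowers _)).symm
    · rintro h _ ⟨k, rfl⟩
      exact ((show Commute a (b : G) from h).zpow_right k).symm.eq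
  have hbz : (b : G) * z = z * (b : G) := Subgroup.mem_centralizer_singleton_iff.1 b.2
  have hzH : z ∈ H := (hmemH z).2 hbz.symm
  set zH : H := ⟨z, hzH⟩ with hzHdef
  set zb : H ⧸ K := QuotientGroup.mk zH with hzbdef
  set D := Subgroup.centralizer ({zb} : Set (H ⧸ K)) with hDdef
  have hodd : c.p % 2 = 1 := (Data.base_spec X.ok).1
  have hbp : (b : G) ^ c.p = 1 := by
    rw [← SubmonoidClass.coe_pow, ← X.order, pow_orderOf_eq_one]; rfl
  -- an involution commuting with `b` is not moved by a power of `b`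
  have hzB : ∀ (a : G) (i : ℤ), a * a = 1 → a * (b : G) = (b : G) * a → a * (b : G) ^ i * (a * (b : G) ^ i) = 1 →
      (b : G) ^ i = 1 := by
    intro a i ha hcm h
    have hcomm : Commute a ((b : G) ^ i) := (show Commute a (b : G) from hcm).zpow_right i
    have h2 : ((b : G) ^ i) ^ 2 = 1 := by
      rw [pow_two]
      calc (b : G) ^ i * (b : G) ^ i = a * a * ((b : G) ^ i * (b : G) ^ i) := by rw [ha, one_mul]
        _ = a * (b : G) ^ i * (a * (b : G) ^ i) := (hcomm.symm.mul_mul_mul_comm a ((b : G) ^ i)).symm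
        _ = 1 := h
    have hp1 : ((b : G) ^ i) ^ c.p = 1 := by
      rw [← zpow_natCast, ← zpow_mul, mul_comm, zpow_mul, zpow_natCast, hbp, one_zpow]
    obtain ⟨j, hj⟩ : ∃ j, c.p = 2 * j + 1 := ⟨c.p / 2, by omega⟩
    rwa [hj, pow_succ, pow_mul, h2, one_pow, one_mul] at hp1
  have hjmem : ∀ k : Loc.cb b, ((k : CC z) : G) ∈ H := fun k =>
    (hmemH _).2 (congrArg Subtype.val (Subgroup.mem_centralizer_singleton_iff.1 k.2))
  let j : Loc.cb b →* H :=
    { toFun := fun k => ⟨((k : CC z) : G), hjmem k⟩, map_one' := rfl, map_mul' := fun _ _ => rfl }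
  have hjD : ∀ k : Loc.cb b, (QuotientGroup.mk' K) (j k) ∈ D := fun k => by
    refine Subgroup.mem_centralizer_singleton_iff.2 ?_
    show (QuotientGroup.mk (j k) : H ⧸ K) * QuotientGroup.mk zH = QuotientGroup.mk zH * QuotientGroup.mk (j k)
    rw [← QuotientGroup.mk_mul, ← QuotientGroup.mk_mul]
    congr 1
    exact Subtype.ext (Subgroup.mem_centralizer_singleton_iff.1 (k : CC z).2)
  set ρ : Loc.cb b →* D := ((QuotientGroup.mk' K).comp j).codRestrict D hjD with hρdef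
  have hρker : ∀ k : Loc.cb b, ρ k = 1 ↔ ∃ i : ℤ, ((k : CC z) : G) = (b : G) ^ i := by
    intro k
    rw [Subtype.ext_iff]
    show (QuotientGroup.mk (j k) : H ⧸ K) = 1 ↔ _
    rw [QuotientGroup.eq_one_iff]
    show ((k : CC z) : G) ∈ Subgroup.zpowers (b : G) ↔ _
    rw [Subgroup.mem_zpowers_iff]
    exact exists_congr fun i => eq_comm
  have hρsurj : Function.Surjective ρ := by
    rintro ⟨d, hd⟩
    obtain ⟨⟨h, hh⟩, rfl⟩ := QuotientGroup.mk_surjective d
    have h1 := Subgroup.mem_centralizer_singleton_iff.1 hd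
    rw [hzbdef, ← QuotientGroup.mk_mul, ← QuotientGroup.mk_mul, QuotientGroup.eq] at h1
    obtain ⟨i, hi⟩ := Subgroup.mem_zpowers_iff.1 (Subgroup.mem_subgroupOf.1 h1)
    change (b : G) ^ i = (h * z)⁻¹ * (z * h) at hi
    have hhb : h * (b : G) = (b : G) * h := (hmemH h).1 hh
    have e1 : h⁻¹ * z * h = z * (b : G) ^ i := by rw [hi]; group
    have hi1 : (b : G) ^ i = 1 := hzB z i F.sq hbz.symm (by
      rw [← e1, show h⁻¹ * z * h * (h⁻¹ * z * h) = h⁻¹ * (z * z) * h by group, F.sq]; group)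
    rw [hi1, mul_one] at e1
    refine ⟨⟨⟨h, Subgroup.mem_centralizer_singleton_iff.2 ?_⟩, Subgroup.mem_centralizer_singleton_iff.2
      (Subtype.ext hhb)⟩, rfl⟩
    calc h * z = h * (h⁻¹ * z * h) := by rw [e1]
      _ = z * h := by group
  have hle : ρ.ker ≤ Φ.ker := fun k hk => by
    obtain ⟨i, hi⟩ := (hρker k).1 hk
    refine (hΦk k).2 ⟨(i % c.p).toNat, ?_⟩
    rw [show (k : CC z) = b ^ i from Subtype.ext (by rw [SubgroupClass.coe_zpow]; exact hi),
      ← zpow_natCast, Int.toNat_of_nonneg (Int.emod_nonneg _ (by exact_mod_cast X.prime.ne_zero)),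
      ← X.order, zpow_mod_orderOf, mul_inv_cancel]
    exact Q.one_mem
  set Φb : D →* T := MonoidHom.liftOfSurjective ρ hρsurj ⟨Φ, hle⟩ with hΦbdef
  have hΦb : ∀ k, Φb (ρ k) = Φ k := fun k => MonoidHom.liftOfRightInverse_comp_apply ρ _ _ ⟨Φ, hle⟩ k
  have hΦbsurj : Function.Surjective Φb := fun a => by
    obtain ⟨k, rfl⟩ := hΦs a; exact ⟨ρ k, hΦb k⟩
  set R := Φb.ker with hRdef
  have hqcb : ∀ q : Loc.qFix (Q := Q) b, ((q : Q) : CC z) ∈ Loc.cb b := fun q => q.2
  let lam0 : Loc.qFix (Q := Q) b →* Loc.cb b :=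
    { toFun := fun q => ⟨((q : Q) : CC z), hqcb q⟩, map_one' := rfl, map_mul' := fun _ _ => rfl }
  have hbQ : ∀ i : ℤ, b ^ i ∈ Q → b ^ i = 1 := by
    intro i hi
    have h1 : (QuotientGroup.mk b : CC z ⧸ Q) ^ i = (QuotientGroup.mk b) ^ (0 : ℤ) := by
      rw [zpow_zero, ← QuotientGroup.mk_zpow]; exact (QuotientGroup.eq_one_iff _).2 hi
    have h2 : b ^ i = b ^ (0 : ℤ) := by
      rw [zpow_eq_zpow_iff_modEq, X.order, ← X.order_mk, ← zpow_eq_zpow_iff_modEq]; exact h1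
    rwa [zpow_zero] at h2
  have hlamR : ∀ q, ρ (lam0 q) ∈ R := fun q => by
    show Φb _ = 1
    rw [hΦb, hΦk]
    exact ⟨0, by rw [pow_zero, inv_one, mul_one]; exact (q : Q).2⟩
  set lam : Loc.qFix (Q := Q) b →* R := (ρ.comp lam0).codRestrict R hlamR with hlamdef
  have hlaminj : Function.Injective lam := by
    refine (injective_iff_map_eq_one lam).2 fun q hq => ?_
    obtain ⟨i, hi⟩ := (hρker _).1 (congrArg Subtype.val hq)
    have h2 : ((q : Q) : CC z) = b ^ i := Subtype.ext (by rw [SubgroupClass.coe_zpow]; exact hi)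
    exact Subtype.ext (Subtype.ext (h2.trans (hbQ i (h2 ▸ (q : Q).2))))
  have hlamsurj : Function.Surjective lam := by
    rintro ⟨d, hd⟩
    obtain ⟨k, rfl⟩ := hρsurj d
    change Φb (ρ k) = 1 at hd
    rw [hΦb] at hd
    obtain ⟨i, hi⟩ := (hΦk k).1 hd
    have hq : (k : CC z) * (b ^ i)⁻¹ ∈ Loc.cb b := Subgroup.mul_mem _ k.2
      (Subgroup.inv_mem _ (Subgroup.pow_mem _ (Subgroup.mem_centralizer_singleton_iff.2 rfl) _))
    refine ⟨⟨⟨_, hi⟩, hq⟩, Subtype.ext ?_⟩
    show ρ ⟨(k : CC z) * (b ^ i)⁻¹, hq⟩ = ρ k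
    rw [← mul_inv_eq_one, ← map_inv, ← map_mul, hρker]
    refine ⟨-(i : ℤ), ?_⟩
    have hkb : Commute (k : CC z) (b ^ i)⁻¹ :=
      ((show Commute (k : CC z) b from Subgroup.mem_centralizer_singleton_iff.1 k.2).pow_right i).inv_right
    have e2 : (k : CC z) * (b ^ i)⁻¹ * (k : CC z)⁻¹ = (b ^ i)⁻¹ := by rw [hkb.eq, mul_inv_cancel_right]
    show (((k : CC z) * (b ^ i)⁻¹ * (k : CC z)⁻¹ : CC z) : G) = _
    rw [e2, InvMemClass.coe_inv, SubmonoidClass.coe_pow, zpow_neg, zpow_natCast]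
  let lamE : Loc.qFix (Q := Q) b ≃* R := MulEquiv.ofBijective lam ⟨hlaminj, hlamsurj⟩
  have hQF := X.isExtraspecial_qFix (by omega)
  have hRex : IsExtraspecial 2 R := by
    refine ⟨⟨hQF.1.1.of_equiv lamE, ?_, ?_⟩, ?_⟩
    · have := congrArg (Subgroup.map lamE.toMonoidHom) hQF.1.2.1
      rwa [map_frattini_equiv, map_center_equiv] at this
    · have := congrArg (Subgroup.map lamE.toMonoidHom) hQF.1.2.2
      rwa [map_commutator_equiv, map_center_equiv] at this
    · rw [← map_center_equiv lamE, Subgroup.card_map_of_injective (f := lamE.toMonoidHom) lamE.injective]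
      exact hQF.2
  have hRcard : Nat.card R = 2 ^ (2 * w + 1) := by
    rw [← Nat.card_congr lamE.toEquiv, X.card_qFix, hw]
  have : Fact (Nat.Prime 2) := ⟨Nat.prime_two⟩
  have hRp : IsPGroup 2 R := hRex.1.1
  have hcent : Subgroup.centralizer (R : Set D) ≤ R := by
    intro d hd
    obtain ⟨k, rfl⟩ := hρsurj d
    show Φb (ρ k) = 1
    rw [hΦb]
    refine hΦt k fun g hg x hx => ?_
    set q : Loc.qFix (Q := Q) b := ⟨liftVec ψ (combV c.B x), X.liftVec_mem x⟩
    have h1 : ρ (lam0 q) * ρ k = ρ k * ρ (lam0 q) := Subgroup.mem_centralizer_iff.1 hd _ (lam q).2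
    have h3 : ρ (k * lam0 q * k⁻¹ * (lam0 q)⁻¹) = 1 := by
      rw [map_mul, map_mul, map_mul, ← h1, map_inv, map_inv]; group
    obtain ⟨i, hi⟩ := (hρker _).1 h3
    set cq : Q := ⟨(k : CC z) * ((q : Q) : CC z) * (k : CC z)⁻¹,
      (inferInstance : Q.Normal).conj_mem _ (q : Q).2 _⟩
    have h4 : ((cq * (q : Q)⁻¹ : Q) : CC z) = b ^ i := Subtype.ext (by
      rw [SubgroupClass.coe_zpow]; exact hi)
    have h5 : cq = (q : Q) :=
      mul_inv_eq_one.1 (Subtype.ext (h4.trans (hbQ i (h4 ▸ (cq * (q : Q)⁻¹).2))))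
    refine (psi_eq_iff X.hψ).1 ?_
    rw [X.hψ.2.2.2 (k : CC z) g hg (combV c.B x) (liftVec ψ (combV c.B x)) (mk_liftVec _).symm]
    conv_rhs => rw [← mk_liftVec (ψ := ψ) (combV c.B x)]
    exact congrArg QuotientGroup.mk h5
  have hcore : pCore 2 D = R := by
    refine le_antisymm ?_ (CfsgLib.Cores.le_pCore hRp)
    have hmap := hO2 _ (Subgroup.Normal.map (inferInstance : (pCore 2 D).Normal) Φb hΦbsurj)
      ((CfsgLib.Cores.isPGroup_pCore 2 D).map Φb)
    intro d hd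
    exact Subgroup.mem_bot.1 (hmap ▸ ⟨d, hd, rfl⟩ : Φb d ∈ (⊥ : Subgroup T))
  have hFit : generalizedFittingSubgroup D = R := by
    have hcc : Subgroup.centralizer (pCore 2 D : Set D) ≤ pCore 2 D := by rw [hcore]; exact hcent
    have hlay : layer D = ⊥ := by
      have : Group.IsNilpotent R := hRp.isNilpotent
      have hl := CfsgLib.Cores.layer_le_centralizer_of_isSolvable (S := R)
        (Subgroup.Normal.isSubnormal (H := R) inferInstance)
      exact CfsgLib.Cores.layer_eq_bot_iff.2 fun L hL => CfsgLib.Balance.not_isPGroup_of_isComponent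
        (p := 2) hL (hRp.to_le (((CfsgLib.Cores.le_layer hL).trans hl).trans hcent))
    rw [CfsgLib.Balance.generalizedFittingSubgroup_eq_pCore
      (CfsgLib.Balance.pPrimeCore_eq_bot_of_centralizer_pCore_le hcc) hlay, hcore]
  have hzb2 : orderOf zb = 2 := by
    refine orderOf_eq_prime ?_ fun h => ?_
    · rw [hzbdef, pow_two, ← QuotientGroup.mk_mul, show zH * zH = 1 from Subtype.ext F.sq, QuotientGroup.mk_one]
    · obtain ⟨i, hi⟩ := Subgroup.mem_zpowers_iff.1 (Subgroup.mem_subgroupOf.1 ((QuotientGroup.eq_one_iff zH).1 h))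
      change (b : G) ^ i = z at hi
      have h2 := hzB z (-i) F.sq hbz.symm (by
        rw [zpow_neg, hi, inv_eq_of_mul_eq_one_right F.sq, F.sq, one_mul])
      rw [zpow_neg, inv_eq_one, hi] at h2
      exact F.ne_one h2
  have hmove : ∀ q : Loc.qFix (Q := Q) b, (∃ gX : H ⧸ K, gX * zb * gX⁻¹ = ((lam q : D) : H ⧸ K)) ↔
      IsConj z (qVal (q : Q)) := by
    intro q
    constructor
    · rintro ⟨gX, hg⟩
      obtain ⟨⟨h, hh⟩, rfl⟩ := QuotientGroup.mk_surjective gX
      change (QuotientGroup.mk ⟨h, hh⟩ : H ⧸ K) * QuotientGroup.mk zH * (QuotientGroup.mk ⟨h, hh⟩)⁻¹ =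
        QuotientGroup.mk (j (lam0 q)) at hg
      rw [← QuotientGroup.mk_inv, ← QuotientGroup.mk_mul, ← QuotientGroup.mk_mul, QuotientGroup.eq] at hg
      obtain ⟨i, hi⟩ := Subgroup.mem_zpowers_iff.1 (Subgroup.mem_subgroupOf.1 hg)
      change (b : G) ^ i = (h * z * h⁻¹)⁻¹ * qVal (q : Q) at hi
      set a := h * z * h⁻¹
      have ha : a * a = 1 := by
        rw [show a * a = h * (z * z) * h⁻¹ by simp only [a]; group, F.sq]; group
      have hab : a * (b : G) = (b : G) * a :=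
        (hmemH a).1 (Subgroup.mul_mem _ (Subgroup.mul_mem _ hh hzH) (Subgroup.inv_mem _ hh))
      have hqa : qVal (q : Q) = a * (b : G) ^ i := by rw [hi, mul_inv_cancel_left]
      have hq2 : qVal (q : Q) * qVal (q : Q) = 1 ∨ qVal (q : Q) * qVal (q : Q) = z := by
        rcases (F.mem_center_iff _).1 (sq_mem_center X.hS.2.2.1 (q : Q)) with r | r
        · exact Or.inl r
        · exact Or.inr r
      rcases hq2 with hq2 | hq2
      · rw [hqa] at hq2
        rw [hqa, hzB a i ha hab hq2, mul_one]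
        exact isConj_iff.2 ⟨h, rfl⟩
      · exfalso
        rw [hqa, ((show Commute a (b : G) from hab).zpow_right i).symm.mul_mul_mul_comm a ((b : G) ^ i), ha,
          one_mul, ← zpow_add] at hq2
        have h2 := hzB z (-(i + i)) F.sq hbz.symm (by
          rw [zpow_neg, hq2, inv_eq_of_mul_eq_one_right F.sq, F.sq, one_mul])
        rw [zpow_neg, inv_eq_one, hq2] at h2
        exact F.ne_one h2
    · intro hc
      by_cases hqz : qVal (q : Q) = z
      · refine ⟨1, ?_⟩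
        rw [one_mul, inv_one, mul_one, hzbdef]
        exact congrArg QuotientGroup.mk (Subtype.ext hqz.symm)
      obtain ⟨h, hhb, hhz⟩ := hconj (q : Q) q.2 hc hqz
      refine ⟨QuotientGroup.mk ⟨h, (hmemH h).2 (mul_inv_eq_iff_eq_mul.1 hhb)⟩, ?_⟩
      rw [hzbdef, ← QuotientGroup.mk_inv, ← QuotientGroup.mk_mul, ← QuotientGroup.mk_mul]
      exact congrArg QuotientGroup.mk (Subtype.ext hhz)
  obtain ⟨q₀, hq₀, hq₀c, hq₀z⟩ := hex
  obtain ⟨gX, hgX⟩ := (hmove ⟨q₀, hq₀⟩).2 hq₀c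
  refine ⟨zb, R, inferInstance, fun _ => rfl, ⟨hzb2, hFit, hRex, hRcard, gX, ⟨?_, ?_⟩, ?_⟩,
    ⟨QuotientGroup.quotientKerEquivOfSurjective Φb hΦbsurj⟩, ?_⟩
  · rw [hgX]; exact (lam ⟨q₀, hq₀⟩ : D).2
  · convert (lam ⟨q₀, hq₀⟩).2
  · rw [hgX]
    intro he
    have he' : (QuotientGroup.mk (j (lam0 ⟨q₀, hq₀⟩)) : H ⧸ K) = QuotientGroup.mk zH := he
    obtain ⟨i, hi⟩ := Subgroup.mem_zpowers_iff.1 (Subgroup.mem_subgroupOf.1 (QuotientGroup.eq.1 he'))
    change (b : G) ^ i = (qVal q₀)⁻¹ * z at hi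
    have hq2 : qVal q₀ * qVal q₀ = 1 := by
      obtain ⟨h, hh⟩ := isConj_iff.1 hq₀c
      rw [← hh, show h * z * h⁻¹ * (h * z * h⁻¹) = h * (z * z) * h⁻¹ by group, F.sq]; group
    have hzq : z = qVal q₀ * (b : G) ^ i := by rw [hi, mul_inv_cancel_left]
    have h2 := hzB (qVal q₀) i hq2 (congrArg Subtype.val (Subgroup.mem_centralizer_singleton_iff.1 hq₀))
      (by rw [← hzq]; exact F.sq)
    rw [h2, mul_one] at hzq
    exact hq₀z hzq.symm
  · symm
    refine Set.ncard_congr (fun q _ => (lam q : D)) (fun q hq => ?_) (fun q q' _ _ h => ?_) ?_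
    · exact ⟨(lam q).2, isConj_iff.2 ((hmove q).2 hq)⟩
    · exact hlaminj (Subtype.ext h)
    · rintro d ⟨hdR, hd⟩
      obtain ⟨q, hq⟩ := hlamsurj ⟨d, hdR⟩
      refine ⟨q, (hmove q).1 ?_, congrArg Subtype.val hq⟩
      rw [hq]
      exact isConj_iff.1 hd

end CfsgLib.MonsterLocal
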