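import Cfsg.Agent.Lib.MonsterLocal.Main
import Cfsg.Agent.Lib.MonsterLocal.ThreeHom
import Cfsg.Agent.Lib.ExtraspecialLarge.M24Classes

/-!
The two classes of elements of order 3 of `M24`, told apart in the centraliser of `z` and a conjugate.
-/

set_option autoImplicit false
set_option maxRecDepth 20000

namespace CfsgLib.MonsterLocal.Three

open Cfsg CfsgLib.Fischer2 CfsgLib.Leech
open CfsgLib.Golay (IsTbl idx pt idx_lt idx_pt)
open CfsgLib.ExtraspecialLarge.M24Classes (order_three_cases tblOf_eq repFix3)

/-- No point is fixed. -/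
def NoFix (ρ : M24) : Prop := ∀ p, (ρ : Equiv.Perm GolayPt) p ≠ p

theorem tau_tbl : IsTbl (data.τ : Equiv.Perm GolayPt) data.t := (Data.base_spec ok).2.1

theorem tau_free : ((List.range 24).all fun i => CfsgLib.Golay.tblAt data.t i != i) = true := by decide +kernel

theorem tau_noFix : NoFix data.τ := by
  intro p hp
  have h := List.all_eq_true.1 tau_free (idx p) (List.mem_range.2 (idx_lt p))
  rw [bne_iff_ne, ← tau_tbl p, hp] at h
  exact h rfl

theorem conj_cases {ρ : M24} (hρ : orderOf ρ = 3) :
    (NoFix ρ ∧ ∃ π : M24, π * ρ * π⁻¹ = data.τ) ∨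
    (¬ NoFix ρ ∧ ∃ π r : M24, IsTbl (r : Equiv.Perm GolayPt) repFix3 ∧ π * ρ * π⁻¹ = r) := by
  classical
  have hρ' : orderOf (ρ : Equiv.Perm GolayPt) = 3 := by rw [Subgroup.orderOf_coe, hρ]
  rcases order_three_cases ρ.2 hρ' with ⟨h6, w, hw, r, hr, he⟩ | ⟨h0, w, hw, r, hr, he⟩
  · right
    have hmem : r ∈ M24 := by
      rw [show r = w⁻¹ * (ρ : Equiv.Perm GolayPt) * w by rw [← he]; group]
      exact Subgroup.mul_mem _ (Subgroup.mul_mem _ (Subgroup.inv_mem _ hw) ρ.2) hw
    refine ⟨fun h => ?_, ⟨w, hw⟩⁻¹, ⟨r, hmem⟩, hr, Subtype.ext ?_⟩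
    · rw [Finset.filter_false_of_mem fun p _ => h p, Finset.card_empty] at h6
      exact absurd h6 (by norm_num)
    · show w⁻¹ * (ρ : Equiv.Perm GolayPt) * w⁻¹⁻¹ = r
      rw [← he]; group
  · left
    refine ⟨fun p hp => ?_, ?_⟩
    · rw [Finset.card_eq_zero, Finset.filter_eq_empty_iff] at h0
      exact h0 (Finset.mem_univ p) hp
    have hτ' : orderOf (data.τ : Equiv.Perm GolayPt) = 3 := by
      rw [Subgroup.orderOf_coe, cent.orderOf_tau]; rfl
    rcases order_three_cases data.τ.2 hτ' with ⟨h6, -⟩ | ⟨-, w', hw', r', hr', he'⟩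
    · rw [Finset.filter_false_of_mem fun p _ => tau_noFix p, Finset.card_empty] at h6
      exact absurd h6 (by norm_num)
    refine ⟨⟨w', hw'⟩ * ⟨w, hw⟩⁻¹, Subtype.ext ?_⟩
    show w' * w⁻¹ * (ρ : Equiv.Perm GolayPt) * (w' * w⁻¹)⁻¹ = (data.τ : Equiv.Perm GolayPt)
    rw [← he, ← he', hr'.ext hr]; group

theorem reach : Reach 3 data.τ NoFix := fun ρ hρ hn => by
  rcases conj_cases hρ with ⟨-, π, hπ⟩ | ⟨h, -⟩
  · exact ⟨π, 1, by rw [pow_one, hπ]⟩
  · exact absurd hn h

theorem perms_checks : data.perms.length = 504 ∧ data.perms.Nodup ∧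
    data.perms.all (fun t => decide (t < 2 ^ 120)) = true := by decide +kernel

theorem card_centralizer_tau : Nat.card (Subgroup.centralizer ({data.τ} : Set M24)) = 504 := by
  obtain ⟨hlen, hnd, hb⟩ := perms_checks
  have hex : ∀ i : Fin data.perms.length, ∃ ρ : Subgroup.centralizer ({data.τ} : Set M24),
      IsTbl ((ρ : M24) : Equiv.Perm GolayPt) (data.perms.getD i 0) := fun i => by
    obtain ⟨ρ, hρ, hρm⟩ := Data.permSet_spec ok i.2
    have hcomm := Data.comm_of_mem_gen ok (Data.mem_gen_of_closure ok hρm)
    rw [Data.σ, ← permHom_apply, ← permHom_apply, ← map_mul, ← map_mul] at hcomm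
    exact ⟨⟨ρ, Subgroup.mem_centralizer_singleton_iff.2 (permHom_injective hcomm)⟩, hρ⟩
  choose f hf using hex
  rw [← hlen, ← Nat.card_fin data.perms.length]
  symm
  refine Nat.card_eq_of_bijective f ⟨fun a b h => ?_, fun ρ => ?_⟩
  · have h1 := hf b
    rw [← h] at h1
    have heq : data.perms.getD a 0 = data.perms.getD b 0 := by
      refine tblOf_eq (fun i hi => ?_) ?_ ?_
      · have e1 := hf a (pt i)
        have e2 := h1 (pt i)
        rw [idx_pt hi] at e1 e2
        exact e1.symm.trans e2
      · rw [List.getD_eq_getElem _ _ a.2]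
        exact of_decide_eq_true (List.all_eq_true.1 hb _ (List.getElem_mem a.2))
      · rw [List.getD_eq_getElem _ _ b.2]
        exact of_decide_eq_true (List.all_eq_true.1 hb _ (List.getElem_mem b.2))
    rw [List.getD_eq_getElem _ _ a.2, List.getD_eq_getElem _ _ b.2] at heq
    exact Fin.ext ((hnd.getElem_inj_iff).1 heq)
  · obtain ⟨i, hi, hρ⟩ := Data.closure_subset_permSet ok
      (Data.centralizer_perm ok (Subgroup.mem_centralizer_singleton_iff.1 ρ.2))
    exact ⟨⟨i, hi⟩, Subtype.ext (Subtype.ext ((hf _).ext hρ))⟩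

theorem card_centralizer_conj {H : Type*} [Group H] (π a : H) :
    Nat.card (Subgroup.centralizer ({π * a * π⁻¹} : Set H)) = Nat.card (Subgroup.centralizer ({a} : Set H)) := by
  have h : Subgroup.centralizer ({π * a * π⁻¹} : Set H) =
      (Subgroup.centralizer ({a} : Set H)).map (MulAut.conj π).toMonoidHom := by
    ext u
    rw [Subgroup.mem_map_equiv, MulAut.conj_symm_apply, Subgroup.mem_centralizer_singleton_iff,
      Subgroup.mem_centralizer_singleton_iff]
    constructor
    · intro e
      calc π⁻¹ * u * π * a = π⁻¹ * (u * (π * a * π⁻¹)) * π := by group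
        _ = π⁻¹ * ((π * a * π⁻¹) * u) * π := by rw [e]
        _ = a * (π⁻¹ * u * π) := by group
    · intro e
      calc u * (π * a * π⁻¹) = π * (π⁻¹ * u * π * a) * π⁻¹ := by group
        _ = π * (a * (π⁻¹ * u * π)) * π⁻¹ := by rw [e]
        _ = π * a * π⁻¹ * u := by group
  rw [h, Subgroup.card_map_of_injective (MulAut.conj π).injective]

theorem not_noFix_of_dvd {ρ : M24} (hρ : orderOf ρ = 3)
    (h : 3 ^ 3 ∣ Nat.card (Subgroup.centralizer ({ρ} : Set M24))) : ¬ NoFix ρ := fun hn => by
  rcases conj_cases hρ with ⟨-, π, hπ⟩ | ⟨h', -⟩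
  · rw [← card_centralizer_conj π ρ, hπ, card_centralizer_tau] at h
    norm_num at h
  · exact h' hn

theorem dvd_of_not_noFix {ρ : M24} (hρ : orderOf ρ = 3) (hn : ¬ NoFix ρ) :
    3 ^ 3 ∣ Nat.card (Subgroup.centralizer ({ρ} : Set M24)) := by
  have : Fact (Nat.Prime 3) := ⟨Nat.prime_three⟩
  obtain ⟨P⟩ : Nonempty (Sylow 3 M24) := inferInstance
  have hdvd : 3 ^ 3 ∣ Nat.card M24 := by rw [CfsgLib.Golay.natCard_M24]; norm_num
  have hP3 : 3 ^ 3 ∣ Nat.card (P : Subgroup M24) := P.pow_dvd_card_of_pow_dvd_card hdvd
  have : Nontrivial (P : Subgroup M24) := by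
    rw [← Finite.one_lt_card_iff_nontrivial]
    have := Nat.le_of_dvd Nat.card_pos hP3
    omega
  have hZ := P.isPGroup'.center_nontrivial
  obtain ⟨k, hk⟩ := IsPGroup.iff_card.1 (P.isPGroup'.to_subgroup (Subgroup.center (P : Subgroup M24)))
  have h3 : 3 ∣ Nat.card (Subgroup.center (P : Subgroup M24)) := by
    have h1 := Finite.one_lt_card_iff_nontrivial.2 hZ
    rw [hk] at h1 ⊢
    exact dvd_pow_self 3 (fun h => by rw [h, pow_zero] at h1; omega)
  obtain ⟨g, hg⟩ := exists_prime_orderOf_dvd_card' 3 h3
  set g₀ : M24 := ((g : (P : Subgroup M24)) : M24)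
  have hg₀ : orderOf g₀ = 3 := by rw [Subgroup.orderOf_coe, Subgroup.orderOf_coe, hg]
  have hle : (P : Subgroup M24) ≤ Subgroup.centralizer ({g₀} : Set M24) := fun u hu =>
    Subgroup.mem_centralizer_singleton_iff.2 (congrArg Subtype.val (Subgroup.mem_center_iff.1 g.2 ⟨u, hu⟩))
  have hg27 := hP3.trans (Subgroup.card_dvd_of_le hle)
  rcases conj_cases hρ with ⟨h, -⟩ | ⟨-, π, r, hr, hπ⟩
  · exact absurd h hn
  rcases conj_cases hg₀ with ⟨h, -⟩ | ⟨-, π', r', hr', hπ'⟩
  · exact absurd h (not_noFix_of_dvd hg₀ hg27)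
  rw [← card_centralizer_conj π ρ, hπ, show r = r' from Subtype.ext (hr.ext hr'), ← hπ', card_centralizer_conj]
  exact hg27

/-- Nine independent classes fixed by the representative with fixed points. -/
def fixB : List (List ℤ) := ([3322786880637594063650575050679597436882178679999715050371,
    3200474201736162228381881595442935965333551580132306616450,
    3199899524677346821371709397026725712292319226109846651010,
    3151434353208881591114068923017411174698045763628797296770,
    3199900272977647717826027609796975061169615116184426938500,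
    3199899524688765324906507932794787689864912899159393075330,
    3200474950047880583023587688974971524993294253681960583300,
    3199900272977648239811213483294660874007535534724496785540,
    3199898776399882411346960587912579902403597174826382426240] : List ℕ).map unp

/-- Their duals. -/
def fixD : List (List ℤ) := ([3397789015274994246850269679553957299613897764875872141970,
    3422594411753174291476654117511605788425104726522010633613,
    3520100206401924022265050016270453676161299661091403694991,
    3349322338471169775645701995455776737499561404556307104910,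
    3348748400909393063796133012607942572659231467751893795472,
    3520674892206912247560178642289489432445715269486503101839,
    3250089519501862237749686499995571255343894279295179326084,
    3420868857669097326213166597341876239668807164322252030857,
    3349323086760052690550428072072319407228995805388787188880] : List ℕ).map unp

theorem fix_checks : dualOk fixB fixD = true ∧
    fixB.all (fun b => sameClass (shiftL 319351874156196347363683112368245842 b) b) = true ∧
    ((List.range 24).all fun i => CfsgLib.Golay.tblAt repFix3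
      (CfsgLib.Golay.tblAt 319351874156196347363683112368245842 i) == i &&
        decide (CfsgLib.Golay.tblAt 319351874156196347363683112368245842 i < 24)) = true ∧
    fixD.length = 9 ∧ data.D.length = 8 := by decide +kernel

theorem smul_fixB {r : M24} (hr : IsTbl (r : Equiv.Perm GolayPt) repFix3) :
    ∀ x, CongTwo (permAut r • combV fixB x) (combV fixB x) := by
  obtain ⟨hd, hB, hinv, -⟩ := fix_checks
  obtain ⟨hm, -⟩ := dualOk_spec hd
  have hti := symm_tbl hr hinv
  suffices ∀ B : List (List ℤ), B.all memTest = true →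
      B.all (fun b => sameClass (shiftL 319351874156196347363683112368245842 b) b) = true →
      ∀ x, CongTwo (permAut r • combV B x) (combV B x) from this fixB hm hB
  intro B
  induction B with
  | nil => exact fun _ _ x => by rw [combV, smul_zero_co0]; exact CongTwo.refl _
  | cons b bs ih =>
    intro hall hs x
    simp only [List.all_cons, Bool.and_eq_true] at hall hs
    simp only [combV, smul_add_co0]
    refine congTwo_add ?_ (ih hall.2 hs.2 _)
    split_ifs
    · have hl : b.length = 24 := by
        have := hall.1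
        simp only [memTest, Bool.and_eq_true, decide_eq_true_eq] at this
        exact this.1
      exact congTwo_of_sameClass (length_shiftL _ _) hl (coordVec_shiftL hti (coordVec_vecOf hall.1).symm)
        (coordVec_vecOf hall.1).symm hs.1
    · rw [smul_zero_co0]; exact CongTwo.refl _

variable {G : Type*} [Group G] [Finite G] {z : G} {Q : Subgroup (Subgroup.centralizer ({z} : Set G))}
  [Q.Normal] {e e' : (Subgroup.centralizer ({z} : Set G)) ⧸ Q ≃* Spor.Co1}
  {ψ ψ' : leechLattice → Q ⧸ Subgroup.center Q} {T : Type*} [Group T] {b : CC z}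

/-- An element over the fixed-point-free class has a fixed-point-free permutation in every frame. -/
theorem noFix_of_loc (X : Loc e ψ data T b) (hψ' : IsLeechModTwoIso Q e' ψ') {d : golayCode} {ρ : M24}
    (he : e' (QuotientGroup.mk b) = QuotientGroup.mk (signAut d * permAut ρ)) (hρ : orderOf ρ = 3) :
    NoFix ρ := by
  by_contra hn
  rcases conj_cases hρ with ⟨h, -⟩ | ⟨-, π, r, hr, hπ⟩
  · exact hn h
  have h3 : (signAut d * permAut ρ) ^ 3 = 1 ∨ (signAut (d + oneWord) * permAut ρ) ^ 3 = 1 := by
    have h1 : (QuotientGroup.mk ((signAut d * permAut ρ) ^ 3) : Spor.Co1) = QuotientGroup.mk 1 := by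
      rw [QuotientGroup.mk_pow, ← he, ← map_pow, ← QuotientGroup.mk_pow, ← show orderOf b = 3 from X.order,
        pow_orderOf_eq_one, QuotientGroup.mk_one, map_one]
      rfl
    rcases mk_eq_or h1 with r1 | r1
    · exact Or.inl r1
    · right
      have hn2 : negAut * negAut = (1 : Co0) := co0_ext fun v p => by
        rw [mul_smul, negAut_apply, negAut_apply, neg_neg, one_smul]
      have hc : Commute negAut (signAut d * permAut ρ) :=
        (Subgroup.mem_center_iff.1 negAut_mem_center _).symm
      rw [← signAut_mul, signAut_oneWord, show signAut d * negAut * permAut ρ = negAut * (signAut d * permAut ρ) by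
        rw [Subgroup.mem_center_iff.1 negAut_mem_center (signAut d), mul_assoc], hc.mul_pow, r1, one_mul,
        pow_succ negAut 2, pow_two, hn2, one_mul, hn2]
  obtain ⟨d', he', hd'⟩ : ∃ d', e' (QuotientGroup.mk b) = QuotientGroup.mk (signAut d' * permAut ρ) ∧
      (signAut d' * permAut ρ) ^ 3 = 1 := by
    rcases h3 with h3 | h3
    · exact ⟨d, he, h3⟩
    · refine ⟨d + oneWord, ?_, h3⟩
      rw [he, ← signAut_mul, signAut_oneWord, Subgroup.mem_center_iff.1 negAut_mem_center (signAut d), mul_assoc,
        QuotientGroup.mk_mul _ negAut, (QuotientGroup.eq_one_iff negAut).2 negAut_mem_center, one_mul]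
  obtain ⟨-, a, ha⟩ := exists_unsign (p := 3) (by norm_num) hd'
  set g := signAut d' * permAut ρ
  set m := permAut π * signAut a with hmdef
  have hm : m * g * m⁻¹ = permAut r := by
    calc m * g * m⁻¹ = permAut π * (signAut a * g * (signAut a)⁻¹) * (permAut π)⁻¹ := by rw [hmdef]; group
      _ = permAut r := by
        rw [ha, ← hπ, ← permHom_apply, ← permHom_apply, ← permHom_apply, map_mul, map_mul, map_inv]
  have hfix : ∀ x : Fin (2 ^ 9), CongTwo (g • (m⁻¹ • combV fixB x)) (m⁻¹ • combV fixB x) := fun x => by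
    rw [← mul_smul, show g * m⁻¹ = m⁻¹ * permAut r by rw [← hm]; group, mul_smul]
    exact (smul_fixB hr _).smul _
  have hex : ∀ x : Fin (2 ^ 9), ∃ y : Fin (2 ^ data.D.length),
      ψ (combV data.B y) = ψ' (m⁻¹ • combV fixB x) := by
    intro x
    obtain ⟨q, hq⟩ := QuotientGroup.mk_surjective (ψ' (m⁻¹ • combV fixB x))
    obtain ⟨v, hv⟩ := X.hψ.2.1 (QuotientGroup.mk q)
    have h1 := hψ'.2.2.2 b g he'.symm _ q hq.symm
    rw [(psi_eq_iff hψ').2 (hfix x), ← hq] at h1
    have h2 : q ∈ Loc.qFix b := X.mem_qFix_of_class hv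
      ((psi_eq_iff X.hψ).1 ((X.bConj_class hv).trans (h1.symm.trans hv.symm)))
    obtain ⟨y, hy, hye⟩ := X.exists_code h2
    exact ⟨⟨y, hy⟩, hye.trans hq⟩
  choose f hf using hex
  have hinj : Function.Injective f := fun x y h => by
    have h1 := hf x
    rw [h, hf y, psi_eq_iff hψ'] at h1
    have h2 := h1.smul m
    rw [smul_inv_smul, smul_inv_smul] at h2
    refine Fin.ext (eq_of_congTwo_combV fix_checks.1 ?_ ?_ h2.symm)
    · rw [fix_checks.2.2.2.1]; exact x.2
    · rw [fix_checks.2.2.2.1]; exact y.2
  have h := Nat.card_le_card_of_injective f hinj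
  rw [Nat.card_fin, Nat.card_fin, fix_checks.2.2.2.2] at h
  norm_num at h

end CfsgLib.MonsterLocal.Three
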